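import Mathlib
import Cfsg.Agent.Lib.H8Group.GlaubOver
import Cfsg.Agent.Lib.Char.CliffordBij

set_option autoImplicit false

/-!
Glauberman's lemma for actions in which a normal subgroup acts trivially, and its application to
the constituents of a restriction.
-/

namespace Cfsg.Agent.Lib.H8Group

open Cfsg Module Cfsg.Agent.Lib.Char MulAction

universe u

section Quot

variable {Γ : Type u} [Group Γ] [Finite Γ]

/-- Glauberman's lemma for `G / N` and `S`, in the ambient form. -/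
theorem exists_fixed_of_quotient (L G S N : Subgroup Γ) (hNG : N ≤ G) (hGL : G ≤ L) (hSL : S ≤ L)
    [hNG' : (N.subgroupOf G).Normal] (hLn : L ≤ Subgroup.normalizer (N : Set Γ))
    (hSG : S ≤ Subgroup.normalizer (G : Set Γ))
    (hcop : (N.relIndex G).Coprime (Nat.card S))
    (hsolv : Group.IsSolvable S ∨ Group.IsSolvable (G ⧸ N.subgroupOf G))
    {Y : Type*} [MulAction L Y]
    (hN : ∀ (n : Γ) (hn : n ∈ L), n ∈ N → ∀ y : Y, (⟨n, hn⟩ : L) • y = y)
    (Ω : Set Y) (hne : Ω.Nonempty)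
    (hΩG : ∀ (g : Γ) (hg : g ∈ L), g ∈ G → ∀ y ∈ Ω, (⟨g, hg⟩ : L) • y ∈ Ω)
    (hΩS : ∀ (s : Γ) (hs : s ∈ L), s ∈ S → ∀ y ∈ Ω, (⟨s, hs⟩ : L) • y ∈ Ω)
    (htrans : ∀ x ∈ Ω, ∀ y ∈ Ω, ∃ (g : Γ) (hg : g ∈ L), g ∈ G ∧ (⟨g, hg⟩ : L) • x = y) :
    ∃ ω ∈ Ω, ∀ (s : Γ) (hs : s ∈ L), s ∈ S → (⟨s, hs⟩ : L) • ω = ω := by
  classical
  have hNL : N ≤ L := hNG.trans hGL
  let NL : Subgroup L := N.subgroupOf L
  have hNLn : NL.Normal := (Subgroup.normal_subgroupOf_iff_le_normalizer hNL).mpr hLn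
  let ρ : L →* Equiv.Perm Y := MulAction.toPermHom L Y
  have hρ : ∀ n ∈ NL, ρ n = 1 := by
    intro n hn
    ext y
    exact hN n n.2 hn y
  let ρbar : L ⧸ NL →* Equiv.Perm Y := QuotientGroup.lift NL ρ hρ
  let _ : MulAction (L ⧸ NL) Y := MulAction.compHom Y ρbar
  have hsmul : ∀ (y : L) (v : Y), ((y : L ⧸ NL)) • v = y • v := fun _ _ => rfl
  let φG : G →* L ⧸ NL := (QuotientGroup.mk' NL).comp (Subgroup.inclusion hGL)
  let φS : S →* L ⧸ NL := (QuotientGroup.mk' NL).comp (Subgroup.inclusion hSL)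
  have hkerG : φG.ker = N.subgroupOf G := by
    ext g
    rw [MonoidHom.mem_ker]
    show ((Subgroup.inclusion hGL g : L) : L ⧸ NL) = 1 ↔ _
    rw [QuotientGroup.eq_one_iff]
    rfl
  have hcardK : Nat.card φG.range = N.relIndex G := by
    rw [← Subgroup.index_ker, hkerG]
    rfl
  have hcardA : Nat.card φS.range ∣ Nat.card S := by
    rw [← Subgroup.index_ker]
    exact Subgroup.index_dvd_card _
  have hcopXA : (Nat.card φS.range).Coprime (Nat.card φG.range) := by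
    rw [hcardK]
    exact (hcop.coprime_dvd_right hcardA).symm
  have hAK : φS.range ≤ Subgroup.normalizer (φG.range : Set (L ⧸ NL)) := by
    rintro _ ⟨s, rfl⟩
    rw [Subgroup.mem_normalizer_iff]
    have key : ∀ (s : S) (g : G), ∃ g' : G, φS s * φG g * (φS s)⁻¹ = φG g' := by
      intro s g
      have hm : (s : Γ) * g * (s : Γ)⁻¹ ∈ G := (Subgroup.mem_normalizer_iff.mp (hSG s.2) g).mp g.2
      refine ⟨⟨_, hm⟩, ?_⟩
      rfl
    intro x
    constructor
    · rintro ⟨g, rfl⟩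
      obtain ⟨g', hg'⟩ := key s g
      exact ⟨g', hg'.symm⟩
    · rintro ⟨g, hg⟩
      obtain ⟨g', hg'⟩ := key s⁻¹ g
      refine ⟨g', ?_⟩
      have h1 : x = (φS s)⁻¹ * φG g * φS s := by
        rw [hg]
        group
      rw [h1, ← hg']
      simp
  have hsolv' : Group.IsSolvable φS.range ∨ Group.IsSolvable φG.range := by
    rcases hsolv with h | h
    · left
      exact Group.isSolvable_of_surjective (f := φS.rangeRestrict) φS.rangeRestrict_surjective
    · right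
      let ψ : G ⧸ N.subgroupOf G →* φG.range := QuotientGroup.lift (N.subgroupOf G) φG.rangeRestrict
        (by
          intro g hg
          have h1 : g ∈ φG.ker := by rw [hkerG]; exact hg
          apply Subtype.ext
          exact h1)
      refine Group.isSolvable_of_surjective (f := ψ) ?_
      rintro ⟨_, g, rfl⟩
      exact ⟨(g : G ⧸ N.subgroupOf G), rfl⟩
  obtain ⟨⟨ω, hω, hfix⟩, -⟩ := Cfsg.Agent.Lib.Basic.glauberman hAK hcopXA hsolv' Ω hne
    (by
      rintro _ ⟨g, rfl⟩ x hx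
      exact hΩG g (hGL g.2) g.2 x hx)
    (by
      rintro _ ⟨s, rfl⟩ x hx
      exact hΩS s (hSL s.2) s.2 x hx)
    (by
      intro x hx y hy
      obtain ⟨g, hg, hgG, h⟩ := htrans x hx y hy
      exact ⟨φG ⟨g, hgG⟩, ⟨_, rfl⟩, h⟩)
  refine ⟨ω, hω, fun s hs hsS => ?_⟩
  exact hfix (φS ⟨s, hsS⟩) ⟨_, rfl⟩

end Quot

section Under

variable {Γ : Type u} [Group Γ] [Finite Γ]

/-- Clifford's theorem in ambient form. -/
theorem clifford_constituent_ambient (G N : Subgroup Γ) [Fintype N] (hNG : N ≤ G)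
    [hNG' : (N.subgroupOf G).Normal] (χ : IrrCharacter G) (θ θ' : IrrCharacter N)
    (h : classInner (fun n : N => (χ : G → ℂ) ⟨n, hNG n.2⟩) (θ : N → ℂ) ≠ 0)
    (h' : classInner (fun n : N => (χ : G → ℂ) ⟨n, hNG n.2⟩) (θ' : N → ℂ) ≠ 0) :
    ∃ g ∈ G, ∀ (n m : N), (m : Γ) = g⁻¹ * n * g → (θ' : N → ℂ) n = (θ : N → ℂ) m := by
  classical
  let _ : Fintype G := Fintype.ofFinite _
  let _ : Fintype (N.subgroupOf G) := Fintype.ofFinite _
  let e := Subgroup.subgroupOfEquivOfLe hNG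
  rw [classInner_subgroupOf G N hNG] at h h'
  obtain ⟨g, hg⟩ := clifford_constituent (N := N.subgroupOf G) χ.2
    (isIrrCharacter_comp_mulEquiv e θ.2) (isIrrCharacter_comp_mulEquiv e θ'.2) h h'
  refine ⟨g, g.2, fun n m hm => ?_⟩
  have h1 := congrFun hg (e.symm n)
  simp only [Function.comp_apply, MulEquiv.apply_symm_apply, conjFun_apply] at h1
  rw [h1]
  refine congrArg (θ : N → ℂ) (Subtype.ext ?_)
  rw [hm]
  rfl

/-- A normalizing element fixing `ζ` does not change inner products with conjugates. -/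
theorem classInner_conjOn_right (N : Subgroup Γ) [Fintype N] {y : Γ}
    (hy : y ∈ Subgroup.normalizer (N : Set Γ)) {ζ : N → ℂ}
    (hζ : ∀ n : N, ζ (conjOn N y hy n) = ζ n) (θ : N → ℂ) :
    classInner ζ (θ ∘ conjOn N y hy) = classInner ζ θ := by
  have h1 : ζ = ζ ∘ conjOn N y hy := by
    funext n
    exact (hζ n).symm
  conv_lhs => rw [h1]
  exact classInner_comp_mulEquiv _ ζ θ

/-- An invariant character has an invariant constituent on a normal subgroup. -/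
theorem exists_invariant_under (G S N : Subgroup Γ) [Fintype N] (hNG : N ≤ G)
    [hNG' : (N.subgroupOf G).Normal] (hSG : S ≤ Subgroup.normalizer (G : Set Γ))
    (hSN : S ≤ Subgroup.normalizer (N : Set Γ))
    (hcop : (N.relIndex G).Coprime (Nat.card S))
    (hsolv : Group.IsSolvable S ∨ Group.IsSolvable (G ⧸ N.subgroupOf G))
    (χ : IrrCharacter G) (hinv : InvBy S (χ : G → ℂ)) :
    ∃ θ : IrrCharacter N, classInner (fun n : N => (χ : G → ℂ) ⟨n, hNG n.2⟩) (θ : N → ℂ) ≠ 0 ∧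
      InvBy S (θ : N → ℂ) := by
  classical
  have hGN : G ≤ Subgroup.normalizer (N : Set Γ) :=
    (Subgroup.normal_subgroupOf_iff_le_normalizer hNG).mp hNG'
  have hLn : G ⊔ S ≤ Subgroup.normalizer (N : Set Γ) := sup_le hGN hSN
  have hT : ∀ t ∈ G ⊔ S, t ∈ Subgroup.normalizer (N : Set Γ) := fun t ht => hLn ht
  let _ := normAction (G ⊔ S) N hT
  have hsmul : ∀ (u : ↥(G ⊔ S)) (φ : IrrCharacter N) (n : N),
      ((u • φ : IrrCharacter N) : N → ℂ) n =
        (φ : N → ℂ) (conjOn N (u : Γ)⁻¹ (Subgroup.inv_mem _ (hT u u.2)) n) := fun _ _ _ => rfl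
  let ζ : N → ℂ := fun n => (χ : G → ℂ) ⟨n, hNG n.2⟩
  have hζ : IsCharacter N ζ :=
    IsCharacter.comp (IsIrrCharacter.isCharacter χ.2) (Subgroup.inclusion hNG)
  let _ : Fintype G := Fintype.ofFinite _
  have hclass := IsCharacter.isClassFunction (IsIrrCharacter.isCharacter χ.2)
  have hΩ : ∀ (y : Γ) (hy : y ∈ G ⊔ S), (y ∈ G ∨ y ∈ S) → ∀ θ : IrrCharacter N,
      classInner ζ (θ : N → ℂ) ≠ 0 → classInner ζ (((⟨y, hy⟩ : ↥(G ⊔ S)) • θ : IrrCharacter N) : N → ℂ) ≠ 0 := by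
    intro y hy hyc θ hθ
    have h1 : ((( ⟨y, hy⟩ : ↥(G ⊔ S)) • θ : IrrCharacter N) : N → ℂ) =
        (θ : N → ℂ) ∘ conjOn N y⁻¹ (Subgroup.inv_mem _ (hT y hy)) := rfl
    rw [h1, classInner_conjOn_right N _ _ (θ : N → ℂ)]
    · exact hθ
    · intro n
      show (χ : G → ℂ) ⟨y⁻¹ * n * y⁻¹⁻¹, _⟩ = (χ : G → ℂ) ⟨n, hNG n.2⟩
      rcases hyc with hyG | hyS
      · have := hclass ⟨n, hNG n.2⟩ ⟨y⁻¹, G.inv_mem hyG⟩
        exact this
      · refine hinv y⁻¹ (S.inv_mem hyS) ⟨n, hNG n.2⟩ _ rfl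
  obtain ⟨θ₀, hθ₀, hover⟩ := exists_constituent hζ (by
    show (χ : G → ℂ) 1 ≠ 0
    exact IsIrrCharacter.apply_one_ne_zero χ.2)
  obtain ⟨ω, hω, hfix⟩ := exists_fixed_of_quotient (G ⊔ S) G S N hNG le_sup_left le_sup_right
    hLn hSG hcop hsolv (Y := IrrCharacter N)
    (by
      intro n hn hnN φ
      apply Subtype.ext
      funext m
      rw [hsmul]
      have h2 := IsCharacter.isClassFunction (IsIrrCharacter.isCharacter φ.2) m ⟨n, hnN⟩⁻¹
      simp only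
      rw [← h2]
      refine congrArg (φ : N → ℂ) (Subtype.ext ?_)
      simp)
    {φ | classInner ζ (φ : N → ℂ) ≠ 0} ⟨⟨θ₀, hθ₀⟩, hover⟩
    (fun g hg hgG φ hφ => hΩ g hg (Or.inl hgG) φ hφ)
    (fun s hs hsS φ hφ => hΩ s hs (Or.inr hsS) φ hφ)
    (by
      intro φ hφ φ' hφ'
      obtain ⟨g, hg, h⟩ := clifford_constituent_ambient G N hNG χ φ φ' hφ hφ'
      refine ⟨g, (le_sup_left : G ≤ G ⊔ S) hg, hg, ?_⟩
      apply Subtype.ext
      funext n
      rw [hsmul, h n (conjOn N g⁻¹ (Subgroup.inv_mem _ (hT g ((le_sup_left : G ≤ G ⊔ S) hg))) n) (by simp)])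
  refine ⟨ω, hω, fun s hs g g' hgg' => ?_⟩
  have hsL : s ∈ G ⊔ S := (le_sup_right : S ≤ G ⊔ S) hs
  have h1 := congrFun (congrArg Subtype.val (hfix s hsL hs)) g'
  rw [hsmul] at h1
  rw [← h1]
  refine congrArg (ω : N → ℂ) (Subtype.ext ?_)
  simp only [conjOn_coe, inv_inv]
  rw [hgg']
  group

end Under

end Cfsg.Agent.Lib.H8Group
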