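import Mathlib
import Cfsg.Agent.Lib.H8Group.GlaubLemma
import Cfsg.Agent.Lib.H8Group.Extension

set_option autoImplicit false

/-!
Invariant characters over an invariant character when the quotient is solvable and of order prime to
the operators.
-/

namespace Cfsg.Agent.Lib.H8Group

open Cfsg Module Cfsg.Agent.Lib.Char MulAction
open scoped ComplexConjugate commutatorElement

universe u

section Abstract

/-- An abelian group transitive on a set, with operators of order prime to its exponent: there is a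
fixed point. -/
theorem exists_fixed_of_abelian_transitive {K S Y : Type*} [CommGroup K] [Group S] [Finite S]
    [MulAction K Y] [MulAction S Y] (a : S → K →* K) {e : ℕ} (hexp : ∀ k : K, k ^ e = 1)
    (hcop : e.Coprime (Nat.card S)) (Ω : Set Y) (hne : Ω.Nonempty)
    (hΩ : ∀ (s : S), ∀ y ∈ Ω, s • y ∈ Ω)
    (hΩK : ∀ (k : K), ∀ y ∈ Ω, k • y ∈ Ω)
    (hcompat : ∀ (s : S) (k : K) (y : Y), s • (k • y) = (a s k) • (s • y))
    (htrans : ∀ x ∈ Ω, ∀ y ∈ Ω, ∃ k : K, k • x = y) :
    ∃ ω ∈ Ω, ∀ s : S, s • ω = ω := by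
  classical
  let _ : Fintype S := Fintype.ofFinite _
  obtain ⟨ω₀, hω₀⟩ := hne
  have hch : ∀ s : S, ∃ k : K, k • ω₀ = s • ω₀ := fun s => htrans ω₀ hω₀ _ (hΩ s ω₀ hω₀)
  choose l hl using hch
  let K₀ : Subgroup K := stabilizer K ω₀
  have hK₀ : ∀ a b : K, a • ω₀ = b • ω₀ → a⁻¹ * b ∈ K₀ := by
    intro a b h
    show (a⁻¹ * b) • ω₀ = ω₀
    rw [mul_smul, ← h, inv_smul_smul]
  have hcoc : ∀ s t : S, (l (s * t))⁻¹ * (a s (l t) * l s) ∈ K₀ := by
    intro s t
    apply hK₀
    rw [hl, mul_smul, mul_smul, hl, ← hcompat, hl]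
  let w : K := ∏ t : S, l t
  let m := Nat.card S
  have hprod : ∀ s : S, w⁻¹ * (a s w * l s ^ m) ∈ K₀ := by
    intro s
    have h1 : ∏ t : S, ((l (s * t))⁻¹ * (a s (l t) * l s)) ∈ K₀ :=
      Subgroup.prod_mem _ fun t _ => hcoc s t
    have h2 : ∏ t : S, ((l (s * t))⁻¹ * (a s (l t) * l s)) = w⁻¹ * (a s w * l s ^ m) := by
      rw [Finset.prod_mul_distrib, Finset.prod_mul_distrib, Finset.prod_inv_distrib, map_prod,
        Finset.prod_const, Finset.card_univ, ← Nat.card_eq_fintype_card]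
      congr 2
      exact Equiv.prod_comp (Equiv.mulLeft s) l
    rw [h2] at h1
    exact h1
  -- an inverse of `m` modulo the exponent
  obtain ⟨n, hpow⟩ : ∃ n : ℕ, ∀ k : K, (k ^ m) ^ n = k := by
    rcases Nat.lt_or_ge 1 e with he | he
    · obtain ⟨n, -, hn⟩ := Nat.exists_mul_mod_eq_one_of_coprime hcop.symm he
      refine ⟨n, fun k => ?_⟩
      rw [← pow_mul]
      have h1 : orderOf k ∣ e := orderOf_dvd_of_pow_eq_one (hexp k)
      have hn' : m * n ≡ 1 [MOD e] := by
        show m * n % e = 1 % e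
        rw [hn, Nat.mod_eq_of_lt he]
      have h2 : m * n ≡ 1 [MOD orderOf k] := hn'.of_dvd h1
      have h3 := pow_eq_pow_iff_modEq.mpr h2
      simpa using h3
    · interval_cases e
      · have hm : m = 1 := (Nat.coprime_zero_left _).mp hcop
        refine ⟨1, fun k => ?_⟩
        rw [hm]
        simp
      · refine ⟨1, fun k => ?_⟩
        have h1 : k = 1 := by simpa using hexp k
        rw [h1]
        simp
  let μ : K := w ^ n
  refine ⟨μ • ω₀, hΩK _ _ hω₀, fun s => ?_⟩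
  have h1 : μ⁻¹ * (a s μ * l s) ∈ K₀ := by
    have h2 := K₀.pow_mem (hprod s) n
    have h3 : (w⁻¹ * (a s w * l s ^ m)) ^ n = μ⁻¹ * (a s μ * l s) := by
      rw [mul_pow, mul_pow, hpow, inv_pow, ← map_pow]
    rwa [h3] at h2
  rw [hcompat, ← hl s, ← mul_smul]
  have h2 : (μ⁻¹ * (a s μ * l s)) • ω₀ = ω₀ := h1
  calc (a s μ * l s) • ω₀ = (μ * (μ⁻¹ * (a s μ * l s))) • ω₀ := by
        rw [mul_inv_cancel_left]
    _ = μ • ω₀ := by rw [mul_smul, h2]

end Abstract

section Twist

variable {G : Type u} [Group G] [Fintype G]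

/-- Two characters with a common constituent are not orthogonal. -/
theorem classInner_ne_zero_of_common {f g : G → ℂ} (hf : IsCharacter G f) (hg : IsCharacter G g)
    (ψ : IrrCharacter G) (h1 : classInner f (ψ : G → ℂ) ≠ 0) (h2 : classInner g (ψ : G → ℂ) ≠ 0) :
    classInner f g ≠ 0 := by
  classical
  have ha : ∀ θ : IrrCharacter G, ∃ n : ℕ, classInner f (θ : G → ℂ) = (n : ℂ) :=
    fun θ => IsCharacter.classInner_irr_eq_nat hf θ.2
  have hb : ∀ θ : IrrCharacter G, ∃ n : ℕ, classInner g (θ : G → ℂ) = (n : ℂ) :=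
    fun θ => IsCharacter.classInner_irr_eq_nat hg θ.2
  choose a ha using ha
  choose b hb using hb
  rw [classInner_eq_sum_coeffs f g (IsCharacter.isClassFunction hf) (IsCharacter.isClassFunction hg)]
  have h3 : ∑ θ : IrrCharacter G, classInner f (θ : G → ℂ) * conj (classInner g (θ : G → ℂ)) =
      ((∑ θ : IrrCharacter G, a θ * b θ : ℕ) : ℂ) := by
    push_cast
    refine Finset.sum_congr rfl fun θ _ => ?_
    rw [ha, hb]
    simp
  rw [h3]
  have ha0 : a ψ ≠ 0 := by
    intro h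
    apply h1
    rw [ha, h]
    simp
  have hb0 : b ψ ≠ 0 := by
    intro h
    apply h2
    rw [hb, h]
    simp
  have h4 : a ψ * b ψ ≤ ∑ θ : IrrCharacter G, a θ * b θ :=
    Finset.single_le_sum (f := fun θ => a θ * b θ) (fun _ _ => Nat.zero_le _) (Finset.mem_univ ψ)
  have h5 : 0 < a ψ * b ψ := Nat.mul_pos (Nat.pos_of_ne_zero ha0) (Nat.pos_of_ne_zero hb0)
  exact_mod_cast (by omega : (∑ θ : IrrCharacter G, a θ * b θ) ≠ 0)

/-- Non-orthogonal restrictions to a normal subgroup with abelian factor group differ by a linear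
character. -/
theorem exists_twist_of_res (M : Subgroup G) [M.Normal] [Fintype M] (hab : ∀ a b : G ⧸ M, a * b = b * a)
    (χ χ' : G → ℂ) (h : classInner (resFun M χ) (resFun M χ') ≠ 0) :
    ∃ lam : G ⧸ M →* ℂˣ, classInner (fun g : G => ((lam (g : G ⧸ M) : ℂˣ) : ℂ) * χ g) χ' ≠ 0 := by
  classical
  let _ : Fintype (G ⧸ M) := Fintype.ofFinite _
  by_contra hcon
  push Not at hcon
  apply h
  have hlin : ∀ ν : IrrCharacter (G ⧸ M), ∃ lam : G ⧸ M →* ℂˣ,
      (ν : G ⧸ M → ℂ) = fun x => ((lam x : ℂˣ) : ℂ) :=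
    fun ν => IsCharacter.exists_monoidHom (IsIrrCharacter.isCharacter ν.2)
      ((comm_iff_irr_degree_one.mp hab) ν)
  have hone : ∀ ν : IrrCharacter (G ⧸ M), (ν : G ⧸ M → ℂ) 1 = 1 := comm_iff_irr_degree_one.mp hab
  have h0 : ∑ ν : IrrCharacter (G ⧸ M),
      classInner (fun g : G => (ν : G ⧸ M → ℂ) (g : G ⧸ M) * χ g) χ' = 0 := by
    refine Finset.sum_eq_zero fun ν _ => ?_
    obtain ⟨lam, hlam⟩ := hlin ν
    rw [hlam]
    exact hcon lam
  have h1 : ∑ ν : IrrCharacter (G ⧸ M),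
      classInner (fun g : G => (ν : G ⧸ M → ℂ) (g : G ⧸ M) * χ g) χ' =
      (Nat.card G : ℂ)⁻¹ * (Nat.card (G ⧸ M) : ℂ) * ∑ n : M, χ n * conj (χ' n) := by
    simp only [classInner]
    rw [← Finset.mul_sum, Finset.sum_comm, mul_assoc]
    congr 1
    have h2 : ∀ g : G, ∑ ν : IrrCharacter (G ⧸ M), (ν : G ⧸ M → ℂ) (g : G ⧸ M) * χ g * conj (χ' g) =
        if hg : g ∈ M then (Nat.card (G ⧸ M) : ℂ) * (χ (⟨g, hg⟩ : M) * conj (χ' (⟨g, hg⟩ : M))) else 0 := by
      intro g
      have h3 := sum_irr_degree_mul_apply (G := G ⧸ M) (g : G ⧸ M)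
      simp only [hone, one_mul] at h3
      rw [← Finset.sum_mul, ← Finset.sum_mul]
      have h3' : ∑ ν : IrrCharacter (G ⧸ M), (ν : G ⧸ M → ℂ) (g : G ⧸ M) =
          if g ∈ M then (Nat.card (G ⧸ M) : ℂ) else 0 := by
        rw [h3]
        simp only [QuotientGroup.eq_one_iff]
      rw [h3']
      split_ifs with hg
      · simp [mul_assoc]
      · simp
    rw [Finset.sum_congr rfl fun g _ => h2 g, sum_dite_mem M
      (fun n => (Nat.card (G ⧸ M) : ℂ) * (χ n * conj (χ' n))), Finset.mul_sum]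
  rw [h1] at h0
  have hQ : (Nat.card (G ⧸ M) : ℂ) ≠ 0 := by
    exact_mod_cast Nat.card_pos.ne'
  have hG : (Nat.card G : ℂ) ≠ 0 := by
    exact_mod_cast Nat.card_pos.ne'
  have h2 : ∑ n : M, χ n * conj (χ' n) = 0 := by
    rcases mul_eq_zero.mp h0 with h3 | h3
    · exact absurd h3 (mul_ne_zero (inv_ne_zero hG) hQ)
    · exact h3
  simp only [classInner, resFun]
  rw [h2, mul_zero]

end Twist

section Ambient

variable {Γ : Type u} [Group Γ] [Finite Γ]

/-- One abelian step: an invariant character of a normal subgroup with abelian factor group of order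
prime to the operators lies under an invariant character. -/
theorem abelian_step (G S M : Subgroup Γ) [Fintype M] (hMG : M ≤ G)
    (hMn : ∀ g ∈ G, g ∈ Subgroup.normalizer (M : Set Γ))
    (hab : ∀ x ∈ G, ∀ y ∈ G, x * y * x⁻¹ * y⁻¹ ∈ M)
    (hSG : ∀ s ∈ S, s ∈ Subgroup.normalizer (G : Set Γ))
    (hSM : ∀ s ∈ S, s ∈ Subgroup.normalizer (M : Set Γ))
    (hcop : (M.relIndex G).Coprime (Nat.card S))
    (ψ : IrrCharacter M) (hψ : InvBy S (ψ : M → ℂ)) :
    ∃ χ : IrrCharacter G, classInner (fun n : M => (χ : G → ℂ) ⟨n, hMG n.2⟩) (ψ : M → ℂ) ≠ 0 ∧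
      InvBy S (χ : G → ℂ) := by
  classical
  let _ : Fintype G := Fintype.ofFinite _
  let M₀ : Subgroup G := M.subgroupOf G
  have hM₀ : M₀.Normal := (Subgroup.normal_subgroupOf_iff_le_normalizer hMG).mpr hMn
  let _ : Fintype M₀ := Fintype.ofFinite _
  let Q := G ⧸ M₀
  have hQ : ∀ a b : Q, a * b = b * a := by
    intro a b
    induction a using QuotientGroup.induction_on with
    | H a =>
    induction b using QuotientGroup.induction_on with
    | H b =>
    rw [← QuotientGroup.mk_mul, ← QuotientGroup.mk_mul, QuotientGroup.eq]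
    show (a * b)⁻¹ * (b * a) ∈ M₀
    rw [Subgroup.mem_subgroupOf]
    have h1 := hab _ (b⁻¹ : G).2 _ (a⁻¹ : G).2
    have h2 : ((b⁻¹ : G) : Γ) = (b : Γ)⁻¹ := rfl
    have h3 : ((a⁻¹ : G) : Γ) = (a : Γ)⁻¹ := rfl
    rw [h2, h3] at h1
    have h4 : (((a * b)⁻¹ * (b * a) : G) : Γ) = (b : Γ)⁻¹ * (a : Γ)⁻¹ * (b : Γ)⁻¹⁻¹ * (a : Γ)⁻¹⁻¹ := by
      simp [mul_assoc]
    rw [h4]
    exact h1
  -- the twisting action
  let K := Q →* ℂˣ
  let actK : MulAction K (IrrCharacter G) :=
    { smul := fun k χ => ⟨fun g => ((k (g : Q) : ℂˣ) : ℂ) * (χ : G → ℂ) g,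
        isIrr_twist (k.comp (QuotientGroup.mk' M₀)) χ.2⟩
      one_smul := by
        intro χ
        apply Subtype.ext
        funext g
        show (((1 : K) (g : Q) : ℂˣ) : ℂ) * (χ : G → ℂ) g = (χ : G → ℂ) g
        rw [MonoidHom.one_apply, Units.val_one, one_mul]
      mul_smul := by
        intro k l χ
        apply Subtype.ext
        funext g
        show (((k * l : K) (g : Q) : ℂˣ) : ℂ) * (χ : G → ℂ) g =
          ((k (g : Q) : ℂˣ) : ℂ) * (((l (g : Q) : ℂˣ) : ℂ) * (χ : G → ℂ) g)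
        rw [MonoidHom.mul_apply, Units.val_mul, mul_assoc] }
  have hkval : ∀ (k : K) (χ : IrrCharacter G) (g : G),
      ((actK.toSMul.smul k χ : IrrCharacter G) : G → ℂ) g = ((k (g : Q) : ℂˣ) : ℂ) * (χ : G → ℂ) g :=
    fun _ _ _ => rfl
  let actS := normAction S G hSG
  have hsval : ∀ (s : S) (χ : IrrCharacter G) (g : G),
      ((actS.toSMul.smul s χ : IrrCharacter G) : G → ℂ) g =
        (χ : G → ℂ) (conjOn G (s : Γ)⁻¹ (Subgroup.inv_mem _ (hSG s s.2)) g) := fun _ _ _ => rfl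
  -- the action of the operators on the twisting group
  have hmap : ∀ s : S, M₀ ≤ M₀.comap
      (conjOn G (s : Γ)⁻¹ (Subgroup.inv_mem _ (hSG s s.2))).toMonoidHom := by
    intro s n hn
    rw [Subgroup.mem_comap, Subgroup.mem_subgroupOf]
    show (s : Γ)⁻¹ * n * (s : Γ)⁻¹⁻¹ ∈ M
    exact (Subgroup.mem_normalizer_iff.mp (Subgroup.inv_mem _ (hSM s s.2)) _).mp hn
  let φ : S → Q →* Q := fun s => QuotientGroup.map M₀ M₀ _ (hmap s)
  let a : S → K →* K := fun s =>
    { toFun := fun k => k.comp (φ s)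
      map_one' := rfl
      map_mul' := fun _ _ => rfl }
  have hexp : ∀ k : K, k ^ (M.relIndex G) = 1 := by
    intro k
    refine MonoidHom.ext fun x => ?_
    have hx : x ^ (M.relIndex G) = 1 := by
      have : Nat.card Q = M.relIndex G := rfl
      rw [← this]
      exact pow_card_eq_one' (G := Q)
    rw [MonoidHom.pow_apply, ← map_pow, hx, map_one, MonoidHom.one_apply]
  let ζ : IrrCharacter G → M → ℂ := fun χ n => (χ : G → ℂ) ⟨n, hMG n.2⟩
  have hζ : ∀ χ : IrrCharacter G, IsCharacter M (ζ χ) := fun χ =>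
    IsCharacter.comp (IsIrrCharacter.isCharacter χ.2) (Subgroup.inclusion hMG)
  obtain ⟨χ₀, hχ₀⟩ := exists_over_ambient G M hMG hMn ψ
  obtain ⟨ω, hω, hfix⟩ := @exists_fixed_of_abelian_transitive K S (IrrCharacter G) _ _ _
    actK actS a (M.relIndex G) hexp hcop
    {χ | classInner (ζ χ) (ψ : M → ℂ) ≠ 0} ⟨χ₀, hχ₀⟩
    (by
      intro s χ hχ
      show classInner (ζ (actS.toSMul.smul s χ)) (ψ : M → ℂ) ≠ 0
      have h1 : ζ (actS.toSMul.smul s χ) =
          ζ χ ∘ conjOn M (s : Γ)⁻¹ (Subgroup.inv_mem _ (hSM s s.2)) := by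
        funext n
        rfl
      have h2 : (ψ : M → ℂ) = (ψ : M → ℂ) ∘ conjOn M (s : Γ)⁻¹ (Subgroup.inv_mem _ (hSM s s.2)) := by
        funext n
        exact (hψ _ (S.inv_mem s.2) n _ rfl).symm
      rw [h1, h2, classInner_comp_mulEquiv]
      exact hχ)
    (by
      intro k χ hχ
      show classInner (ζ (actK.toSMul.smul k χ)) (ψ : M → ℂ) ≠ 0
      have h1 : ζ (actK.toSMul.smul k χ) = ζ χ := by
        funext n
        have hn : (((⟨n, hMG n.2⟩ : G) : Q)) = 1 := by
          rw [QuotientGroup.eq_one_iff]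
          exact n.2
        show ((k ((⟨n, hMG n.2⟩ : G) : Q) : ℂˣ) : ℂ) * (χ : G → ℂ) ⟨n, hMG n.2⟩ = _
        rw [hn, map_one, Units.val_one, one_mul]
      rw [h1]
      exact hχ)
    (by
      intro s k χ
      apply Subtype.ext
      funext g
      rfl)
    (by
      intro χ hχ χ' hχ'
      have hne := classInner_ne_zero_of_common (hζ χ) (hζ χ') ψ hχ hχ'
      have hne' : classInner (resFun M₀ (χ : G → ℂ)) (resFun M₀ (χ' : G → ℂ)) ≠ 0 := by
        have := classInner_comp_mulEquiv (Subgroup.subgroupOfEquivOfLe hMG)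
          (fun n : M => (χ : G → ℂ) ⟨n, hMG n.2⟩) (fun n : M => (χ' : G → ℂ) ⟨n, hMG n.2⟩)
        rw [← this] at hne
        exact hne
      obtain ⟨lam, hlam⟩ := exists_twist_of_res M₀ hQ (χ : G → ℂ) (χ' : G → ℂ) hne'
      refine ⟨lam, ?_⟩
      have hirr : IsIrrCharacter G (fun g => ((lam (g : Q) : ℂˣ) : ℂ) * (χ : G → ℂ) g) :=
        isIrr_twist (lam.comp (QuotientGroup.mk' M₀)) χ.2
      by_contra hne2
      apply hlam
      apply classInner_irr_of_ne hirr χ'.2
      intro h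
      apply hne2
      apply Subtype.ext
      exact h)
  refine ⟨ω, hω, fun s hs g g' hgg' => ?_⟩
  have h1 := congrFun (congrArg Subtype.val (hfix ⟨s, hs⟩)) g'
  rw [← h1]
  show (ω : G → ℂ) (conjOn G s⁻¹ (Subgroup.inv_mem _ (hSG s hs)) g') = _
  refine congrArg (ω : G → ℂ) (Subtype.ext ?_)
  simp only [conjOn_coe, inv_inv]
  rw [hgg']
  group

/-- Constituents of constituents are constituents. -/
theorem over_trans {G M N : Subgroup Γ} [Fintype M] [Fintype N] (hMG : M ≤ G) (hNM : N ≤ M)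
    {χ : G → ℂ} (hχ : IsCharacter G χ) (ψ : IrrCharacter M) (θ : IrrCharacter N)
    (h1 : classInner (fun n : M => χ ⟨n, hMG n.2⟩) (ψ : M → ℂ) ≠ 0)
    (h2 : classInner (fun n : N => (ψ : M → ℂ) ⟨n, hNM n.2⟩) (θ : N → ℂ) ≠ 0) :
    classInner (fun n : N => χ ⟨n, hMG (hNM n.2)⟩) (θ : N → ℂ) ≠ 0 := by
  classical
  let f : M → ℂ := fun c => χ ⟨c, hMG c.2⟩
  have hf : IsCharacter M f := IsCharacter.comp hχ (Subgroup.inclusion hMG)
  have hsum : f = ∑ φ : IrrCharacter M, classInner f (φ : M → ℂ) • (φ : M → ℂ) :=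
    classFunction_eq_sum f (IsCharacter.isClassFunction hf)
  have ha : ∀ φ : IrrCharacter M, ∃ n : ℕ, classInner f (φ : M → ℂ) = (n : ℂ) :=
    fun φ => IsCharacter.classInner_irr_eq_nat hf φ.2
  have hb : ∀ φ : IrrCharacter M, ∃ n : ℕ,
      classInner (fun n : N => (φ : M → ℂ) ⟨n, hNM n.2⟩) (θ : N → ℂ) = (n : ℂ) :=
    fun φ => IsCharacter.classInner_irr_eq_nat
      (IsCharacter.comp (IsIrrCharacter.isCharacter φ.2) (Subgroup.inclusion hNM)) θ.2
  choose a ha using ha
  choose b hb using hb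
  have hexp : classInner (fun n : N => χ ⟨n, hMG (hNM n.2)⟩) (θ : N → ℂ) =
      ((∑ φ : IrrCharacter M, a φ * b φ : ℕ) : ℂ) := by
    have h3 : (fun n : N => χ ⟨n, hMG (hNM n.2)⟩) =
        ∑ φ : IrrCharacter M, classInner f (φ : M → ℂ) •
          (fun c : N => (φ : M → ℂ) ⟨c, hNM c.2⟩) := by
      funext c
      have h4 := congrFun hsum ⟨c, hNM c.2⟩
      simp only [Finset.sum_apply, Pi.smul_apply, smul_eq_mul] at h4 ⊢
      exact h4
    rw [h3, classInner_sum_left]
    push_cast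
    refine Finset.sum_congr rfl fun φ _ => ?_
    rw [classInner_smul_left, ha, hb]
  rw [hexp]
  have ha0 : a ψ ≠ 0 := by
    intro h
    apply h1
    rw [show classInner (fun n : M => χ ⟨n, hMG n.2⟩) (ψ : M → ℂ) = classInner f (ψ : M → ℂ) from rfl,
      ha, h]
    simp
  have hb0 : b ψ ≠ 0 := by
    intro h
    apply h2
    rw [hb, h]
    simp
  have h4 : a ψ * b ψ ≤ ∑ φ : IrrCharacter M, a φ * b φ :=
    Finset.single_le_sum (f := fun φ => a φ * b φ) (fun _ _ => Nat.zero_le _) (Finset.mem_univ ψ)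
  have h5 : 0 < a ψ * b ψ := Nat.mul_pos (Nat.pos_of_ne_zero ha0) (Nat.pos_of_ne_zero hb0)
  exact_mod_cast (by omega : (∑ φ : IrrCharacter M, a φ * b φ) ≠ 0)

omit [Finite Γ] in
theorem map_conj_eq_of_mem_normalizer {H : Subgroup Γ} {t : Γ}
    (ht : t ∈ Subgroup.normalizer (H : Set Γ)) : H.map (MulAut.conj t).toMonoidHom = H := by
  ext x
  constructor
  · rintro ⟨y, hy, rfl⟩
    exact (Subgroup.mem_normalizer_iff.mp ht y).mp hy
  · intro hx
    refine ⟨t⁻¹ * x * t, (Subgroup.mem_normalizer_iff.mp ht _).mpr ?_, ?_⟩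
    · simpa [mul_assoc] using hx
    · simp [mul_assoc]

omit [Finite Γ] in
theorem mem_normalizer_of_map_conj_eq {H : Subgroup Γ} {t : Γ}
    (ht : H.map (MulAut.conj t).toMonoidHom = H) : t ∈ Subgroup.normalizer (H : Set Γ) := by
  rw [Subgroup.mem_normalizer_iff]
  intro x
  constructor
  · intro hx
    rw [← ht]
    exact ⟨x, hx, rfl⟩
  · intro hx
    rw [← ht] at hx
    obtain ⟨y, hy, hyx⟩ := hx
    have : y = x := by
      have h1 : t * y * t⁻¹ = t * x * t⁻¹ := hyx
      simpa using h1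
    rwa [← this]

omit [Finite Γ] in
theorem mem_normalizer_sup_commutator {N G : Subgroup Γ} {t : Γ}
    (hN : t ∈ Subgroup.normalizer (N : Set Γ)) (hG : t ∈ Subgroup.normalizer (G : Set Γ)) :
    t ∈ Subgroup.normalizer ((N ⊔ ⁅G, G⁆ : Subgroup Γ) : Set Γ) := by
  apply mem_normalizer_of_map_conj_eq
  rw [Subgroup.map_sup, Subgroup.map_commutator, map_conj_eq_of_mem_normalizer hN,
    map_conj_eq_of_mem_normalizer hG]

/-- Invariant characters over an invariant character when the factor group is solvable and of order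
prime to the operators. -/
theorem exists_invariant_over_solvable (S : Subgroup Γ) :
    ∀ (n : ℕ) (G N : Subgroup Γ) [Fintype N], Nat.card G = n →
      (∀ t ∈ S, t ∈ Subgroup.normalizer (G : Set Γ)) → ∀ (hNG : N ≤ G) [(N.subgroupOf G).Normal],
      (∀ t ∈ S, t ∈ Subgroup.normalizer (N : Set Γ)) →
      Nat.Coprime (N.relIndex G) (Nat.card S) → Group.IsSolvable (G ⧸ N.subgroupOf G) →
      ∀ θ : IrrCharacter N, InvBy S (θ : N → ℂ) →
      ∃ χ : IrrCharacter G, classInner (fun n : N => (χ : G → ℂ) ⟨n, hNG n.2⟩) (θ : N → ℂ) ≠ 0 ∧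
        InvBy S (χ : G → ℂ) := by
  classical
  intro n
  induction n using Nat.strong_induction_on with
  | _ n ih =>
  intro G N iN hGn hSG hNG hN₀ hSN hcop hsolv θ hθ
  have hNn : ∀ g ∈ G, g ∈ Subgroup.normalizer (N : Set Γ) :=
    (Subgroup.normal_subgroupOf_iff_le_normalizer hNG).mp hN₀
  by_cases hNeq : N = G
  · subst hNeq
    refine ⟨θ, ?_, hθ⟩
    show classInner (θ : N → ℂ) (θ : N → ℂ) ≠ 0
    rw [classInner_irr_self θ.2]
    exact one_ne_zero
  let M : Subgroup Γ := N ⊔ ⁅G, G⁆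
  have hNM : N ≤ M := le_sup_left
  have hMG : M ≤ G := sup_le hNG (Subgroup.commutator_le_self G)
  have hGno : ∀ g ∈ G, g ∈ Subgroup.normalizer (G : Set Γ) := fun g hg => Subgroup.le_normalizer hg
  have hMn : ∀ g ∈ G, g ∈ Subgroup.normalizer (M : Set Γ) := fun g hg =>
    mem_normalizer_sup_commutator (hNn g hg) (hGno g hg)
  have hSM : ∀ s ∈ S, s ∈ Subgroup.normalizer (M : Set Γ) := fun s hs =>
    mem_normalizer_sup_commutator (hSN s hs) (hSG s hs)
  have hab : ∀ x ∈ G, ∀ y ∈ G, x * y * x⁻¹ * y⁻¹ ∈ M := fun x hx y hy =>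
    (le_sup_right : ⁅G, G⁆ ≤ M) (Subgroup.commutator_mem_commutator hx hy)
  let N₀ : Subgroup G := N.subgroupOf G
  have hMne : M ≠ G := by
    intro hM
    have hnt : Nontrivial (G ⧸ N₀) := by
      rw [QuotientGroup.nontrivial_iff]
      intro h
      apply hNeq
      apply le_antisymm hNG
      intro g hg
      have : (⟨g, hg⟩ : G) ∈ N₀ := by
        rw [h]
        exact Subgroup.mem_top _
      exact this
    have hlt := Group.IsSolvable.commutator_lt_top_of_nontrivial (G := G ⧸ N₀)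
    apply hlt.ne
    let L : Subgroup G := (commutator (G ⧸ N₀)).comap (QuotientGroup.mk' N₀)
    have hLM : M ≤ L.map G.subtype := by
      apply sup_le
      · intro x hx
        refine ⟨⟨x, hNG hx⟩, ?_, rfl⟩
        show QuotientGroup.mk' N₀ ⟨x, hNG hx⟩ ∈ commutator (G ⧸ N₀)
        have : QuotientGroup.mk' N₀ ⟨x, hNG hx⟩ = 1 := by
          rw [QuotientGroup.mk'_apply, QuotientGroup.eq_one_iff]
          exact hx
        rw [this]
        exact Subgroup.one_mem _
      · rw [Subgroup.commutator_le]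
        intro x hx y hy
        refine ⟨⁅(⟨x, hx⟩ : G), (⟨y, hy⟩ : G)⁆, ?_, rfl⟩
        show QuotientGroup.mk' N₀ _ ∈ commutator (G ⧸ N₀)
        rw [map_commutatorElement]
        exact Subgroup.commutator_mem_commutator (Subgroup.mem_top _) (Subgroup.mem_top _)
    rw [eq_top_iff]
    intro x _
    induction x using QuotientGroup.induction_on with
    | H g =>
    have hgM : (g : Γ) ∈ M := by
      rw [hM]
      exact g.2
    have h1 : (g : Γ) ∈ L.map G.subtype := hLM hgM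
    obtain ⟨g', hg', h2⟩ := h1
    have h3 : g' = g := Subtype.ext h2
    rw [h3] at hg'
    exact hg'
  have hlt : Nat.card M < n := by
    rw [← hGn]
    by_contra hcon
    push Not at hcon
    exact hMne (Subgroup.eq_of_le_of_card_ge hMG hcon)
  have hNM' : (N.subgroupOf M).Normal := (Subgroup.normal_subgroupOf_iff_le_normalizer hNM).mpr
    (fun g hg => hNn g (hMG hg))
  have hsolvM : Group.IsSolvable (M ⧸ N.subgroupOf M) := by
    let f : M ⧸ N.subgroupOf M →* G ⧸ N₀ := QuotientGroup.map _ _ (Subgroup.inclusion hMG) (by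
      intro x hx
      exact hx)
    have hf : Function.Injective f := by
      rw [injective_iff_map_eq_one]
      intro x hx
      induction x using QuotientGroup.induction_on with
      | H x =>
      have h1 : ((Subgroup.inclusion hMG x : G) : G ⧸ N₀) = 1 := hx
      rw [QuotientGroup.eq_one_iff] at h1 ⊢
      exact h1
    exact Group.isSolvable_of_isSolvable_injective hf
  have hind : N.relIndex M * M.relIndex G = N.relIndex G := Subgroup.relIndex_mul_relIndex N M G hNM hMG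
  have hcop₁ : Nat.Coprime (N.relIndex M) (Nat.card S) :=
    hcop.coprime_dvd_left (Dvd.intro _ hind)
  have hcop₂ : Nat.Coprime (M.relIndex G) (Nat.card S) :=
    hcop.coprime_dvd_left (Dvd.intro_left _ hind)
  let _ : Fintype M := Fintype.ofFinite _
  obtain ⟨ψ, hψ, hψS⟩ := ih _ hlt M N rfl hSM hNM hSN hcop₁ hsolvM θ hθ
  obtain ⟨χ, hχ, hχS⟩ := abelian_step G S M hMG hMn hab hSG hSM hcop₂ ψ hψS
  let _ : Fintype G := Fintype.ofFinite _
  exact ⟨χ, over_trans hMG hNM (IsIrrCharacter.isCharacter χ.2) ψ θ hχ hψ, hχS⟩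

end Ambient

end Cfsg.Agent.Lib.H8Group
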