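import Cfsg.Agent.Lib.H8Group.WPart

/-!
# Fusion of the subpairs attached to central elements of a defect group

For a maximal Brauer pair `(P, e)` and elements `u` of `Z(P)`, the subsections `(u, f_u)` with `(⟨u⟩, f_u) ≤ (P, e)`
which are conjugate in `G` are conjugate under the stabilizer of `(P, e)`.
-/

set_option autoImplicit false
set_option linter.unusedSectionVars false
set_option linter.style.haveILetI false

namespace Cfsg.Agent.Lib.H8Group

open Cfsg Cfsg.Agent.Lib.Char Cfsg.Agent.Lib.Blocks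

universe u

section Conj

variable {G : Type u} [Group G] [Fintype G] {M : Ideal AlgInt} {p : ℕ} [hp : Fact p.Prime] {Q Q' P P₂ : Subgroup G}
  {B : Set (IrrCharacter G)} {e : Set (IrrCharacter (Subgroup.centralizer (P : Set G)))}
  {e₂ : Set (IrrCharacter (Subgroup.centralizer (P₂ : Set G)))}
  {f : Set (IrrCharacter (Subgroup.centralizer (Q : Set G)))}

/-- `P` is a defect group of a block below `(P, e)` on a subgroup centralized by `P`. -/
theorem isDefectGroup_of_subpairLE_central [Fintype (Subgroup.centralizer (Q : Set G))] (hM : IsPModular p M)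
    (hmax : IsMaximalBrauerPair p M B P e) (hle : SubpairLE p M Q f P e)
    (hPC : P ≤ Subgroup.centralizer (Q : Set G)) :
    IsDefectGroup p M f (P.subgroupOf (Subgroup.centralizer (Q : Set G))) := by
  classical
  have := isPrime_of_modular hM
  have hPe := hmax.1.1
  have hQP := le_of_subpairLE hle
  have hf := isPBlock_of_subpairLE hM hPe hle
  obtain ⟨x₁, hx₁, hx₁D⟩ := exists_conj_isDefectGroup_cen hM hmax hf hle
  obtain ⟨D, hD, hDle⟩ := exists_defect_ge_cen hM hPe hQP hf hle
  rw [inf_eq_left.mpr hPC] at hDle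
  have h1 := card_defect_conjB hM x₁ rfl hf hD hx₁D
  rw [card_subgroupOf_of_le inf_le_right] at h1
  have h2 : Nat.card (P ⊓ Subgroup.centralizer ((conjS x₁ Q : Subgroup G) : Set G) : Subgroup G) ≤ Nat.card P :=
    Subgroup.card_le_of_le inf_le_left
  have heq := Subgroup.eq_of_le_of_card_ge hDle (by
    rw [card_subgroupOf_of_le hPC, ← h1]
    exact h2)
  rw [heq]
  exact hD

/-- Two maximal pairs above `(Q, f)`, both centralizing `Q`, are conjugate under `C_G(Q)`. -/
theorem exists_cen_conj_of_le (hM : IsPModular p M) (hmax : IsMaximalBrauerPair p M B P e)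
    (hle : SubpairLE p M Q f P e) (hPC : P ≤ Subgroup.centralizer (Q : Set G))
    (hmax₂ : IsMaximalBrauerPair p M B P₂ e₂) (hle₂ : SubpairLE p M Q f P₂ e₂)
    (hP₂C : P₂ ≤ Subgroup.centralizer (Q : Set G)) :
    ∃ u ∈ Subgroup.centralizer (Q : Set G), ∃ h : conjS u P₂ = P, conjB u h e₂ = e := by
  classical
  have := isPrime_of_modular hM
  letI : Fintype (Subgroup.centralizer (Q : Set G)) := Fintype.ofFinite _
  have hPe := hmax.1.1
  have hPe₂ := hmax₂.1.1
  have hQP := le_of_subpairLE hle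
  have hQP₂ := le_of_subpairLE hle₂
  have hf := isPBlock_of_subpairLE hM hPe hle
  have hPN : P ≤ Subgroup.normalizer (Q : Set G) := hPC.trans (Subgroup.centralizer_le_normalizer _)
  have hP₂N : P₂ ≤ Subgroup.normalizer (Q : Set G) := hP₂C.trans (Subgroup.centralizer_le_normalizer _)
  have hns := isNormalSubpair_of_subpairLE hM hPe hle Relation.ReflTransGen.refl hQP hPN
  have hns₂ := isNormalSubpair_of_subpairLE hM hPe₂ hle₂ Relation.ReflTransGen.refl hQP₂ hP₂N
  have hcoefW : ∀ w : Subgroup.centralizer (Q : Set G), blockCoeff f w =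
      subgroupBlockCoeff (Subgroup.centralizer (Q : Set G)) f (w : G) := fun w => by
    simp only [subgroupBlockCoeff, dif_pos w.2]
  have cdP : CenData (P.subgroupOf (Subgroup.centralizer (Q : Set G))) P := cenData_of_le le_rfl hPC hQP
  letI : Fintype (Subgroup.centralizer (P : Set G)) := Fintype.ofFinite _
  letI : Fintype (Subgroup.centralizer ((P.subgroupOf (Subgroup.centralizer (Q : Set G)) : Subgroup _) :
    Set (Subgroup.centralizer (Q : Set G)))) := Fintype.ofFinite _
  have hpP := isBrauerPairOf_of_isNormalSubpair cdP hf hcoefW hns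
  have hD := isDefectGroup_of_subpairLE_central hM hmax hle hPC
  have hmaxW := isMaximalBrauerPair_of_defect hM hpP hD
  have cdP₂ : CenData (P₂.subgroupOf (Subgroup.centralizer (Q : Set G))) P₂ := cenData_of_le le_rfl hP₂C hQP₂
  letI : Fintype (Subgroup.centralizer (P₂ : Set G)) := Fintype.ofFinite _
  letI : Fintype (Subgroup.centralizer ((P₂.subgroupOf (Subgroup.centralizer (Q : Set G)) : Subgroup _) :
    Set (Subgroup.centralizer (Q : Set G)))) := Fintype.ofFinite _
  have hpP₂ := isBrauerPairOf_of_isNormalSubpair cdP₂ hf hcoefW hns₂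
  obtain ⟨u, hu⟩ := exists_conj_subpairLE hM hmaxW hpP₂
  have hWN : Subgroup.centralizer (Q : Set G) ≤ Subgroup.normalizer (Q : Set G) := Subgroup.centralizer_le_normalizer _
  have hlift := subpairLE_lift_conj le_rfl hPC hP₂C hQP₂ hWN cdP₂ cdP u hu
  have hB := hmax.1.2.1
  have hcard : Nat.card P₂ = Nat.card P :=
    card_defect_eq hM hB (isDefectGroup_of_isMaximalBrauerPair hM hmax) (isDefectGroup_of_isMaximalBrauerPair hM hmax₂)
  have hzP : conjS (u : G) P₂ = P :=
    Subgroup.eq_of_le_of_card_ge (le_of_subpairLE hlift) (by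
      rw [card_conjS, hcard])
  have hle₃ := subpairLE_of_eq rfl hzP hlift
  refine ⟨u, u.2, hzP, ?_⟩
  exact subpairLE_unique hM hPe P le_rfl _ e hle₃ Relation.ReflTransGen.refl

/-- Fusion of subpairs on subgroups centralized by `P` is controlled by the stabilizer of the maximal pair. -/
theorem exists_stab_of_conj_central (hM : IsPModular p M) (hmax : IsMaximalBrauerPair p M B P e)
    {g : G} (hQ : conjS g Q = Q') (hle : SubpairLE p M Q f P e)
    (hle' : SubpairLE p M Q' (conjB g hQ f) P e) (hPC : P ≤ Subgroup.centralizer (Q : Set G))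
    (hPC' : P ≤ Subgroup.centralizer (Q' : Set G)) :
    ∃ t : G, (∃ h : conjS t P = P, conjB t h e = e) ∧ ∀ z ∈ Q, t * z * t⁻¹ = g * z * g⁻¹ := by
  classical
  have hQP := le_of_subpairLE hle
  have hQ'P := le_of_subpairLE hle'
  have hinv : conjS g⁻¹ Q' = Q := conjS_inv_of_conjS g hQ
  have hmax₂ : IsMaximalBrauerPair p M B (conjS g⁻¹ P) (conjB g⁻¹ rfl e) := isMaximalBrauerPair_conjB g⁻¹ rfl hmax
  have hle₂ : SubpairLE p M Q f (conjS g⁻¹ P) (conjB g⁻¹ rfl e) := by
    have h1 := subpairLE_conjB g⁻¹ hinv rfl hle'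
    rwa [conjB_conjB_inv] at h1
  have hP₂C : conjS g⁻¹ P ≤ Subgroup.centralizer (Q : Set G) := by
    intro y hy
    rw [mem_conjS, inv_inv] at hy
    rw [Subgroup.mem_centralizer_iff]
    intro q hq
    have h2 : g * q * g⁻¹ ∈ Q' := by
      rw [← hQ]
      exact conj_mem_conjS hq
    have h3 : g * q * g⁻¹ * (g * y * g⁻¹) = g * y * g⁻¹ * (g * q * g⁻¹) :=
      Subgroup.mem_centralizer_iff.mp (hPC' hy) _ h2
    have h4 : g⁻¹ * (g * q * g⁻¹ * (g * y * g⁻¹)) * g = q * y := by group
    have h5 : g⁻¹ * (g * y * g⁻¹ * (g * q * g⁻¹)) * g = y * q := by group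
    rw [← h4, h3, h5]
  obtain ⟨u, hu, hzP, hconj⟩ := exists_cen_conj_of_le hM hmax hle hPC hmax₂ hle₂ hP₂C
  have h₃ : conjS (u * g⁻¹) P = P := by
    rw [← conjS_conjS]
    exact hzP
  have h₄ := conjB_conjB g⁻¹ u rfl hzP h₃ e
  rw [hconj] at h₄
  refine ⟨(u * g⁻¹)⁻¹, ⟨conjS_inv_of_conjS _ h₃, ?_⟩, ?_⟩
  · have h₅ := conjB_conjB_inv (u * g⁻¹) h₃ e
    rw [← h₄] at h₅
    exact h₅
  · intro z hz
    have h1 : u * z = z * u := (Subgroup.mem_centralizer_iff.mp hu z hz).symm
    have h2 : u⁻¹ * z * u = z := by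
      rw [mul_assoc, ← h1]
      group
    calc (u * g⁻¹)⁻¹ * z * (u * g⁻¹)⁻¹⁻¹ = g * (u⁻¹ * z * u) * g⁻¹ := by group
      _ = g * z * g⁻¹ := by rw [h2]

end Conj

section Sum

variable {G : Type u} [Group G] [Fintype G] {M : Ideal AlgInt} {p : ℕ} [hp : Fact p.Prime]
  {P : Subgroup G} {B : Set (IrrCharacter G)} {e : Set (IrrCharacter (Subgroup.centralizer (P : Set G)))}
  {T : Subgroup G}
  (f : ∀ u : G, Set (IrrCharacter (Subgroup.centralizer ((Subgroup.zpowers u : Subgroup G) : Set G))))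

theorem zpowers_central {u : G} (hu : ∀ y ∈ P, u * y = y * u) :
    P ≤ Subgroup.centralizer ((Subgroup.zpowers u : Subgroup G) : Set G) := by
  intro z hz
  rw [centralizer_zpowers_eq, Subgroup.mem_centralizer_singleton_iff]
  exact (hu z hz).symm

/-- Two central elements with the same subsection are conjugate under the stabilizer. -/
theorem exists_mem_stab_of_secPsi_eq (hM : IsPModular p M) (hmax : IsMaximalBrauerPair p M B P e)
    (hTs : ∀ t : G, (∃ h : conjS t P = P, conjB t h e = e) → t ∈ T)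
    (hf : ∀ u ∈ P, SubpairLE p M (Subgroup.zpowers u) (f u) P e)
    {u u' x : G} (huP : u ∈ P) (huP' : u' ∈ P) (hu : ∀ y ∈ P, u * y = y * u) (hu' : ∀ y ∈ P, u' * y = y * u')
    (h1 : IsConj u x) (h1' : IsConj u' x) (heq : secPsi f x u = secPsi f x u') :
    ∃ t ∈ T, t * u * t⁻¹ = u' := by
  classical
  have := isPrime_of_modular hM
  have hPe := hmax.1.1
  have hblock : ∀ u ∈ P, IsPBlock M (f u) := fun u hu => isPBlock_of_subpairLE hM hPe (hf u hu)
  obtain ⟨g, hg⟩ := isConj_iff.mp h1
  obtain ⟨g', hg'⟩ := isConj_iff.mp h1'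
  rw [secPsi_eq hM (hblock u huP) hg, secPsi_eq hM (hblock u' huP') hg'] at heq
  have hh : (g'⁻¹ * g) * u * (g'⁻¹ * g)⁻¹ = u' := by
    calc (g'⁻¹ * g) * u * (g'⁻¹ * g)⁻¹ = g'⁻¹ * (g * u * g⁻¹) * g' := by group
      _ = g'⁻¹ * x * g' := by rw [hg]
      _ = g'⁻¹ * (g' * u' * g'⁻¹) * g' := by rw [hg']
      _ = u' := by group
  have hQ := conjS_zpowers_of_eq hh
  have hconj : conjB (g'⁻¹ * g) hQ (f u) = f u' := by
    have hinv := conjS_inv_of_conjS g' (conjS_zpowers_of_eq hg')
    have h2 := conjB_conjB_inv g' (conjS_zpowers_of_eq hg') (f u')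
    rw [← heq] at h2
    rw [← h2, conjB_conjB g g'⁻¹ (conjS_zpowers_of_eq hg) hinv hQ]
  have hle' : SubpairLE p M (Subgroup.zpowers u') (conjB (g'⁻¹ * g) hQ (f u)) P e := by
    rw [hconj]
    exact hf u' huP'
  obtain ⟨t, hts, htz⟩ := exists_stab_of_conj_central hM hmax hQ (hf u huP) hle' (zpowers_central hu) (zpowers_central hu')
  refine ⟨t, hTs t hts, ?_⟩
  rw [htz u (Subgroup.mem_zpowers u), hh]

variable [∀ u : G, Fintype (Subgroup.centralizer ((Subgroup.zpowers u : Subgroup G) : Set G))]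

/-- The element `u` in its centralizer. -/
def zElt (u : G) : Subgroup.centralizer ((Subgroup.zpowers u : Subgroup G) : Set G) :=
  ⟨u, by
    rw [centralizer_zpowers_eq, Subgroup.mem_centralizer_singleton_iff]⟩

@[simp] theorem zElt_coe (u : G) : ((zElt u : Subgroup.centralizer ((Subgroup.zpowers u : Subgroup G) : Set G)) : G) = u := rfl

theorem mem_zElt_iff (u w : G) : w ∈ Subgroup.centralizer ((Subgroup.zpowers u : Subgroup G) : Set G) ↔
    Commute w ((zElt u : Subgroup.centralizer ((Subgroup.zpowers u : Subgroup G) : Set G)) : G) := by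
  have h1 : w ∈ Subgroup.centralizer ((Subgroup.zpowers u : Subgroup G) : Set G) ↔ w * u = u * w := by
    rw [centralizer_zpowers_eq, Subgroup.mem_centralizer_singleton_iff]
  exact h1

/-- Transport of the contribution of a subsection to a conjugate. -/
theorem wPart_secPsi (hM : IsPModular p M) {u x g : G} (hf : IsPBlock M (f u)) (hg : g * u * g⁻¹ = x)
    (χ : IrrCharacter G) :
    wPart p (subF _ (zElt x) (χ : G → ℂ)) (secPsi f x u) = wPart p (subF _ (zElt u) (χ : G → ℂ)) (f u) := by
  have hQ := conjS_zpowers_of_eq hg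
  rw [secPsi_eq hM hf hg, conjB_eq_transBlock, ← wPart_transBlock (cenIso g hQ).symm (subF _ (zElt u) (χ : G → ℂ)) (f u)]
  congr 1
  funext c
  simp only [Function.comp_apply, subF_apply]
  have h1 : (((zElt u * (cenIso g hQ).symm c : Subgroup.centralizer ((Subgroup.zpowers u : Subgroup G) : Set G))) : G) =
      g⁻¹ * ((zElt x * c : Subgroup.centralizer ((Subgroup.zpowers x : Subgroup G) : Set G)) : G) * g⁻¹⁻¹ := by
    show u * (g⁻¹ * (c : G) * g) = g⁻¹ * (x * (c : G)) * g⁻¹⁻¹
    have h2 : x * (c : G) = (g * u * g⁻¹) * (c : G) := by rw [hg]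
    rw [h2]
    group
  rw [h1]
  exact (irr_isClassFunction χ _ g⁻¹).symm

open scoped Classical in
/-- **The sum of the contributions of the central elements of a defect group.** -/
theorem sum_wPart_central_le (hM : IsPModular p M) (hmax : IsMaximalBrauerPair p M B P e)
    (hTs : ∀ t : G, (∃ h : conjS t P = P, conjB t h e = e) → t ∈ T)
    (hf : ∀ u ∈ P, SubpairLE p M (Subgroup.zpowers u) (f u) P e)
    (Z : Finset G) (hZP : ∀ u ∈ Z, u ∈ P) (hZc : ∀ u ∈ Z, ∀ y ∈ P, u * y = y * u) (m : ℕ)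
    (horb : ∀ u ∈ Z, (Z.filter (fun v => ∃ t ∈ T, t * u * t⁻¹ = v)).card ≤ m) (χ : IrrCharacter G) :
    ∑ u ∈ Z, wPart p (subF _ (zElt u) (χ : G → ℂ)) (f u) ≤ m := by
  classical
  have := isPrime_of_modular hM
  have hPe := hmax.1.1
  have hPp : IsPGroup p P := hPe.1
  have hblock : ∀ u ∈ P, IsPBlock M (f u) := fun u hu => isPBlock_of_subpairLE hM hPe (hf u hu)
  obtain ⟨X, hX, hXrep⟩ := exists_pElement_reps (G := G) p
  letI instC : ∀ x : G, Fintype (Subgroup.centralizer ({x} : Set G)) := fun _ => Fintype.ofFinite _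
  -- the total sum over the sections
  set R : G → ℝ := fun x => ∑ ψ : IrrCharacter (Subgroup.centralizer ((Subgroup.zpowers x : Subgroup G) : Set G)),
    ‖classInner (pRegularPart p (subF _ (zElt x) (χ : G → ℂ))) (ψ : _ → ℂ)‖ ^ 2 with hR
  have hRnn : ∀ x, 0 ≤ R x := fun x => Finset.sum_nonneg fun _ _ => by positivity
  have hRc : ∀ x, classInner (pRegularPart p (subF _ (centElt x) (χ : G → ℂ))) (subF _ (centElt x) (χ : G → ℂ)) = (R x : ℂ) := by
    intro x
    rw [hR]
    rw [← classInner_reg_eq_sum_sq (subF_isClassFunction (mem_zElt_iff x) (irr_isClassFunction χ))]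
    have key : ∀ (H : Subgroup G) (hH : H = Subgroup.centralizer ({x} : Set G)) (_ : Fintype H) (y : H), (y : G) = x →
        classInner (pRegularPart p (subF _ (centElt x) (χ : G → ℂ))) (subF _ (centElt x) (χ : G → ℂ)) =
          classInner (pRegularPart p (subF H y (χ : G → ℂ))) (subF H y (χ : G → ℂ)) := by
      rintro H rfl inst y hy
      have h1 : y = centElt x := Subtype.ext hy
      subst h1
      have h2 : inst = instC x := Subsingleton.elim _ _
      subst h2
      rfl
    exact key _ (centralizer_zpowers_eq x) _ _ rfl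
  have htot : ∑ x ∈ X, R x = 1 := by
    have h1 := classInner_eq_sum_subF (p := p) X hX hXrep (irr_isClassFunction χ) (irr_isClassFunction χ)
    rw [classInner_irr_self χ.2, Finset.sum_congr rfl fun x _ => hRc x] at h1
    exact_mod_cast h1.symm
  -- the elements over a section
  have hper : ∀ x ∈ X, ∑ u ∈ Z.filter (fun u => IsConj u x), wPart p (subF _ (zElt u) (χ : G → ℂ)) (f u) ≤ m * R x := by
    intro x hx
    have h1 : ∑ u ∈ Z.filter (fun u => IsConj u x), wPart p (subF _ (zElt u) (χ : G → ℂ)) (f u) =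
        ∑ u ∈ Z.filter (fun u => IsConj u x), wPart p (subF _ (zElt x) (χ : G → ℂ)) (secPsi f x u) := by
      refine Finset.sum_congr rfl fun u hu => ?_
      have h2 := Finset.mem_filter.mp hu
      obtain ⟨g, hg⟩ := isConj_iff.mp h2.2
      exact (wPart_secPsi f hM (hblock u (hZP u h2.1)) hg χ).symm
    rw [h1, Finset.sum_comp (fun b => wPart p (subF _ (zElt x) (χ : G → ℂ)) b) (secPsi f x)]
    have hmem : ∀ b ∈ (Z.filter (fun u => IsConj u x)).image (secPsi f x), b ∈ blocksFinset M _ := by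
      intro b hb
      obtain ⟨u, hu, rfl⟩ := Finset.mem_image.mp hb
      have h2 := Finset.mem_filter.mp hu
      obtain ⟨g, hg⟩ := isConj_iff.mp h2.2
      rw [secPsi_eq hM (hblock u (hZP u h2.1)) hg]
      exact mem_blocksFinset.mpr (isPBlock_conjB g _ (hblock u (hZP u h2.1)))
    calc ∑ b ∈ (Z.filter (fun u => IsConj u x)).image (secPsi f x),
          ((Z.filter (fun u => IsConj u x)).filter (fun u => secPsi f x u = b)).card •
            wPart p (subF _ (zElt x) (χ : G → ℂ)) b
        ≤ ∑ b ∈ (Z.filter (fun u => IsConj u x)).image (secPsi f x), (m : ℝ) * wPart p (subF _ (zElt x) (χ : G → ℂ)) b := by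
          refine Finset.sum_le_sum fun b hb => ?_
          rw [nsmul_eq_mul]
          refine mul_le_mul_of_nonneg_right ?_ (wPart_nonneg _ _)
          obtain ⟨u₀, hu₀, rfl⟩ := Finset.mem_image.mp hb
          have h2 := Finset.mem_filter.mp hu₀
          have h3 : ((Z.filter (fun u => IsConj u x)).filter (fun u => secPsi f x u = secPsi f x u₀)).card ≤
              (Z.filter (fun v => ∃ t ∈ T, t * u₀ * t⁻¹ = v)).card := by
            refine Finset.card_le_card fun v hv => ?_
            have h4 := Finset.mem_filter.mp hv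
            have h5 := Finset.mem_filter.mp h4.1
            refine Finset.mem_filter.mpr ⟨h5.1, ?_⟩
            exact exists_mem_stab_of_secPsi_eq f hM hmax hTs hf (hZP u₀ h2.1) (hZP v h5.1) (hZc u₀ h2.1) (hZc v h5.1)
              h2.2 h5.2 h4.2.symm
          exact_mod_cast h3.trans (horb u₀ h2.1)
      _ = (m : ℝ) * ∑ b ∈ (Z.filter (fun u => IsConj u x)).image (secPsi f x), wPart p (subF _ (zElt x) (χ : G → ℂ)) b :=
          (Finset.mul_sum _ _ _).symm
      _ ≤ (m : ℝ) * ∑ b ∈ blocksFinset M _, wPart p (subF _ (zElt x) (χ : G → ℂ)) b := by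
          refine mul_le_mul_of_nonneg_left ?_ (by positivity)
          exact Finset.sum_le_sum_of_subset_of_nonneg hmem (fun b _ _ => wPart_nonneg _ _)
      _ = m * R x := by
          rw [sum_wPart_blocks hM]
  -- the partition of `Z`
  have hpart : ∑ u ∈ Z, wPart p (subF _ (zElt u) (χ : G → ℂ)) (f u) =
      ∑ x ∈ X, ∑ u ∈ Z.filter (fun u => IsConj u x), wPart p (subF _ (zElt u) (χ : G → ℂ)) (f u) := by
    simp only [Finset.sum_filter]
    rw [Finset.sum_comm]
    refine Finset.sum_congr rfl fun u hu => ?_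
    have huel : ∃ k, orderOf u = p ^ k := by
      obtain ⟨k, hk⟩ := (IsPGroup.iff_orderOf.mp hPp) ⟨u, hZP u hu⟩
      exact ⟨k, by rw [← Subgroup.orderOf_coe] at hk; exact hk⟩
    obtain ⟨x, ⟨hxX, hux⟩, huniq⟩ := hXrep u huel
    rw [Finset.sum_eq_single x]
    · rw [if_pos hux]
    · intro y hy hne
      rw [if_neg]
      intro huy
      exact hne (huniq y ⟨hy, huy⟩)
    · intro h
      exact absurd hxX h
  rw [hpart]
  calc ∑ x ∈ X, ∑ u ∈ Z.filter (fun u => IsConj u x), wPart p (subF _ (zElt u) (χ : G → ℂ)) (f u)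
      ≤ ∑ x ∈ X, (m : ℝ) * R x := Finset.sum_le_sum hper
    _ = m := by
      rw [← Finset.mul_sum, htot, mul_one]

end Sum

end Cfsg.Agent.Lib.H8Group
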