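import Cfsg.Agent.Lib.H8Group.CenterFusion
import Cfsg.Agent.Lib.Blocks.AbelianFree

/-!
# A bound for the heights in terms of the centre of a defect group and the inertial index
-/

set_option autoImplicit false
set_option linter.unusedSectionVars false
set_option linter.style.haveILetI false

namespace Cfsg.Agent.Lib.H8Group

open Cfsg Cfsg.Agent.Lib.Char Cfsg.Agent.Lib.Blocks

universe u

section Main

variable {G : Type u} [Group G] [Fintype G] {M : Ideal AlgInt} {p : ℕ} [hp : Fact p.Prime]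
  {P : Subgroup G} {B : Set (IrrCharacter G)} {e : Set (IrrCharacter (Subgroup.centralizer (P : Set G)))}
  {T : Subgroup G}

theorem zpowers_pow_of_coprime {u : G} {j : ℕ} (hj : Nat.Coprime j (orderOf u)) :
    Subgroup.zpowers (u ^ j) = Subgroup.zpowers u := by
  refine Subgroup.eq_of_le_of_card_ge ?_ ?_
  · rw [Subgroup.zpowers_le]
    exact Subgroup.pow_mem _ (Subgroup.mem_zpowers u) j
  · rw [Nat.card_zpowers, Nat.card_zpowers, hj.symm.orderOf_pow]

open scoped Classical in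
/-- **The central elements of a defect group bound the heights.** -/
theorem pow_height_mul_card_le (hM : IsPModular p M) (hmax : IsMaximalBrauerPair p M B P e)
    (hTs : ∀ t : G, (∃ h : conjS t P = P, conjB t h e = e) → t ∈ T)
    (Z : Finset G) (hZP : ∀ u ∈ Z, u ∈ P) (hZc : ∀ u ∈ Z, ∀ y ∈ P, u * y = y * u)
    (hZpow : ∀ u ∈ Z, ∀ k : ℕ, u ^ k ∈ Z) (m : ℕ)
    (horb : ∀ u ∈ Z, (Z.filter (fun v => ∃ t ∈ T, t * u * t⁻¹ = v)).card ≤ m)
    {χ : IrrCharacter G} (hχ : χ ∈ B) :
    Z.card * p ^ blockHeight p B (χ : G → ℂ) ≤ m * p ^ blockDefect p B := by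
  have := isPrime_of_modular hM
  have hpp : p.Prime := hp.out
  have hPe := hmax.1.1
  have hB := hmax.1.2.1
  have hPp : IsPGroup p P := hPe.1
  have hDP := isDefectGroup_of_isMaximalBrauerPair hM hmax
  have hcardP := card_defectGroup hM hB hDP
  letI instF : ∀ Q : Subgroup G, Fintype (Subgroup.centralizer (Q : Set G)) := fun _ => Fintype.ofFinite _
  have hexg : ∀ Q : Subgroup G, ∃ f : Set (IrrCharacter (Subgroup.centralizer (Q : Set G))),
      Q ≤ P → SubpairLE p M Q f P e := by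
    intro Q
    by_cases hQ : Q ≤ P
    · obtain ⟨f, -, hf⟩ := exists_subpairLE hM hPe Q hQ
      exact ⟨f, fun _ => hf⟩
    · exact ⟨∅, fun h => absurd h hQ⟩
  choose g hg using hexg
  set f : ∀ u : G, Set (IrrCharacter (Subgroup.centralizer ((Subgroup.zpowers u : Subgroup G) : Set G))) :=
    fun u => g (Subgroup.zpowers u) with hfdef
  have hzP : ∀ u ∈ P, Subgroup.zpowers u ≤ P := fun u hu => by
    rw [Subgroup.zpowers_le]
    exact hu
  have hf : ∀ u ∈ P, SubpairLE p M (Subgroup.zpowers u) (f u) P e := fun u hu => hg _ (hzP u hu)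
  have hsum := sum_wPart_central_le f hM hmax hTs hf Z hZP hZc m horb χ
  -- the exponent
  set N : ℕ := blockDefect p B + 1 with hN
  have hN1 : 1 ≤ N := by omega
  have hpN : 1 < p ^ N := Nat.one_lt_pow (by omega) hpp.one_lt
  have hJne : ∀ j ∈ unitsJ p N, ¬ p ∣ j := fun j hj => (Finset.mem_filter.mp hj).2
  have huN : ∀ u ∈ Z, u ^ p ^ N = 1 := by
    intro u hu
    have h1 : orderOf (⟨u, hZP u hu⟩ : P) ∣ Nat.card P := orderOf_dvd_natCard _
    rw [Subgroup.orderOf_mk, hcardP] at h1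
    have h2 : orderOf u ∣ p ^ N := h1.trans (pow_dvd_pow _ (by omega))
    exact orderOf_dvd_iff_pow_eq_one.mp h2
  have hcop : ∀ u ∈ Z, ∀ j ∈ unitsJ p N, Nat.Coprime j (orderOf u) := by
    intro u hu j hj
    have h1 : orderOf u ∣ p ^ N := orderOf_dvd_of_pow_eq_one (huN u hu)
    exact Nat.Coprime.coprime_dvd_right h1
      (Nat.Coprime.pow_right _ ((Nat.Prime.coprime_iff_not_dvd hpp).mpr (hJne j hj)).symm)
  -- the contribution of a power
  have hcongr : ∀ (Q Q' : Subgroup G) (_ : Q = Q') (y : Subgroup.centralizer (Q : Set G))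
      (y' : Subgroup.centralizer (Q' : Set G)), (y : G) = y' →
      wPart p (subF _ y (χ : G → ℂ)) (g Q) = wPart p (subF _ y' (χ : G → ℂ)) (g Q') := by
    rintro Q _ rfl y y' hy
    obtain rfl : y = y' := Subtype.ext hy
    rfl
  have hpow : ∀ u ∈ Z, ∀ j ∈ unitsJ p N, wPart p (subF _ ((zElt u) ^ j) (χ : G → ℂ)) (f u) =
      wPart p (subF _ (zElt (u ^ j)) (χ : G → ℂ)) (f (u ^ j)) := by
    intro u hu j hj
    refine hcongr _ _ (zpowers_pow_of_coprime (hcop u hu j hj)).symm _ _ ?_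
    simp
  -- the permutation of `Z`
  have hperm : ∀ j ∈ unitsJ p N, ∑ u ∈ Z, wPart p (subF _ (zElt (u ^ j)) (χ : G → ℂ)) (f (u ^ j)) =
      ∑ v ∈ Z, wPart p (subF _ (zElt v) (χ : G → ℂ)) (f v) := by
    intro j hj
    have hjc : Nat.Coprime j (p ^ N) := Nat.Coprime.pow_right _ ((Nat.Prime.coprime_iff_not_dvd hpp).mpr (hJne j hj)).symm
    obtain ⟨j', -, hj'⟩ := Nat.exists_mul_mod_eq_one_of_coprime hjc hpN
    have hinv : ∀ u ∈ Z, (u ^ j) ^ j' = u := by
      intro u hu
      rw [← pow_mul, pow_eq_pow_mod _ (huN u hu), hj', pow_one]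
    have hinv' : ∀ u ∈ Z, (u ^ j') ^ j = u := by
      intro u hu
      rw [← pow_mul, mul_comm, pow_eq_pow_mod _ (huN u hu), hj', pow_one]
    exact Finset.sum_nbij' (fun u => u ^ j) (fun v => v ^ j') (fun u hu => hZpow u hu j) (fun v hv => hZpow v hv j')
      hinv hinv' (fun _ _ => rfl)
  -- the lower bound
  obtain ⟨α, hα⟩ := exists_isPExp G p
  have hpair : ∀ u ∈ P, IsBrauerPairOf p M B (Subgroup.zpowers u) (f u) := fun u hu =>
    (isBrauerPairOf_iff_of_chain hM (hf u hu) hB).mp hmax.1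
  have hfB : ∀ u ∈ P, IsPBlock M (f u) := fun u hu => isPBlock_of_subpairLE hM hPe (hf u hu)
  have hlb : ∀ u ∈ Z, ((unitsJ p N).card : ℝ) * (p : ℝ) ^ blockHeight p B (χ : G → ℂ) ≤
      (p : ℝ) ^ blockDefect p B * ∑ j ∈ unitsJ p N, wPart p (subF _ ((zElt u) ^ j) (χ : G → ℂ)) (f u) := by
    intro u hu
    have huP := hZP u hu
    have hind : IsInducedBlock M (Subgroup.centralizer ((Subgroup.zpowers u : Subgroup G) : Set G)) (f u) B :=
      (isBrauerPairOf_iff hM (hpair u huP).1.1 (hfB u huP)).mp (hpair u huP)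
    have hPC := zpowers_central (hZc u hu)
    have hD := isDefectGroup_of_subpairLE_central hM hmax (hf u huP) hPC
    have hdef : blockDefect p (f u) = blockDefect p B := by
      have h1 := card_defectGroup hM (hfB u huP) hD
      rw [Nat.card_congr (Subgroup.subgroupOfEquivOfLe hPC).toEquiv, hcardP] at h1
      exact (Nat.pow_right_injective hpp.two_le h1).symm
    have hxp : ∃ k, orderOf ((zElt u : Subgroup.centralizer ((Subgroup.zpowers u : Subgroup G) : Set G)) : G) = p ^ k :=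
      orderOf_of_mem_defect hM hB hDP huP
    have hxN : (zElt u) ^ p ^ N = 1 := by
      apply Subtype.ext
      simp only [Subgroup.coe_pow, Subgroup.coe_one, zElt_coe]
      exact huN u hu
    exact major_wPart_lb hM (mem_zElt_iff u) hα hxp hind hdef hχ hN1 hxN
  have hJpos : (0 : ℝ) < ((unitsJ p N).card : ℝ) := by exact_mod_cast unitsJ_pos N hN1
  have hPpos : (0 : ℝ) < (p : ℝ) ^ blockDefect p B := pow_pos (by exact_mod_cast hpp.pos) _
  have hmain : ((unitsJ p N).card : ℝ) * ((Z.card : ℝ) * (p : ℝ) ^ blockHeight p B (χ : G → ℂ)) ≤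
      ((unitsJ p N).card : ℝ) * ((m : ℝ) * (p : ℝ) ^ blockDefect p B) := by
    calc ((unitsJ p N).card : ℝ) * ((Z.card : ℝ) * (p : ℝ) ^ blockHeight p B (χ : G → ℂ))
        = ∑ _u ∈ Z, ((unitsJ p N).card : ℝ) * (p : ℝ) ^ blockHeight p B (χ : G → ℂ) := by
          rw [Finset.sum_const, nsmul_eq_mul]
          ring
      _ ≤ ∑ u ∈ Z, (p : ℝ) ^ blockDefect p B * ∑ j ∈ unitsJ p N, wPart p (subF _ ((zElt u) ^ j) (χ : G → ℂ)) (f u) :=
          Finset.sum_le_sum hlb
      _ = (p : ℝ) ^ blockDefect p B * ∑ j ∈ unitsJ p N, ∑ u ∈ Z, wPart p (subF _ (zElt (u ^ j)) (χ : G → ℂ)) (f (u ^ j)) := by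
          rw [← Finset.mul_sum, Finset.sum_comm]
          congr 1
          refine Finset.sum_congr rfl fun j hj => Finset.sum_congr rfl fun u hu => hpow u hu j hj
      _ = (p : ℝ) ^ blockDefect p B * ∑ _j ∈ unitsJ p N, ∑ v ∈ Z, wPart p (subF _ (zElt v) (χ : G → ℂ)) (f v) := by
          congr 1
          exact Finset.sum_congr rfl hperm
      _ ≤ (p : ℝ) ^ blockDefect p B * ∑ _j ∈ unitsJ p N, (m : ℝ) :=
          mul_le_mul_of_nonneg_left (Finset.sum_le_sum fun _ _ => hsum) hPpos.le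
      _ = ((unitsJ p N).card : ℝ) * ((m : ℝ) * (p : ℝ) ^ blockDefect p B) := by
          rw [Finset.sum_const, nsmul_eq_mul]
          ring
  have h3 := le_of_mul_le_mul_left hmain hJpos
  exact_mod_cast h3

end Main

end Cfsg.Agent.Lib.H8Group
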