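import Mathlib
import Cfsg.Agent.Lib.H8Group.AbelianStep
import Cfsg.Agent.Lib.H8Group.CentralChar
import Cfsg.Agent.Lib.H8Group.CoprimeDeg
import Cfsg.Agent.Lib.Char.DirectProduct

set_option autoImplicit false

/-!
Invariant characters over a central subgroup, for a normal Hall section.
-/

namespace Cfsg.Agent.Lib.H8Group

open Cfsg Module Cfsg.Agent.Lib.Char MulAction
open scoped ComplexConjugate

universe u

section MPart

variable {A : Type u} [Group A] [Finite A]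

/-- The part of a commutative subgroup formed by the elements with order dividing a power of `m`. -/
def mPart (Z : Subgroup A) (hZ : ∀ a ∈ Z, ∀ b ∈ Z, a * b = b * a) (m : ℕ) : Subgroup A where
  carrier := {z | z ∈ Z ∧ ∃ r : ℕ, z ^ (m ^ r) = 1}
  one_mem' := ⟨Z.one_mem, 0, one_pow _⟩
  mul_mem' := by
    rintro a b ⟨ha, r, hr⟩ ⟨hb, s, hs⟩
    refine ⟨Z.mul_mem ha hb, r + s, ?_⟩
    have hc : Commute a b := hZ a ha b hb
    rw [hc.mul_pow, pow_add, pow_mul, hr, one_pow, mul_comm (m ^ r), pow_mul, hs, one_pow, one_mul]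
  inv_mem' := by
    rintro a ⟨ha, r, hr⟩
    exact ⟨Z.inv_mem ha, r, by rw [inv_pow, hr, inv_one]⟩

variable (Z : Subgroup A) (hZ : ∀ a ∈ Z, ∀ b ∈ Z, a * b = b * a) (m : ℕ)

omit [Finite A] in
theorem mem_mPart {z : A} : z ∈ mPart Z hZ m ↔ z ∈ Z ∧ ∃ r : ℕ, z ^ (m ^ r) = 1 := Iff.rfl

omit [Finite A] in
theorem mPart_le : mPart Z hZ m ≤ Z := fun _ h => h.1

theorem prime_dvd_of_dvd_card_mPart {p : ℕ} (hp : p.Prime) (h : p ∣ Nat.card (mPart Z hZ m)) :
    p ∣ m := by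
  have := Fact.mk hp
  obtain ⟨x, hx⟩ := exists_prime_orderOf_dvd_card' (G := mPart Z hZ m) p h
  obtain ⟨-, r, hr⟩ := x.2
  have h1 : orderOf (x : A) = p := by
    rw [Subgroup.orderOf_coe]
    exact hx
  have h2 : p ∣ m ^ r := h1 ▸ orderOf_dvd_of_pow_eq_one hr
  exact hp.dvd_of_dvd_pow h2

theorem not_prime_dvd_relIndex_mPart {p : ℕ} (hp : p.Prime) (hm : p ∣ m) :
    ¬ p ∣ (mPart Z hZ m).relIndex Z := by
  intro h
  have := Fact.mk hp
  let Z' : Subgroup Z := (mPart Z hZ m).subgroupOf Z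
  have hn : Z'.Normal := by
    refine ⟨fun n hn g => ?_⟩
    have h1 : g * n * g⁻¹ = n := by
      apply Subtype.ext
      show (g : A) * n * (g : A)⁻¹ = n
      rw [hZ g g.2 n n.2]
      group
    rw [h1]
    exact hn
  obtain ⟨x, hx⟩ := exists_prime_orderOf_dvd_card' (G := Z ⧸ Z') p h
  induction x using QuotientGroup.induction_on with
  | H z =>
  have h1 : ((z : Z) : Z ⧸ Z') ^ p = 1 := by
    rw [← hx]
    exact pow_orderOf_eq_one _
  have h2 : ((z ^ p : Z) : Z ⧸ Z') = 1 := h1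
  rw [QuotientGroup.eq_one_iff] at h2
  have h3 : ((z ^ p : Z) : A) ∈ mPart Z hZ m := h2
  obtain ⟨-, r, hr⟩ := h3
  have h4 : (z : A) ∈ mPart Z hZ m := by
    refine ⟨z.2, r + 1, ?_⟩
    obtain ⟨c, hc⟩ := hm
    have h5 : ((z : A) ^ p) ^ (m ^ r) = 1 := by
      simpa using hr
    have e : m ^ (r + 1) = p * m ^ r * c := by
      calc m ^ (r + 1) = m ^ r * m := pow_succ _ _
        _ = m ^ r * (p * c) := by rw [← hc]
        _ = p * m ^ r * c := by ring
    rw [e, pow_mul, pow_mul, h5, one_pow]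
  have h6 : ((z : Z) : Z ⧸ Z') = 1 := by
    rw [QuotientGroup.eq_one_iff]
    exact h4
  rw [h6, orderOf_one] at hx
  exact hp.one_lt.ne hx

end MPart

section Central

variable {Γ : Type u} [Group Γ] [Finite Γ]

/-- A character over a linear character of a central subgroup, in ambient form. -/
theorem apply_central_of_over (G N : Subgroup Γ) [Fintype N] [Fintype G] (hNG : N ≤ G)
    (hcent : ∀ n ∈ N, ∀ g ∈ G, n * g = g * n) (χ : IrrCharacter G) (μ : N →* ℂˣ)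
    (h : classInner (fun n : N => (χ : G → ℂ) ⟨n, hNG n.2⟩) (fun n => (μ n : ℂ)) ≠ 0) (n : N) :
    (χ : G → ℂ) ⟨n, hNG n.2⟩ = (μ n : ℂ) * (χ : G → ℂ) 1 := by
  classical
  let N' : Subgroup G := N.subgroupOf G
  let _ : Fintype N' := Fintype.ofFinite _
  have hc : N' ≤ Subgroup.center G := by
    intro x hx
    rw [Subgroup.mem_center_iff]
    intro g
    apply Subtype.ext
    exact (hcent x hx g g.2).symm
  have hN' : N'.Normal := normal_of_le_center hc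
  let e : N' ≃* N := Subgroup.subgroupOfEquivOfLe hNG
  have hψ : IsIrrCharacter N' (fun x => ((μ (e x) : ℂˣ) : ℂ)) :=
    isIrrCharacter_of_monoidHom (μ.comp e.toMonoidHom)
  have h' : classInner (resFun N' (χ : G → ℂ)) (fun x => ((μ (e x) : ℂˣ) : ℂ)) ≠ 0 := by
    rw [classInner_subgroupOf G N hNG] at h
    exact h
  have h1 := central_apply_mul N' hc hψ χ.2 h' (e.symm n) 1
  have h2 : e (e.symm n) = n := e.apply_symm_apply n
  simp only [mul_one] at h1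
  rw [h2] at h1
  rw [← h1]
  refine congrArg (χ : G → ℂ) (Subtype.ext ?_)
  show (n : Γ) = ((e (e.symm n) : N) : Γ)
  rw [h2]

end Central

section Main

variable {A : Type u} [Group A] [Finite A]

/-- Invariant characters over a linear character of a central subgroup, for a normal Hall section. -/
theorem exists_invariant_central (B Z : Subgroup A) [hB : B.Normal] [hZ' : (Z.subgroupOf B).Normal]
    (hZB : Z ≤ B) (hZc : Z ≤ Subgroup.center A) (hcop : (B.index).Coprime (Z.relIndex B))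
    (hsolv : Group.IsSolvable (A ⧸ B) ∨ Group.IsSolvable (B ⧸ Z.subgroupOf B)) (μ : Z →* ℂˣ) :
    ∃ β : IrrCharacter B, (∀ z : Z, (β : B → ℂ) ⟨z, hZB z.2⟩ = (μ z : ℂ) * (β : B → ℂ) 1) ∧
      ∀ (a : A) (b : B), (β : B → ℂ) ⟨a * b * a⁻¹, hB.conj_mem b b.2 a⟩ = (β : B → ℂ) b := by
  classical
  let _ : Fintype B := Fintype.ofFinite _
  have hcc : ∀ z ∈ Z, ∀ a : A, z * a = a * z := fun z hz a =>
    (Subgroup.mem_center_iff.mp (hZc hz) a).symm
  have hZcomm : ∀ a ∈ Z, ∀ b ∈ Z, a * b = b * a := fun a ha b _ => hcc a ha b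
  set m := B.index with hm
  -- the `m`-part of `Z`
  obtain ⟨Z₂, hZ₂def⟩ : ∃ Z₂ : Subgroup A, Z₂ = mPart Z hZcomm m := ⟨_, rfl⟩
  have hZ₂Z : Z₂ ≤ Z := hZ₂def ▸ mPart_le Z hZcomm m
  have hZ₂B : Z₂ ≤ B := hZ₂Z.trans hZB
  have hZ₂mem : ∀ z ∈ Z₂, ∃ r : ℕ, z ^ (m ^ r) = 1 := by
    intro z hz
    rw [hZ₂def] at hz
    exact hz.2
  have hp1 : ∀ p : ℕ, p.Prime → p ∣ Nat.card Z₂ → p ∣ m := by
    intro p hp h
    rw [hZ₂def] at h
    exact prime_dvd_of_dvd_card_mPart Z hZcomm m hp h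
  have hp2 : ∀ p : ℕ, p.Prime → p ∣ m → ¬ p ∣ Z₂.relIndex Z := by
    intro p hp h
    rw [hZ₂def]
    exact not_prime_dvd_relIndex_mPart Z hZcomm m hp h
  have hidx : Z₂.relIndex Z * Z.relIndex B = Z₂.relIndex B :=
    Subgroup.relIndex_mul_relIndex Z₂ Z B hZ₂Z hZB
  obtain ⟨k, hk⟩ : ∃ k : ℕ, k = Z₂.relIndex B := ⟨_, rfl⟩
  have hkm : Nat.Coprime k m := by
    rw [hk, ← hidx]
    refine Nat.Coprime.mul_left ?_ hcop.symm
    apply Nat.coprime_of_dvd
    intro p hp h1 h2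
    exact hp2 p hp h2 h1
  have hkZ₂ : Nat.Coprime (Nat.card Z₂) k := by
    apply Nat.coprime_of_dvd
    intro p hp h1 h2
    have h3 := hp1 p hp h1
    have h4 := Nat.dvd_gcd h2 h3
    rw [hkm.gcd_eq_one] at h4
    exact hp.one_lt.ne' (Nat.dvd_one.mp h4)
  -- a complement of `Z₂` in `B`
  let Z₂' : Subgroup B := Z₂.subgroupOf B
  have hZ₂'n : Z₂'.Normal := by
    refine ⟨fun n hn g => ?_⟩
    have h1 : g * n * g⁻¹ = n := by
      apply Subtype.ext
      show (g : A) * n * (g : A)⁻¹ = n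
      rw [(hcc n (hZ₂Z hn) g).symm]
      group
    rw [h1]
    exact hn
  have hcardZ₂' : Nat.card Z₂' = Nat.card Z₂ := Nat.card_congr (Subgroup.subgroupOfEquivOfLe hZ₂B).toEquiv
  obtain ⟨B₁', hB₁'⟩ := Subgroup.exists_right_complement'_of_coprime (N := Z₂') (by
    rw [hcardZ₂']
    show Nat.Coprime (Nat.card Z₂) (Z₂.relIndex B)
    rw [← hk]
    exact hkZ₂)
  have hcardB₁' : Nat.card B₁' = k := by
    rw [hk]
    exact hB₁'.symm.index_eq_card.symm
  have hidxB₁' : B₁'.index = Nat.card Z₂ := by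
    rw [hB₁'.index_eq_card, hcardZ₂']
  obtain ⟨B₁, hB₁def⟩ : ∃ B₁ : Subgroup A, B₁ = B₁'.map B.subtype := ⟨_, rfl⟩
  have hB₁B : B₁ ≤ B := by
    rw [hB₁def]
    exact Subgroup.map_subtype_le _
  have hcardB₁ : Nat.card B₁ = k := by
    rw [hB₁def, ← hcardB₁']
    exact Nat.card_congr (B₁'.equivMapOfInjective _ B.subtype_injective).symm.toEquiv
  have hB₁sub : B₁.subgroupOf B = B₁' := by
    rw [hB₁def]
    exact Subgroup.comap_map_eq_self_of_injective B.subtype_injective _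
  -- decomposition of the elements of `B`
  have hdec : ∀ b ∈ B, ∃ z ∈ Z₂, ∃ c ∈ B₁, z * c = b := by
    intro b hb
    obtain ⟨⟨z, c⟩, hzc⟩ := hB₁'.2 (⟨b, hb⟩ : B)
    refine ⟨(z : B), z.2, (c : B), ?_, ?_⟩
    · rw [hB₁def]
      exact ⟨c, c.2, rfl⟩
    · have := congrArg Subtype.val hzc
      exact this
  have hdisj : ∀ x, x ∈ Z₂ → x ∈ B₁ → x = 1 := by
    intro x hx hx'
    rw [hB₁def] at hx'
    obtain ⟨c, hc, rfl⟩ := hx'
    have h1 : c ∈ Z₂' := hx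
    have h2 : c = 1 := (Subgroup.disjoint_def.mp hB₁'.disjoint) h1 hc
    rw [h2]
    rfl
  -- characterization of `B₁`
  have hB₁char : ∀ b ∈ B, b ^ k = 1 → b ∈ B₁ := by
    intro b hb hbk
    obtain ⟨z, hz, c, hc, rfl⟩ := hdec b hb
    have hcomm : Commute z c := hcc z (hZ₂Z hz) c
    rw [hcomm.mul_pow] at hbk
    have hck : c ^ k = 1 := by
      rw [← hcardB₁]
      have h2 : c ^ Nat.card B₁ = (((⟨c, hc⟩ : B₁) ^ Nat.card B₁ : B₁) : A) := rfl
      rw [h2, pow_card_eq_one']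
      rfl
    rw [hck, mul_one] at hbk
    obtain ⟨r, hr⟩ := hZ₂mem z hz
    have h1 : orderOf z ∣ k := orderOf_dvd_of_pow_eq_one hbk
    have h2 : orderOf z ∣ m ^ r := orderOf_dvd_of_pow_eq_one hr
    have h3 : orderOf z ∣ 1 := by
      have := Nat.dvd_gcd h1 h2
      rwa [(hkm.pow_right r).gcd_eq_one] at this
    have h4 : z = 1 := orderOf_eq_one_iff.mp (Nat.dvd_one.mp h3)
    rw [h4, one_mul]
    exact hc
  have hB₁pow : ∀ c ∈ B₁, c ^ k = 1 := by
    intro c hc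
    rw [← hcardB₁]
    have h2 : c ^ Nat.card B₁ = (((⟨c, hc⟩ : B₁) ^ Nat.card B₁ : B₁) : A) := rfl
    rw [h2, pow_card_eq_one']
    rfl
  have hB₁n : B₁.Normal := by
    refine ⟨fun c hc a => ?_⟩
    apply hB₁char _ (hB.conj_mem c (hB₁B hc) a)
    rw [conj_pow, hB₁pow c hc, mul_one, mul_inv_cancel]
  -- a complement of `B₁` in `A`
  have hidxB₁ : B₁.index = m * Nat.card Z₂ := by
    have h1 : B₁.relIndex B * B.index = B₁.index := Subgroup.relIndex_mul_index hB₁B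
    have h2 : B₁.relIndex B = Nat.card Z₂ := by
      rw [← hidxB₁', ← hB₁sub]
      rfl
    rw [← h1, h2, mul_comm]
  have hcopB₁ : Nat.Coprime (Nat.card B₁) B₁.index := by
    rw [hcardB₁, hidxB₁]
    exact Nat.Coprime.mul_right hkm hkZ₂.symm
  obtain ⟨V, hV⟩ := Subgroup.exists_right_complement'_of_coprime (N := B₁) hcopB₁
  have hcardV : Nat.card V = B₁.index := hV.symm.index_eq_card.symm
  have hcopV : Nat.Coprime (Nat.card B₁) (Nat.card V) := by
    rw [hcardV]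
    exact hcopB₁
  have hdecA : ∀ a : A, ∃ c ∈ B₁, ∃ v ∈ V, a = c * v := by
    intro a
    obtain ⟨⟨c, v⟩, h⟩ := hV.2 a
    exact ⟨c, c.2, v, v.2, h.symm⟩
  -- the central subgroup of `B₁`
  obtain ⟨Z₁, hZ₁def⟩ : ∃ Z₁ : Subgroup A, Z₁ = Z ⊓ B₁ := ⟨_, rfl⟩
  have hZ₁Z : Z₁ ≤ Z := by
    rw [hZ₁def]
    exact inf_le_left
  have hZ₁B₁ : Z₁ ≤ B₁ := by
    rw [hZ₁def]
    exact inf_le_right
  let _ : Fintype Z₁ := Fintype.ofFinite _
  let _ : Fintype B₁ := Fintype.ofFinite _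
  let μ₁ : Z₁ →* ℂˣ := μ.comp (Subgroup.inclusion hZ₁Z)
  let θ₁ : IrrCharacter Z₁ := ⟨fun z => (μ₁ z : ℂ), isIrrCharacter_of_monoidHom μ₁⟩
  have hnorm_of_central : ∀ t : A, t ∈ Subgroup.normalizer (Z₁ : Set A) := by
    intro t
    rw [Subgroup.mem_normalizer_iff]
    intro x
    constructor
    · intro hx
      have h1 : t * x * t⁻¹ = x := by
        rw [(hcc x (hZ₁Z hx) t).symm]
        group
      rw [h1]
      exact hx
    · intro hx
      have h1 : t * x * t⁻¹ ∈ Z := hZ₁Z hx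
      have h3 : t⁻¹ * (t * x * t⁻¹) * t = t * x * t⁻¹ := by
        rw [← hcc _ h1 t⁻¹]
        group
      have h0 : x = t⁻¹ * (t * x * t⁻¹) * t := by group
      rw [h0, h3]
      exact hx
  have hinvθ₁ : InvBy V (θ₁ : Z₁ → ℂ) := by
    intro s _ g g' hgg'
    have h1 : g' = g := by
      apply Subtype.ext
      rw [hgg', (hcc g (hZ₁Z g.2) s).symm]
      group
    rw [h1]
  have hVB₁ : ∀ t ∈ V, t ∈ Subgroup.normalizer (B₁ : Set A) := by
    intro t _
    rw [Subgroup.mem_normalizer_iff]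
    intro x
    exact ⟨fun hx => hB₁n.conj_mem x hx t, fun hx => by
      have := hB₁n.conj_mem _ hx t⁻¹
      simpa [mul_assoc] using this⟩
  obtain ⟨β₁, hβ₁, hβ₁V⟩ : ∃ β₁ : IrrCharacter B₁,
      classInner (fun n : Z₁ => (β₁ : B₁ → ℂ) ⟨n, hZ₁B₁ n.2⟩) (θ₁ : Z₁ → ℂ) ≠ 0 ∧
        InvBy V (β₁ : B₁ → ℂ) := by
    rcases hsolv with hs | hs
    · have hVBcomm : ∀ x : V, (x : A) ∈ V ⊓ B → ∀ y : V, (y : A) ∈ V ⊓ B → (x : A) * y = y * x := by
        intro x hx y hy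
        obtain ⟨z, hz, c, hc, hxe⟩ := hdec x hx.2
        obtain ⟨w, hw, d, hd, hye⟩ := hdec y hy.2
        have h1 : (x : A) * y * ((y : A) * x)⁻¹ = c * d * c⁻¹ * d⁻¹ := by
          rw [← hxe, ← hye]
          have hz' := hcc z (hZ₂Z hz)
          have hw' := hcc w (hZ₂Z hw)
          have e1 : z * c * (w * d) = (z * w) * (c * d) := by
            rw [mul_assoc z c, ← mul_assoc c w d, ← hw' c, mul_assoc w c d, mul_assoc z w]
          have e2 : w * d * (z * c) = (z * w) * (d * c) := by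
            rw [mul_assoc w d, ← mul_assoc d z c, ← hz' d, mul_assoc z d c, ← mul_assoc w z, hw' z,
              mul_assoc z w]
          rw [e1, e2]
          have hu : ∀ a : A, (z * w) * a = a * (z * w) := fun a =>
            hcc _ (Z.mul_mem (hZ₂Z hz) (hZ₂Z hw)) a
          calc z * w * (c * d) * (z * w * (d * c))⁻¹
              = c * d * (z * w) * (z * w * (d * c))⁻¹ := by rw [hu (c * d)]
            _ = c * d * ((z * w) * (c⁻¹ * d⁻¹)) * (z * w)⁻¹ := by group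
            _ = c * d * ((c⁻¹ * d⁻¹) * (z * w)) * (z * w)⁻¹ := by rw [hu]
            _ = c * d * c⁻¹ * d⁻¹ := by group
        have h2 : (x : A) * y * ((y : A) * x)⁻¹ ∈ B₁ := by
          rw [h1]
          exact B₁.mul_mem (B₁.mul_mem (B₁.mul_mem hc hd) (B₁.inv_mem hc)) (B₁.inv_mem hd)
        have h3 : (x : A) * y * ((y : A) * x)⁻¹ ∈ V :=
          V.mul_mem (V.mul_mem x.2 y.2) (V.inv_mem (V.mul_mem y.2 x.2))
        have h4 := (Subgroup.disjoint_def.mp hV.disjoint) h2 h3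
        exact mul_inv_eq_one.mp h4
      have hVs : Group.IsSolvable V := by
        let g : V →* A ⧸ B := (QuotientGroup.mk' B).comp V.subtype
        let f : (V ⊓ B : Subgroup A).subgroupOf V →* V := Subgroup.subtype _
        have hcomm : Group.IsSolvable ((V ⊓ B : Subgroup A).subgroupOf V) := by
          refine Group.isSolvable_of_comm ?_
          intro x y
          apply Subtype.ext
          apply Subtype.ext
          exact hVBcomm _ (Subgroup.mem_subgroupOf.mp x.2) _ (Subgroup.mem_subgroupOf.mp y.2)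
        refine Group.isSolvable_of_ker_le_range f g ?_
        intro x hx
        have h1 : (x : A) ∈ B := by
          have h2 : ((x : A) : A ⧸ B) = 1 := hx
          rwa [QuotientGroup.eq_one_iff] at h2
        refine ⟨⟨x, ?_⟩, rfl⟩
        rw [Subgroup.mem_subgroupOf]
        exact ⟨x.2, h1⟩
      exact exists_invariant_over V _ B₁ Z₁ rfl hVB₁ hZ₁B₁ (fun g _ => hnorm_of_central g)
        (fun t _ => hnorm_of_central t) hcopV θ₁ hinvθ₁
    · have hZ₁n : (Z₁.subgroupOf B₁).Normal :=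
        (Subgroup.normal_subgroupOf_iff_le_normalizer hZ₁B₁).mpr (fun g _ => hnorm_of_central g)
      have hs' : Group.IsSolvable (B₁ ⧸ Z₁.subgroupOf B₁) := by
        let f : B₁ ⧸ Z₁.subgroupOf B₁ →* B ⧸ Z.subgroupOf B :=
          QuotientGroup.map _ _ (Subgroup.inclusion hB₁B) (by
            intro x hx
            exact hZ₁Z hx)
        have hf : Function.Injective f := by
          rw [injective_iff_map_eq_one]
          intro x hx
          induction x using QuotientGroup.induction_on with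
          | H x =>
          have h1 : ((Subgroup.inclusion hB₁B x : B) : B ⧸ Z.subgroupOf B) = 1 := hx
          rw [QuotientGroup.eq_one_iff] at h1 ⊢
          show (x : A) ∈ Z₁
          rw [hZ₁def]
          exact ⟨h1, x.2⟩
        exact Group.isSolvable_of_isSolvable_injective hf
      have hcopr : Nat.Coprime (Z₁.relIndex B₁) (Nat.card V) :=
        hcopV.coprime_dvd_left (Subgroup.relIndex_dvd_card Z₁ B₁)
      exact exists_invariant_over_solvable V _ B₁ Z₁ rfl hVB₁ hZ₁B₁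
        (fun t _ => hnorm_of_central t) hcopr hs' θ₁ hinvθ₁
  -- the product
  have hcomm₂ : ∀ z ∈ Z₂, ∀ a : A, z * a = a * z := fun z hz a => hcc z (hZ₂Z hz) a
  let _ : Fintype Z₂ := Fintype.ofFinite _
  let f : Z₂ × B₁ →* B :=
    { toFun := fun x => ⟨(x.1 : A) * x.2, B.mul_mem (hZ₂B x.1.2) (hB₁B x.2.2)⟩
      map_one' := by
        apply Subtype.ext
        simp
      map_mul' := by
        intro x y
        apply Subtype.ext
        show ((x.1 * y.1 : Z₂) : A) * ((x.2 * y.2 : B₁) : A) = (x.1 : A) * x.2 * ((y.1 : A) * y.2)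
        simp only [Subgroup.coe_mul]
        rw [mul_assoc, ← mul_assoc (y.1 : A), hcomm₂ y.1 y.1.2 x.2]
        simp [mul_assoc] }
  have hfval : ∀ x : Z₂ × B₁, ((f x : B) : A) = (x.1 : A) * x.2 := fun _ => rfl
  have hfinj : Function.Injective f := by
    rw [injective_iff_map_eq_one]
    rintro ⟨z, c⟩ h
    have h1 : (z : A) * c = 1 := congrArg Subtype.val h
    have h2 : (c : A) = (z : A)⁻¹ := eq_inv_of_mul_eq_one_right h1
    have h3 : (c : A) ∈ Z₂ := by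
      rw [h2]
      exact Z₂.inv_mem z.2
    have h4 := hdisj c h3 c.2
    have h5 : (z : A) = 1 := by
      rw [h4, mul_one] at h1
      exact h1
    exact Prod.ext (Subtype.ext h5) (Subtype.ext h4)
  have hfsurj : Function.Surjective f := by
    rintro ⟨b, hb⟩
    obtain ⟨z, hz, c, hc, h⟩ := hdec b hb
    exact ⟨(⟨z, hz⟩, ⟨c, hc⟩), Subtype.ext h⟩
  let e : Z₂ × B₁ ≃* B := MulEquiv.ofBijective f ⟨hfinj, hfsurj⟩
  let μ₂ : Z₂ →* ℂˣ := μ.comp (Subgroup.inclusion hZ₂Z)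
  let β₀ : Z₂ × B₁ → ℂ := prodFun (fun z => (μ₂ z : ℂ)) (β₁ : B₁ → ℂ)
  have hβ₀ : IsIrrCharacter (Z₂ × B₁) β₀ :=
    isIrrCharacter_prodFun (isIrrCharacter_of_monoidHom μ₂) β₁.2
  let β : B → ℂ := β₀ ∘ e.symm
  have hβ : IsIrrCharacter B β := isIrrCharacter_comp_mulEquiv' e.symm hβ₀
  have hval : ∀ x : Z₂ × B₁, β (f x) = (μ₂ x.1 : ℂ) * (β₁ : B₁ → ℂ) x.2 := by
    intro x
    show β₀ (e.symm (e x)) = _
    rw [MulEquiv.symm_apply_apply]
  have hval' : ∀ (b : B) (z : Z₂) (c : B₁), (b : A) = (z : A) * c →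
      β b = (μ₂ z : ℂ) * (β₁ : B₁ → ℂ) c := by
    intro b z c h
    have : b = f (z, c) := Subtype.ext h
    rw [this, hval]
  have hβ1 : β 1 = (β₁ : B₁ → ℂ) 1 := by
    rw [hval' 1 1 1 (by simp)]
    simp
  have hβ₁c : ∀ c : Z₁, (β₁ : B₁ → ℂ) ⟨c, hZ₁B₁ c.2⟩ = (μ₁ c : ℂ) * (β₁ : B₁ → ℂ) 1 :=
    apply_central_of_over B₁ Z₁ hZ₁B₁ (fun n hn g _ => hcc n (hZ₁Z hn) g) β₁ μ₁ hβ₁
  have hβV : ∀ (v : A), v ∈ V → ∀ b : B, β ⟨v * b * v⁻¹, hB.conj_mem b b.2 v⟩ = β b := by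
    intro v hv b
    obtain ⟨z, hz, c, hc, h⟩ := hdec b b.2
    have hc' : v * c * v⁻¹ ∈ B₁ := hB₁n.conj_mem c hc v
    have h1 : v * (b : A) * v⁻¹ = z * (v * c * v⁻¹) := by
      rw [← h, ← mul_assoc v z c, ← hcomm₂ z hz v]
      group
    rw [hval' ⟨v * b * v⁻¹, hB.conj_mem b b.2 v⟩ ⟨z, hz⟩ ⟨_, hc'⟩ h1, hval' b ⟨z, hz⟩ ⟨c, hc⟩ h.symm]
    congr 1
    exact hβ₁V v hv ⟨c, hc⟩ ⟨_, hc'⟩ rfl
  have hβcl : ∀ (c : B) (b : B), β (c * b * c⁻¹) = β b :=
    fun c b => IsCharacter.isClassFunction (IsIrrCharacter.isCharacter hβ) b c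
  refine ⟨⟨β, hβ⟩, ?_, ?_⟩
  · intro z
    obtain ⟨z₂, hz₂, c, hc, h⟩ := hdec z (hZB z.2)
    have hcZ : c ∈ Z := by
      have : c = z₂⁻¹ * z := by
        rw [← h]
        group
      rw [this]
      exact Z.mul_mem (Z.inv_mem (hZ₂Z hz₂)) z.2
    have hcZ₁ : c ∈ Z₁ := by
      rw [hZ₁def]
      exact ⟨hcZ, hc⟩
    show β ⟨z, hZB z.2⟩ = (μ z : ℂ) * β 1
    rw [hval' ⟨z, hZB z.2⟩ ⟨z₂, hz₂⟩ ⟨c, hc⟩ h.symm, hβ1]
    have h1 := hβ₁c ⟨c, hcZ₁⟩
    have h2 : ((⟨c, hZ₁B₁ hcZ₁⟩ : B₁)) = ⟨c, hc⟩ := rfl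
    rw [show ((⟨c, hc⟩ : B₁)) = ⟨c, hZ₁B₁ hcZ₁⟩ from rfl, h1]
    have h3 : z = (⟨z₂, hZ₂Z hz₂⟩ : Z) * ⟨c, hcZ⟩ := Subtype.ext h.symm
    rw [h3, map_mul, Units.val_mul]
    show ((μ ⟨z₂, hZ₂Z hz₂⟩ : ℂˣ) : ℂ) * (((μ ⟨c, hcZ⟩ : ℂˣ) : ℂ) * _) = _
    rw [mul_assoc]
  · intro a b
    obtain ⟨c, hc, v, hv, rfl⟩ := hdecA a
    show β ⟨c * v * b * (c * v)⁻¹, _⟩ = β b
    have h1 : (⟨c * v * b * (c * v)⁻¹, hB.conj_mem b b.2 (c * v)⟩ : B) =
        (⟨c, hB₁B hc⟩ : B) * ⟨v * b * v⁻¹, hB.conj_mem b b.2 v⟩ * (⟨c, hB₁B hc⟩ : B)⁻¹ := by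
      apply Subtype.ext
      show c * v * b * (c * v)⁻¹ = c * (v * b * v⁻¹) * c⁻¹
      group
    rw [h1, hβcl, hβV v hv b]

end Main

end Cfsg.Agent.Lib.H8Group
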