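import Cfsg.Agent.Lib.H8Group.AbelianPairs
import Cfsg.Agent.Lib.H8Group.BlockSat

/-!
# Blocks with a normal centric pair
-/

set_option autoImplicit false
set_option linter.unusedSectionVars false
set_option linter.style.haveILetI false

namespace Cfsg.Agent.Lib.H8Group

open Cfsg Cfsg.Agent.Lib.Char Cfsg.Agent.Lib.Blocks

universe u

section Normal

variable {G : Type u} [Group G] [Fintype G] {p : ℕ} [hp : Fact p.Prime] {M : Ideal AlgInt}

/-- A Brauer pair on a normal `p`-subgroup, with an invariant block: the idempotents agree. -/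
theorem blockCoeff_eq_of_normal_pair (hM : IsPModular p M) (Q : Subgroup G) [hQn : Q.Normal] (hQ : IsPGroup p Q)
    {f : Set (IrrCharacter (Subgroup.centralizer (Q : Set G)))} (hf : IsPBlock M f)
    (hst : ∀ x : G, StabilizesBlock (Subgroup.centralizer (Q : Set G)) f x)
    {B : Set (IrrCharacter G)} (hQf : IsBrauerPairOf p M B Q f) (g : G) :
    blockCoeff B g = subgroupBlockCoeff (Subgroup.centralizer (Q : Set G)) f g := by
  classical
  have := isPrime_of_modular hM
  letI : Fintype (Subgroup.centralizer (Q : Set G)) := Fintype.ofFinite _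
  haveI hN : (Subgroup.centralizer (Q : Set G)).Normal := inferInstance
  have hoff := offIdeal_centralizer hM Q hQ
  have hB := hQf.2.1
  obtain ⟨ξ₀, hξ₀⟩ := IsPBlock.nonempty hf
  obtain ⟨χ₁, hχ₁⟩ := IsPBlock.nonempty hB
  obtain ⟨θ₁, hθ₁⟩ := exists_constituent (Subgroup.centralizer (Q : Set G)) χ₁
  have h1 := coef_block_eq_covFun _ hoff hB (isPBlock_blockOf θ₁) hχ₁ (self_mem_blockOf θ₁) hθ₁
  have h2 := hQf.2.2 ξ₀ hξ₀
  rw [brauerOmega_eq_resPhi] at h2
  have h3 : resPhi (Subgroup.centralizer (Q : Set G)) ξ₀ (indic B) =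
      indic (gSat (G := G) (Subgroup.centralizer (Q : Set G)) (blockOf M (θ₁ : _ → ℂ))) ξ₀ := by
    rw [resPhi, h1]
    conv_rhs => rw [← spec_coef (indic (gSat (G := G) (Subgroup.centralizer (Q : Set G)) (blockOf M (θ₁ : _ → ℂ))))]
    congr 1
    funext t
    exact extendByZero_coe _ _ t
  have hmem : ξ₀ ∈ gSat (G := G) (Subgroup.centralizer (Q : Set G)) (blockOf M (θ₁ : _ → ℂ)) := by
    by_contra hne
    rw [h3, indic_apply_of_notMem hne] at h2
    apply not_memLocalIdeal_one (M := M)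
    have := MemLocalIdeal.neg h2
    simpa using this
  obtain ⟨y, hy⟩ := hmem
  have hb : blockOf M (θ₁ : _ → ℂ) = f := by
    have h4 := conjIrr_mem_of_stabilizes _ (hst y) hξ₀
    rw [blockOf_eq_of_mem hf h4, ← blockOf_eq_of_mem (isPBlock_blockOf θ₁) hy]
  have hsat : gSat (G := G) (Subgroup.centralizer (Q : Set G)) f = f := by
    apply Set.Subset.antisymm
    · rintro θ ⟨y, hy⟩
      have h4 := conjIrr_mem_of_stabilizes _ (hst y⁻¹) hy
      rw [← conjIrr_mul, inv_mul_cancel, conjIrr_one] at h4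
      exact h4
    · exact self_subset_gSat _ f
  rw [hb, hsat] at h1
  rw [blockCoeff_eq_coef, h1, subgroupBlockCoeff_eq_covFun]

end Normal

section Nil

variable {G : Type u} [Group G] [Fintype G] {p : ℕ} [hp : Fact p.Prime] {M : Ideal AlgInt} {Q : Subgroup G}

/-- `C_G(Q)` has `p`-power index in `Q C_G(Q)`. -/
theorem exists_index_centralizer_sup (hQ : IsPGroup p Q) :
    ∃ k : ℕ, ((Subgroup.centralizer (Q : Set G)).subgroupOf (Q ⊔ Subgroup.centralizer (Q : Set G))).index = p ^ k := by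
  classical
  have hpp : p.Prime := hp.out
  set T := Q ⊔ Subgroup.centralizer (Q : Set G) with hT
  have hQT : Q ≤ T := le_sup_left
  have hCT : Subgroup.centralizer (Q : Set G) ≤ T := le_sup_right
  have hTN : T ≤ Subgroup.normalizer (Q : Set G) := sup_centralizer_le_normalizer
  set N' : Subgroup T := (Subgroup.centralizer (Q : Set G)).subgroupOf T with hN'
  haveI hN'n : N'.Normal := by
    refine ⟨fun x hx t => ?_⟩
    rw [hN', Subgroup.mem_subgroupOf] at hx ⊢
    exact conj_mem_centralizer (hTN t.2) hx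
  have htop : Q.subgroupOf T ⊔ N' = ⊤ := by
    rw [hN', ← Subgroup.subgroupOf_sup hQT hCT, ← hT, Subgroup.subgroupOf_self]
  have h1 : N'.index = N'.relIndex (Q.subgroupOf T) := by
    rw [← Subgroup.relIndex_top_right, ← htop, Subgroup.relIndex_sup_right]
  have h2 : N'.relIndex (Q.subgroupOf T) ∣ Nat.card (Q.subgroupOf T) := Subgroup.relIndex_dvd_card _ _
  have h3 : IsPGroup p (Q.subgroupOf T) := isPGroup_subgroupOf hQ _
  obtain ⟨n, hn⟩ := IsPGroup.iff_card.mp h3
  rw [hn] at h2
  obtain ⟨j, -, hj⟩ := (Nat.dvd_prime_pow hpp).mp h2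
  exact ⟨j, by rw [h1, hj]⟩

/-- The block of `Q C_G(Q)` above a block of `C_G(Q)` with defect group `Z(Q)` is nilpotent, with defect group `Q`. -/
theorem isDefectGroup_sup_of_defect (hM : IsPModular p M) (hQ : IsPGroup p Q)
    {f : Set (IrrCharacter (Subgroup.centralizer (Q : Set G)))} (hf : IsPBlock M f)
    (hdef : IsDefectGroup p M f ((Q ⊓ Subgroup.centralizer (Q : Set G)).subgroupOf (Subgroup.centralizer (Q : Set G))))
    {F : Set (IrrCharacter ↥(Q ⊔ Subgroup.centralizer (Q : Set G)))} (hF : IsPBlock M F)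
    (hcoef : ∀ t : ↥(Q ⊔ Subgroup.centralizer (Q : Set G)),
      blockCoeff F t = subgroupBlockCoeff (Subgroup.centralizer (Q : Set G)) f t) :
    IsDefectGroup p M F (Q.subgroupOf (Q ⊔ Subgroup.centralizer (Q : Set G))) := by
  classical
  have := isPrime_of_modular hM
  set T := Q ⊔ Subgroup.centralizer (Q : Set G) with hT
  have hQT : Q ≤ T := le_sup_left
  have hCT : Subgroup.centralizer (Q : Set G) ≤ T := le_sup_right
  have hTN : T ≤ Subgroup.normalizer (Q : Set G) := sup_centralizer_le_normalizer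
  have hst : ∀ t ∈ T, StabilizesBlock (Subgroup.centralizer (Q : Set G)) f t :=
    fun t ht => stabilizesBlock_of_mem_sup ht f
  obtain ⟨k, hk⟩ := exists_index_centralizer_sup hQ
  letI : Fintype (Subgroup.centralizer (Q : Set G)) := Fintype.ofFinite _
  letI : Fintype T := Fintype.ofFinite _
  obtain ⟨D, hD⟩ := IsPBlock.exists_isDefectGroup hM hF
  obtain ⟨-, h2⟩ := sup_defect_eq_top_of_index hM hQ hQT hCT hTN hf hst hF hcoef hk hD
  obtain ⟨c, hc⟩ := IsDefectGroup.exists_conj_eq hM hf hdef h2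
  have h3 : ∀ t ∈ D.map T.subtype ⊓ Subgroup.centralizer (Q : Set G), t ∈ Q := by
    intro t ht
    have h4 : (⟨t, ht.2⟩ : Subgroup.centralizer (Q : Set G)) ∈
        (D.map T.subtype ⊓ Subgroup.centralizer (Q : Set G)).subgroupOf (Subgroup.centralizer (Q : Set G)) := by
      rw [Subgroup.mem_subgroupOf]
      exact ht
    rw [hc, mem_conjS, Subgroup.mem_subgroupOf] at h4
    have h5 : (c : G)⁻¹ * t * c ∈ Q := h4.1
    have h6 := Subgroup.mem_centralizer_iff.mp c.2 _ h5
    have h7 : (c : G)⁻¹ * t * c = t := by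
      have h8 : (c : G) * ((c : G)⁻¹ * t * c) = t * c := by group
      rw [h8] at h6
      exact mul_right_cancel h6
    rwa [h7] at h5
  have hQD : Q.subgroupOf T ≤ D := by
    refine le_trans ?_ (IsDefectGroup.pCore_le hM hF hD)
    refine Cfsg.Agent.Lib.Basic.le_pCore ⟨fun x hx t => ?_⟩ (isPGroup_subgroupOf hQ _)
    rw [Subgroup.mem_subgroupOf] at hx ⊢
    exact (Subgroup.mem_normalizer_iff.mp (hTN t.2) x).mp hx
  have hDeq : D = Q.subgroupOf T := by
    refine le_antisymm (fun d hd => ?_) hQD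
    have hd' : (d : G) ∈ Subgroup.centralizer (Q : Set G) ⊔ Q := by
      rw [sup_comm]
      exact d.2
    obtain ⟨q, hq, hqd⟩ := exists_inv_mul_mem_of_mem_sup (R := Q) Subgroup.le_normalizer hd'
    have hq' : (⟨q, hQT hq⟩ : T) ∈ Q.subgroupOf T := by
      rw [Subgroup.mem_subgroupOf]
      exact hq
    have hqD := D.mul_mem (D.inv_mem (hQD hq')) hd
    have h8 : q⁻¹ * (d : G) ∈ D.map T.subtype ⊓ Subgroup.centralizer (Q : Set G) :=
      ⟨⟨_, hqD, rfl⟩, hqd⟩
    have h9 := Q.mul_mem hq (h3 _ h8)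
    rw [Subgroup.mem_subgroupOf]
    simpa using h9
  rwa [hDeq] at hD

/-- The block of `Q C_G(Q)` above a block of `C_G(Q)` with defect group `Z(Q)` is nilpotent. -/
theorem isNilpotentBlock_sup_of_defect (hM : IsPModular p M) (hQ : IsPGroup p Q)
    {f : Set (IrrCharacter (Subgroup.centralizer (Q : Set G)))} (hf : IsPBlock M f)
    (hdef : IsDefectGroup p M f ((Q ⊓ Subgroup.centralizer (Q : Set G)).subgroupOf (Subgroup.centralizer (Q : Set G))))
    {F : Set (IrrCharacter ↥(Q ⊔ Subgroup.centralizer (Q : Set G)))} (hF : IsPBlock M F)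
    (hcoef : ∀ t : ↥(Q ⊔ Subgroup.centralizer (Q : Set G)),
      blockCoeff F t = subgroupBlockCoeff (Subgroup.centralizer (Q : Set G)) f t) :
    IsNilpotentBlock p M F := by
  classical
  have := isPrime_of_modular hM
  have hD := isDefectGroup_sup_of_defect hM hQ hf hdef hF hcoef
  obtain ⟨k, hk⟩ := exists_index_centralizer_sup hQ
  set T := Q ⊔ Subgroup.centralizer (Q : Set G) with hT
  have hTN : T ≤ Subgroup.normalizer (Q : Set G) := sup_centralizer_le_normalizer
  letI : Fintype T := Fintype.ofFinite _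
  haveI hN'n : ((Subgroup.centralizer (Q : Set G)).subgroupOf T).Normal := by
    refine ⟨fun x hx t => ?_⟩
    rw [Subgroup.mem_subgroupOf] at hx ⊢
    exact conj_mem_centralizer (hTN t.2) hx
  refine ⟨hF, fun R e hRe x hxN hxS hreg => ?_⟩
  obtain ⟨R', g', hle', hmax'⟩ := exists_maximal_above R e hRe
  have hR'D := isDefectGroup_of_isMaximalBrauerPair hM hmax'
  obtain ⟨y, hy⟩ := IsDefectGroup.exists_conj_eq hM hF hD hR'D
  have hRQ : R ≤ Q.subgroupOf T := by
    refine (le_of_subpairLE hle').trans ?_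
    rw [hy]
    intro t ht
    rw [mem_conjS, Subgroup.mem_subgroupOf] at ht
    rw [Subgroup.mem_subgroupOf]
    have h1 := (Subgroup.mem_normalizer_iff.mp (hTN y.2) _).mp ht
    have h2 : (y : G) * ((y : G)⁻¹ * (t : G) * y) * (y : G)⁻¹ = t := by group
    rw [Subgroup.coe_mul, Subgroup.coe_mul, Subgroup.coe_inv] at h1
    rwa [h2] at h1
  have hxC : x ∈ (Subgroup.centralizer (Q : Set G)).subgroupOf T := mem_of_regular_of_index hk hreg
  rw [Subgroup.mem_subgroupOf] at hxC
  rw [Subgroup.mem_centralizer_iff]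
  intro r hr
  have hrQ := hRQ hr
  rw [Subgroup.mem_subgroupOf] at hrQ
  have := Subgroup.mem_centralizer_iff.mp hxC _ hrQ
  exact Subtype.ext this

end Nil

end Cfsg.Agent.Lib.H8Group
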