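import Cfsg.Agent.Lib.H8Group.CenterHeight
import Cfsg.Agent.Lib.H8Group.Extension
import Cfsg.Agent.Lib.Blocks.Third

/-!
# Characters which do not vanish on the cosets of a normal subgroup

If `G ⧸ N` is abelian and an irreducible character `χ` of `G` does not vanish identically on any
coset of `N`, then `χ` restricts irreducibly to `N` and the characters over `χ|N` are exactly the
twists of `χ` by the characters of `G ⧸ N`.
Also: a member of a block with central element `u` of a defect group does not vanish on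
the section of `u`.
-/

set_option autoImplicit false
set_option linter.unusedSectionVars false
set_option linter.style.haveILetI false

namespace Cfsg.Agent.Lib.H8Group

open Cfsg Cfsg.Agent.Lib.Char Cfsg.Agent.Lib.Blocks
open scoped ComplexConjugate

universe u

section Coset

variable {G : Type u} [Group G] [Fintype G] (N : Subgroup G) [hN : N.Normal] [Fintype N]

/-- Two linear characters of the quotient which agree after multiplying `χ` are equal. -/
theorem apply_eq_of_twist_eq {χ : G → ℂ} (hnv : ∀ q : G ⧸ N, ∃ g : G, (g : G ⧸ N) = q ∧ χ g ≠ 0)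
    {β β' : G ⧸ N → ℂ} (h : ∀ g : G, β (g : G ⧸ N) * χ g = β' (g : G ⧸ N) * χ g) : β = β' := by
  funext q
  obtain ⟨g, hg, hne⟩ := hnv q
  have h1 := h g
  rw [hg] at h1
  exact mul_right_cancel₀ hne h1

/-- **Irreducible restriction.** -/
theorem res_irr_of_coset_ne_zero (hcomm : ∀ a b : G ⧸ N, a * b = b * a) {χ : G → ℂ} (hχ : IsIrrCharacter G χ)
    (hnv : ∀ q : G ⧸ N, ∃ g : G, (g : G ⧸ N) = q ∧ χ g ≠ 0) : IsIrrCharacter N (Cfsg.Agent.Lib.Char.resFun N χ) := by
  classical
  let _ : Fintype (G ⧸ N) := Fintype.ofFinite _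
  apply isIrrCharacter_of_classInner_self (isCharacter_resFun N (IsIrrCharacter.isCharacter hχ))
  have hcardQ : Nat.card (G ⧸ N) = N.index := rfl
  have hlin := (comm_iff_irr_degree_one (G := G ⧸ N)).mp hcomm
  have hcard : (Nat.card G : ℂ) = (N.index : ℂ) * (Nat.card N : ℂ) := by
    rw [← Nat.cast_mul, Subgroup.index_mul_card]
  have hGne : (Nat.card G : ℂ) ≠ 0 := NeZero.ne _
  have hNne : (Nat.card N : ℂ) ≠ 0 := NeZero.ne _
  have hindne : (N.index : ℂ) ≠ 0 := by
    intro h
    rw [h, zero_mul] at hcard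
    exact hGne hcard
  have hsum : ∑ β : IrrCharacter (G ⧸ N), (β : G ⧸ N → ℂ) 1 *
      classInner (fun x : G => (β : G ⧸ N → ℂ) (x : G ⧸ N) * χ x) χ = classInner (Cfsg.Agent.Lib.Char.resFun N χ) (Cfsg.Agent.Lib.Char.resFun N χ) := by
    simp only [classInner]
    have h1 : ∀ β : IrrCharacter (G ⧸ N), (β : G ⧸ N → ℂ) 1 * ((Nat.card G : ℂ)⁻¹ *
        ∑ x : G, (β : G ⧸ N → ℂ) (x : G ⧸ N) * χ x * conj (χ x)) =
        (Nat.card G : ℂ)⁻¹ * ∑ x : G, ((β : G ⧸ N → ℂ) 1 * (β : G ⧸ N → ℂ) (x : G ⧸ N)) *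
          (χ x * conj (χ x)) := by
      intro β
      rw [mul_left_comm, Finset.mul_sum]
      congr 1
      refine Finset.sum_congr rfl fun x _ => ?_
      ring
    simp only [h1]
    rw [← Finset.mul_sum, Finset.sum_comm]
    have hreg : ∀ x : G, ∑ β : IrrCharacter (G ⧸ N), (β : G ⧸ N → ℂ) 1 * (β : G ⧸ N → ℂ) (x : G ⧸ N) =
        if x ∈ N then (N.index : ℂ) else 0 := by
      intro x
      rw [sum_irr_degree_mul_apply]
      by_cases hx : x ∈ N
      · have : (x : G ⧸ N) = 1 := (QuotientGroup.eq_one_iff x).mpr hx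
        rw [if_pos this, if_pos hx, hcardQ]
      · have : (x : G ⧸ N) ≠ 1 := fun h => hx ((QuotientGroup.eq_one_iff x).mp h)
        rw [if_neg this, if_neg hx]
    simp only [← Finset.sum_mul, hreg]
    have h2 : ∑ x : G, (if x ∈ N then (N.index : ℂ) else 0) * (χ x * conj (χ x)) =
        (N.index : ℂ) * ∑ m : N, χ m * conj (χ m) := by
      rw [← sum_dite_mem N (fun m => χ m * conj (χ m)), Finset.mul_sum]
      refine Finset.sum_congr rfl fun x _ => ?_
      by_cases hx : x ∈ N
      · simp [hx]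
      · simp [hx]
    rw [h2, hcard]
    simp only [Cfsg.Agent.Lib.Char.resFun]
    field_simp
  let β₀ : IrrCharacter (G ⧸ N) := ⟨fun _ => 1, isIrrCharacter_one⟩
  have hterm : ∀ β : IrrCharacter (G ⧸ N), β ≠ β₀ →
      classInner (fun x : G => (β : G ⧸ N → ℂ) (x : G ⧸ N) * χ x) χ = 0 := by
    intro β hβ
    obtain ⟨lam, hlam⟩ := IsCharacter.exists_monoidHom (IsIrrCharacter.isCharacter β.2) (hlin β)
    have hirr : IsIrrCharacter G (fun x : G => (β : G ⧸ N → ℂ) (x : G ⧸ N) * χ x) := by
      have := isIrr_twist (lam.comp (QuotientGroup.mk' N)) hχ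
      rw [hlam]
      exact this
    rw [classInner_irr hirr hχ]
    split_ifs with heq
    · exfalso
      apply hβ
      apply Subtype.ext
      apply apply_eq_of_twist_eq N hnv
      intro g
      have h3 := congrFun heq g
      simp only [β₀]
      rw [h3, one_mul]
    · rfl
  have hone : classInner (fun x : G => (β₀ : G ⧸ N → ℂ) (x : G ⧸ N) * χ x) χ = 1 := by
    have : (fun x : G => (β₀ : G ⧸ N → ℂ) (x : G ⧸ N) * χ x) = χ := by
      funext x
      simp [β₀]
    rw [this, classInner_irr_self hχ]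
  rw [Finset.sum_eq_single β₀ (fun β _ hβ => by rw [hterm β hβ, mul_zero])
    (fun h => absurd (Finset.mem_univ _) h), hone] at hsum
  rw [← hsum]
  simp [β₀]

/-- **Counting the extensions.** -/
theorem card_ext_of_coset_ne_zero (hcomm : ∀ a b : G ⧸ N, a * b = b * a) {χ : IrrCharacter G}
    (hnv : ∀ q : G ⧸ N, ∃ g : G, (g : G ⧸ N) = q ∧ (χ : G → ℂ) g ≠ 0) :
    Nat.card {χ' : IrrCharacter G // ∀ n : N, (χ' : G → ℂ) n = (χ : G → ℂ) n} = N.index := by
  classical
  let _ : Fintype (G ⧸ N) := Fintype.ofFinite _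
  have hlin := (comm_iff_irr_degree_one (G := G ⧸ N)).mp hcomm
  have hirr := res_irr_of_coset_ne_zero N hcomm χ.2 hnv
  have htw : ∀ β : IrrCharacter (G ⧸ N), IsIrrCharacter G (fun x : G => (β : G ⧸ N → ℂ) (x : G ⧸ N) * (χ : G → ℂ) x) := by
    intro β
    obtain ⟨lam, hlam⟩ := IsCharacter.exists_monoidHom (IsIrrCharacter.isCharacter β.2) (hlin β)
    have := isIrr_twist (lam.comp (QuotientGroup.mk' N)) χ.2
    rw [hlam]
    exact this
  have hone : ∀ β : IrrCharacter (G ⧸ N), (β : G ⧸ N → ℂ) 1 = 1 := fun β => hlin β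
  let Φ : IrrCharacter (G ⧸ N) → {χ' : IrrCharacter G // ∀ n : N, (χ' : G → ℂ) n = (χ : G → ℂ) n} :=
    fun β => ⟨⟨_, htw β⟩, fun n => by
      show (β : G ⧸ N → ℂ) ((n : G) : G ⧸ N) * (χ : G → ℂ) n = (χ : G → ℂ) n
      rw [(QuotientGroup.eq_one_iff (n : G)).mpr n.2, hone, one_mul]⟩
  have hΦ : Function.Bijective Φ := by
    constructor
    · intro β β' h
      apply Subtype.ext
      apply apply_eq_of_twist_eq N hnv
      intro g
      have h1 : (fun x : G => (β : G ⧸ N → ℂ) (x : G ⧸ N) * (χ : G → ℂ) x) =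
          fun x : G => (β' : G ⧸ N → ℂ) (x : G ⧸ N) * (χ : G → ℂ) x :=
        congrArg (fun z : {χ' : IrrCharacter G // ∀ n : N, (χ' : G → ℂ) n = (χ : G → ℂ) n} => ((z.1 : IrrCharacter G) : G → ℂ)) h
      exact congrFun h1 g
    · rintro ⟨χ', hχ'⟩
      have hres : Cfsg.Agent.Lib.Char.resFun N (χ' : G → ℂ) = Cfsg.Agent.Lib.Char.resFun N (χ : G → ℂ) := funext hχ'
      have hov : classInner (Cfsg.Agent.Lib.Char.resFun N (χ' : G → ℂ)) (Cfsg.Agent.Lib.Char.resFun N (χ : G → ℂ)) ≠ 0 := by
        rw [hres, classInner_irr_self hirr]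
        exact one_ne_zero
      obtain ⟨β, hβ, hβe⟩ := exists_gallagher N (IsIrrCharacter.isCharacter χ.2) hirr χ'.2 hov
      refine ⟨⟨β, hβ⟩, ?_⟩
      apply Subtype.ext
      apply Subtype.ext
      exact hβe.symm
  rw [← Nat.card_congr (Equiv.ofBijective Φ hΦ), card_irr_eq_card_conjClasses]
  letI : CommGroup (G ⧸ N) := { (inferInstance : Group (G ⧸ N)) with mul_comm := hcomm }
  exact (Nat.card_congr (Equiv.ofBijective _ ConjClasses.mk_bijective)).symm

end Coset

section Nonvanish

variable {G : Type u} [Group G] [Fintype G] {M : Ideal AlgInt} {p : ℕ} [hp : Fact p.Prime]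
  {P : Subgroup G} {B : Set (IrrCharacter G)} {e : Set (IrrCharacter (Subgroup.centralizer (P : Set G)))}

/-- A member of a block does not vanish on the section of a central element of a defect group. -/
theorem exists_regular_mul_ne_zero (hM : IsPModular p M) (hmax : IsMaximalBrauerPair p M B P e) {u : G} (hu : u ∈ P)
    (huc : ∀ y ∈ P, u * y = y * u) {χ : IrrCharacter G} (hχ : χ ∈ B) :
    ∃ y : G, Commute y u ∧ ¬ p ∣ orderOf y ∧ (χ : G → ℂ) (u * y) ≠ 0 := by
  classical
  have := isPrime_of_modular hM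
  have hpp : p.Prime := hp.out
  have hPe := hmax.1.1
  have hB := hmax.1.2.1
  have hDP := isDefectGroup_of_isMaximalBrauerPair hM hmax
  have hcardP := card_defectGroup hM hB hDP
  letI instF : Fintype (Subgroup.centralizer ((Subgroup.zpowers u : Subgroup G) : Set G)) := Fintype.ofFinite _
  have hzP : Subgroup.zpowers u ≤ P := by
    rw [Subgroup.zpowers_le]
    exact hu
  obtain ⟨f, -, hf⟩ := exists_subpairLE hM hPe (Subgroup.zpowers u) hzP
  obtain ⟨α, hα⟩ := exists_isPExp G p
  have hpair : IsBrauerPairOf p M B (Subgroup.zpowers u) f := (isBrauerPairOf_iff_of_chain hM hf hB).mp hmax.1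
  have hfB : IsPBlock M f := isPBlock_of_subpairLE hM hPe hf
  have hind : IsInducedBlock M (Subgroup.centralizer ((Subgroup.zpowers u : Subgroup G) : Set G)) f B :=
    (isBrauerPairOf_iff hM hpair.1.1 hfB).mp hpair
  have hPC := zpowers_central huc
  have hD := isDefectGroup_of_subpairLE_central hM hmax hf hPC
  have hdef : blockDefect p f = blockDefect p B := by
    have h1 := card_defectGroup hM hfB hD
    rw [Nat.card_congr (Subgroup.subgroupOfEquivOfLe hPC).toEquiv, hcardP] at h1
    exact (Nat.pow_right_injective hpp.two_le h1).symm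
  have hxp : ∃ k, orderOf ((zElt u : Subgroup.centralizer ((Subgroup.zpowers u : Subgroup G) : Set G)) : G) = p ^ k :=
    orderOf_of_mem_defect hM hB hDP hu
  obtain ⟨ψ₀, hψ₀, h00⟩ := exists_height_zero (p := p) (IsPBlock.nonempty hfB)
  let i₀ : {ψ : IrrCharacter (Subgroup.centralizer ((Subgroup.zpowers u : Subgroup G) : Set G)) // ψ ∈ f} := ⟨ψ₀, hψ₀⟩
  let n : {ψ : IrrCharacter (Subgroup.centralizer ((Subgroup.zpowers u : Subgroup G) : Set G)) // ψ ∈ f} → ℤ :=
    fun i => if i = i₀ then 1 else 0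
  have hn : ¬ (p : ℤ) ∣ ∑ i, n i * degF p f i := by
    have h1 : ∑ i, n i * degF p f i = degF p f i₀ := by
      rw [Finset.sum_eq_single i₀]
      · simp [n]
      · intro i _ hi
        simp [n, hi]
      · intro h
        exact absurd (Finset.mem_univ _) h
    rw [h1]
    intro h2
    exact not_dvd_degQ (p := p) hψ₀ h00 (Int.natCast_dvd_natCast.mp h2)
  have hne := rowR_ne_zero hM (mem_zElt_iff u) hα hxp hind hdef hn hχ
  rw [rowR_eq hM (mem_zElt_iff u) hfB χ 1 n, pow_one] at hne
  have hne2 := right_ne_zero_of_mul hne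
  have hex : ∃ c : Subgroup.centralizer ((Subgroup.zpowers u : Subgroup G) : Set G),
      pRegularPart p (subF _ (zElt u) (χ : G → ℂ)) c ≠ 0 := by
    by_contra hcon
    push Not at hcon
    apply hne2
    have h1 : pRegularPart p (subF _ (zElt u) (χ : G → ℂ)) = fun _ => 0 := funext hcon
    rw [h1]
    simp [classInner]
  obtain ⟨c, hc⟩ := hex
  refine ⟨c, (mem_zElt_iff u (c : G)).mp c.2, ?_, ?_⟩
  · intro hd
    apply hc
    have hreg : ¬ IsPRegular p c := by
      intro h
      apply h
      rwa [← Subgroup.orderOf_coe]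
    simp [pRegularPart, hreg]
  · intro h0
    apply hc
    simp only [pRegularPart]
    split_ifs
    · rw [subF_apply]
      simpa using h0
    · rfl

end Nonvanish

end Cfsg.Agent.Lib.H8Group
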