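import Mathlib
import Cfsg.Agent.Lib.Char.Equiv
import Cfsg.Agent.Lib.Char.Basic

set_option autoImplicit false

/-!
The finite central cover of `Γ` attached to an invariant irreducible character of a normal subgroup:
it carries an extension of the character to the cover.
-/

namespace Cfsg.Agent.Lib.H8Group

open Cfsg Module Cfsg.Agent.Lib.Char

universe u

section Cover

variable {Γ : Type u} [Group Γ] {N : Subgroup Γ} [hN : N.Normal] {d : ℕ}
  (ρ : Representation ℂ N (Fin d → ℂ)) (k : ℕ)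

/-- Pairs `(x, A)` where `A` realizes on the representation space the action of `x` on `N`, with
determinant of exponent `k`. -/
def coverGroup : Subgroup (Γ × (Module.End ℂ (Fin d → ℂ))ˣ) where
  carrier := {p | (∀ n : N, (p.2 : Module.End ℂ (Fin d → ℂ)) * ρ n =
      ρ (MulAut.conjNormal p.1 n) * (p.2 : Module.End ℂ (Fin d → ℂ))) ∧
      (LinearMap.det (p.2 : Module.End ℂ (Fin d → ℂ))) ^ k = 1}
  mul_mem' := by
    rintro p q ⟨hp, hp'⟩ ⟨hq, hq'⟩
    refine ⟨fun n => ?_, ?_⟩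
    · have h1 : MulAut.conjNormal (p * q).1 n = MulAut.conjNormal p.1 (MulAut.conjNormal q.1 n) := by
        rw [Prod.fst_mul, map_mul, MulAut.mul_apply]
      rw [h1, Prod.snd_mul, Units.val_mul, mul_assoc, hq, ← mul_assoc, hp, mul_assoc]
    · rw [Prod.snd_mul, Units.val_mul, map_mul, mul_pow, hp', hq', one_mul]
  one_mem' := by
    refine ⟨fun n => ?_, ?_⟩
    · simp
    · simp
  inv_mem' := by
    rintro p ⟨hp, hp'⟩
    refine ⟨fun n => ?_, ?_⟩
    · have h1 := hp (MulAut.conjNormal p.1⁻¹ n)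
      have h2 : MulAut.conjNormal p.1 (MulAut.conjNormal p.1⁻¹ n) = n := by
        rw [← MulAut.mul_apply, ← map_mul, mul_inv_cancel, map_one]
        rfl
      rw [h2] at h1
      have h3 : ((p⁻¹).2 : Module.End ℂ (Fin d → ℂ)) = ((p.2⁻¹ : (Module.End ℂ (Fin d → ℂ))ˣ) : _) := rfl
      have h4 : (p⁻¹).1 = p.1⁻¹ := rfl
      rw [h3, h4]
      calc ((p.2⁻¹ : (Module.End ℂ (Fin d → ℂ))ˣ) : Module.End ℂ (Fin d → ℂ)) * ρ n
          = ((p.2⁻¹ : (Module.End ℂ (Fin d → ℂ))ˣ) : Module.End ℂ (Fin d → ℂ)) * (ρ n * p.2) *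
            ((p.2⁻¹ : (Module.End ℂ (Fin d → ℂ))ˣ) : Module.End ℂ (Fin d → ℂ)) := by
              rw [mul_assoc, mul_assoc, Units.mul_inv, mul_one]
        _ = ρ (MulAut.conjNormal p.1⁻¹ n) *
            ((p.2⁻¹ : (Module.End ℂ (Fin d → ℂ))ˣ) : Module.End ℂ (Fin d → ℂ)) := by
              rw [← h1, ← mul_assoc, Units.inv_mul, one_mul]
    · have h1 : LinearMap.det ((p.2⁻¹ : (Module.End ℂ (Fin d → ℂ))ˣ) : Module.End ℂ (Fin d → ℂ)) *
          LinearMap.det (p.2 : Module.End ℂ (Fin d → ℂ)) = 1 := by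
        rw [← map_mul, Units.inv_mul, map_one]
      have h2 : (LinearMap.det ((p.2⁻¹ : (Module.End ℂ (Fin d → ℂ))ˣ) : Module.End ℂ (Fin d → ℂ))) ^ k *
          (LinearMap.det (p.2 : Module.End ℂ (Fin d → ℂ))) ^ k = 1 := by
        rw [← mul_pow, h1, one_pow]
      rw [hp', mul_one] at h2
      exact h2

variable {ρ k}

theorem mem_coverGroup {p : Γ × (Module.End ℂ (Fin d → ℂ))ˣ} : p ∈ coverGroup ρ k ↔
    (∀ n : N, (p.2 : Module.End ℂ (Fin d → ℂ)) * ρ n =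
      ρ (MulAut.conjNormal p.1 n) * (p.2 : Module.End ℂ (Fin d → ℂ))) ∧
      (LinearMap.det (p.2 : Module.End ℂ (Fin d → ℂ))) ^ k = 1 := Iff.rfl

/-- A unit realizing the action of `x`, of determinant one. -/
theorem exists_unit_conj [Finite Γ] (hρ : ρ.IsIrreducible)
    (hinv : ∀ (x : Γ) (n : N), ρ.character (MulAut.conjNormal x n) = ρ.character n) (x : Γ) :
    ∃ A : (Module.End ℂ (Fin d → ℂ))ˣ, (∀ n : N, (A : Module.End ℂ (Fin d → ℂ)) * ρ n =
      ρ (MulAut.conjNormal x n) * (A : Module.End ℂ (Fin d → ℂ))) ∧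
      LinearMap.det (A : Module.End ℂ (Fin d → ℂ)) = 1 := by
  classical
  let σ : Representation ℂ N (Fin d → ℂ) :=
    MonoidHom.comp ρ (MulAut.conjNormal x : MulAut N).toMonoidHom
  have hc : ρ.character = σ.character := by
    funext n
    exact (hinv x n).symm
  obtain ⟨φ⟩ := equiv_of_character_eq ρ σ hc
  have hd : 0 < d := by
    have h1 := finrank_pos_of_irr ρ
    simpa using h1
  let e := φ.toLinearEquiv
  let A₀ : (Module.End ℂ (Fin d → ℂ))ˣ :=
    ⟨e.toLinearMap, e.symm.toLinearMap,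
      LinearMap.ext fun v => e.apply_symm_apply v, LinearMap.ext fun v => e.symm_apply_apply v⟩
  have hA₀ : ∀ n : N, (A₀ : Module.End ℂ (Fin d → ℂ)) * ρ n =
      ρ (MulAut.conjNormal x n) * (A₀ : Module.End ℂ (Fin d → ℂ)) := by
    intro n
    exact φ.isIntertwining' n
  have hdet : LinearMap.det (A₀ : Module.End ℂ (Fin d → ℂ)) ≠ 0 := by
    have h1 : LinearMap.det (A₀ : Module.End ℂ (Fin d → ℂ)) *
        LinearMap.det ((A₀⁻¹ : (Module.End ℂ (Fin d → ℂ))ˣ) : Module.End ℂ (Fin d → ℂ)) = 1 := by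
      rw [← map_mul, Units.mul_inv, map_one]
    exact left_ne_zero_of_mul_eq_one h1
  obtain ⟨c, hc⟩ := IsAlgClosed.exists_pow_nat_eq ((LinearMap.det (A₀ : Module.End ℂ (Fin d → ℂ)))⁻¹) hd
  have hc0 : c ≠ 0 := by
    rintro rfl
    rw [zero_pow hd.ne'] at hc
    exact inv_ne_zero hdet hc.symm
  let A : (Module.End ℂ (Fin d → ℂ))ˣ :=
    ⟨c • (A₀ : Module.End ℂ (Fin d → ℂ)),
      c⁻¹ • ((A₀⁻¹ : (Module.End ℂ (Fin d → ℂ))ˣ) : Module.End ℂ (Fin d → ℂ)),
      by rw [smul_mul_smul_comm, mul_inv_cancel₀ hc0, Units.mul_inv, one_smul],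
      by rw [smul_mul_smul_comm, inv_mul_cancel₀ hc0, Units.inv_mul, one_smul]⟩
  refine ⟨A, fun n => ?_, ?_⟩
  · show (c • (A₀ : Module.End ℂ (Fin d → ℂ))) * ρ n = ρ _ * (c • (A₀ : Module.End ℂ (Fin d → ℂ)))
    rw [smul_mul_assoc, mul_smul_comm, hA₀]
  · show LinearMap.det (c • (A₀ : Module.End ℂ (Fin d → ℂ))) = 1
    rw [LinearMap.det_smul]
    have h1 : finrank ℂ (Fin d → ℂ) = d := by simp
    rw [h1, hc, inv_mul_cancel₀ hdet]

omit hN in
/-- The unit part of an element lying over the identity is a scalar. -/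
theorem scalar_of_conj_one [Finite Γ] (hρ : ρ.IsIrreducible) {A : Module.End ℂ (Fin d → ℂ)}
    (hA : ∀ n : N, A * ρ n = ρ n * A) : ∃ c : ℂ, A = c • (1 : Module.End ℂ (Fin d → ℂ)) := by
  let _ : Fintype N := Fintype.ofFinite _
  obtain ⟨c, hc⟩ := schur_scalar ρ A (fun g => hA g)
  exact ⟨c, hc⟩

/-- Finiteness of the cover. -/
theorem finite_coverGroup [Finite Γ] (hρ : ρ.IsIrreducible)
    (hinv : ∀ (x : Γ) (n : N), ρ.character (MulAut.conjNormal x n) = ρ.character n) (hk : 0 < k) :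
    Finite (coverGroup ρ k) := by
  classical
  have hd : 0 < d := by
    have h1 := finrank_pos_of_irr ρ
    simpa using h1
  have hfr : finrank ℂ (Fin d → ℂ) = d := by simp
  choose A hA hdet using exists_unit_conj hρ hinv
  have hsc : ∀ p : coverGroup ρ k, ∃ c : Polynomial.nthRootsFinset (d * k) (1 : ℂ),
      ((p : Γ × (Module.End ℂ (Fin d → ℂ))ˣ).2 : Module.End ℂ (Fin d → ℂ)) =
        (c : ℂ) • (A (p : Γ × (Module.End ℂ (Fin d → ℂ))ˣ).1 : Module.End ℂ (Fin d → ℂ)) := by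
    rintro ⟨⟨x, B⟩, hB⟩
    obtain ⟨hB1, hB2⟩ := mem_coverGroup.mp hB
    simp only at hB1 hB2
    have hT : ∀ n : N, ((B : Module.End ℂ (Fin d → ℂ)) *
        ((A x)⁻¹ : (Module.End ℂ (Fin d → ℂ))ˣ)) * ρ n =
        ρ n * ((B : Module.End ℂ (Fin d → ℂ)) * ((A x)⁻¹ : (Module.End ℂ (Fin d → ℂ))ˣ)) := by
      intro n
      have h1 := hA x (MulAut.conjNormal x⁻¹ n)
      have h2 := hB1 (MulAut.conjNormal x⁻¹ n)
      have h3 : MulAut.conjNormal x (MulAut.conjNormal x⁻¹ n) = n := by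
        rw [← MulAut.mul_apply, ← map_mul, mul_inv_cancel, map_one]
        rfl
      rw [h3] at h1 h2
      calc ((B : Module.End ℂ (Fin d → ℂ)) * ((A x)⁻¹ : (Module.End ℂ (Fin d → ℂ))ˣ)) * ρ n
          = (B : Module.End ℂ (Fin d → ℂ)) * (((A x)⁻¹ : (Module.End ℂ (Fin d → ℂ))ˣ) *
              (ρ n * (A x : Module.End ℂ (Fin d → ℂ)))) *
              ((A x)⁻¹ : (Module.End ℂ (Fin d → ℂ))ˣ) := by
              simp only [mul_assoc, Units.mul_inv, mul_one]
        _ = (B : Module.End ℂ (Fin d → ℂ)) * ρ (MulAut.conjNormal x⁻¹ n) *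
              ((A x)⁻¹ : (Module.End ℂ (Fin d → ℂ))ˣ) := by
              rw [← h1, ← mul_assoc (((A x)⁻¹ : (Module.End ℂ (Fin d → ℂ))ˣ) :
                Module.End ℂ (Fin d → ℂ)), Units.inv_mul, one_mul]
        _ = ρ n * ((B : Module.End ℂ (Fin d → ℂ)) * ((A x)⁻¹ : (Module.End ℂ (Fin d → ℂ))ˣ)) := by
              rw [h2, mul_assoc]
    obtain ⟨c, hc⟩ := scalar_of_conj_one hρ hT
    have hB3 : (B : Module.End ℂ (Fin d → ℂ)) = c • (A x : Module.End ℂ (Fin d → ℂ)) := by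
      calc (B : Module.End ℂ (Fin d → ℂ))
          = ((B : Module.End ℂ (Fin d → ℂ)) * ((A x)⁻¹ : (Module.End ℂ (Fin d → ℂ))ˣ)) *
              (A x : Module.End ℂ (Fin d → ℂ)) := by
              rw [mul_assoc, Units.inv_mul, mul_one]
        _ = c • (A x : Module.End ℂ (Fin d → ℂ)) := by
              rw [hc, smul_mul_assoc, one_mul]
    have hpow : c ^ (d * k) = 1 := by
      rw [hB3, LinearMap.det_smul, hfr, hdet x, mul_one, ← pow_mul] at hB2
      exact hB2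
    refine ⟨⟨c, ?_⟩, hB3⟩
    exact (Polynomial.mem_nthRootsFinset (Nat.mul_pos hd hk) 1).mpr hpow
  choose cc hcc using hsc
  have hinj : Function.Injective (fun p : coverGroup ρ k =>
      ((p : Γ × (Module.End ℂ (Fin d → ℂ))ˣ).1, cc p)) := by
    intro p q hpq
    simp only [Prod.mk.injEq] at hpq
    obtain ⟨h1, h2⟩ := hpq
    apply Subtype.ext
    refine Prod.ext h1 (Units.ext ?_)
    rw [hcc p, hcc q, h1, h2]
  exact Finite.of_injective _ hinj

/-- The finite central cover attached to an invariant irreducible character of a normal subgroup. -/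
theorem exists_cover [Finite Γ] (θ : IrrCharacter N)
    (hinv : ∀ (x : Γ) (n : N), (θ : N → ℂ) (MulAut.conjNormal x n) = (θ : N → ℂ) n) :
    ∃ (E : Type u) (_ : Group E) (_ : Finite E) (π : E →* Γ) (ι : N →* E) (τ : E → ℂ)
      (lam : π.ker →* ℂˣ), Function.Surjective π ∧ (∀ z ∈ π.ker, ∀ e, z * e = e * z) ∧
      (∀ n, π (ι n) = n) ∧ (∀ e n, e * ι n * e⁻¹ = ι (MulAut.conjNormal (π e) n)) ∧
      IsCharacter E τ ∧ (∀ n, τ (ι n) = (θ : N → ℂ) n) ∧
      (∀ (z : π.ker) e, τ (z * e) = (lam z : ℂ) * τ e) := by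
  classical
  obtain ⟨d, ρ, hρ, hχ⟩ := θ.2
  have hinv' : ∀ (x : Γ) (n : N), ρ.character (MulAut.conjNormal x n) = ρ.character n := by
    rw [hχ]
    exact hinv
  have hd : 0 < d := by
    have h1 := finrank_pos_of_irr ρ
    simpa using h1
  have : Nonempty (Fin d) := ⟨⟨0, hd⟩⟩
  let k := Nat.card N
  have hk : 0 < k := Nat.card_pos
  let E := coverGroup ρ k
  have hfin : Finite E := finite_coverGroup hρ hinv' hk
  let π : E →* Γ := (MonoidHom.fst _ _).comp E.subtype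
  have hι : ∀ n : N, (MonoidHom.prod N.subtype ρ.asGroupHom) n ∈ E := by
    intro n
    refine ⟨fun m => ?_, ?_⟩
    · show ((ρ.asGroupHom n : (Module.End ℂ (Fin d → ℂ))ˣ) : Module.End ℂ (Fin d → ℂ)) * ρ m =
        ρ (MulAut.conjNormal (n : Γ) m) * ((ρ.asGroupHom n : (Module.End ℂ (Fin d → ℂ))ˣ) :
          Module.End ℂ (Fin d → ℂ))
      rw [Representation.asGroupHom_apply, ← map_mul, ← map_mul]
      congr 1
      apply Subtype.ext
      simp [MulAut.conjNormal_apply]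
    · show (LinearMap.det ((ρ.asGroupHom n : (Module.End ℂ (Fin d → ℂ))ˣ) :
        Module.End ℂ (Fin d → ℂ))) ^ k = 1
      rw [Representation.asGroupHom_apply, ← map_pow, ← map_pow, pow_card_eq_one', map_one, map_one]
  let ι : N →* E := (MonoidHom.prod N.subtype ρ.asGroupHom).codRestrict E hι
  let τ : E → ℂ := fun e => LinearMap.trace ℂ (Fin d → ℂ)
    (((e : Γ × (Module.End ℂ (Fin d → ℂ))ˣ).2 : (Module.End ℂ (Fin d → ℂ))ˣ) : Module.End ℂ (Fin d → ℂ))
  have hscal : ∀ z : π.ker, ∃ c : ℂ,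
      (((z : E) : Γ × (Module.End ℂ (Fin d → ℂ))ˣ).2 : Module.End ℂ (Fin d → ℂ)) =
        c • (1 : Module.End ℂ (Fin d → ℂ)) := by
    intro z
    have h1 : ((z : E) : Γ × (Module.End ℂ (Fin d → ℂ))ˣ).1 = 1 := z.2
    apply scalar_of_conj_one hρ
    intro n
    have h2 := ((z : E).2).1 n
    rw [h1, map_one] at h2
    exact h2
  choose c hc using hscal
  have hc1 : (1 : Module.End ℂ (Fin d → ℂ)) ≠ 0 := one_ne_zero
  have hcmul : ∀ z z' : π.ker, c (z * z') = c z * c z' := by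
    intro z z'
    have h1 := hc (z * z')
    have h2 : (((((z * z' : π.ker) : E) : Γ × (Module.End ℂ (Fin d → ℂ))ˣ).2 : (Module.End ℂ (Fin d → ℂ))ˣ) :
        Module.End ℂ (Fin d → ℂ)) =
        (((z : E) : Γ × (Module.End ℂ (Fin d → ℂ))ˣ).2 : Module.End ℂ (Fin d → ℂ)) *
          (((z' : E) : Γ × (Module.End ℂ (Fin d → ℂ))ˣ).2 : Module.End ℂ (Fin d → ℂ)) := rfl
    rw [h2, hc z, hc z', smul_mul_smul_comm, mul_one] at h1
    exact (smul_left_injective ℂ hc1 h1).symm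
  have hcone : c 1 = 1 := by
    have h1 := hc 1
    have h2 : ((((1 : π.ker) : E) : Γ × (Module.End ℂ (Fin d → ℂ))ˣ).2 : Module.End ℂ (Fin d → ℂ)) = 1 := rfl
    rw [h2] at h1
    have h3 : (1 : ℂ) • (1 : Module.End ℂ (Fin d → ℂ)) = c 1 • 1 := by
      rw [one_smul]
      exact h1
    exact (smul_left_injective ℂ hc1 h3).symm
  let lam : π.ker →* ℂˣ := MonoidHom.toHomUnits ⟨⟨c, hcone⟩, hcmul⟩
  have hlam : ∀ z, (lam z : ℂ) = c z := fun z => by
    simp [lam, MonoidHom.coe_toHomUnits]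
  refine ⟨E, inferInstance, hfin, π, ι, τ, lam, ?_, ?_, ?_, ?_, ?_, ?_, ?_⟩
  · intro x
    obtain ⟨A, hA, hdet⟩ := exists_unit_conj hρ hinv' x
    refine ⟨⟨(x, A), hA, ?_⟩, rfl⟩
    show (LinearMap.det (A : Module.End ℂ (Fin d → ℂ))) ^ k = 1
    rw [hdet, one_pow]
  · intro z hz e
    apply Subtype.ext
    refine Prod.ext ?_ (Units.ext ?_)
    · have h1 : (z : Γ × (Module.End ℂ (Fin d → ℂ))ˣ).1 = 1 := hz
      show (z : Γ × (Module.End ℂ (Fin d → ℂ))ˣ).1 * (e : Γ × (Module.End ℂ (Fin d → ℂ))ˣ).1 =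
        (e : Γ × (Module.End ℂ (Fin d → ℂ))ˣ).1 * (z : Γ × (Module.End ℂ (Fin d → ℂ))ˣ).1
      rw [h1, one_mul, mul_one]
    · have h1 := hc ⟨z, hz⟩
      show ((z : Γ × (Module.End ℂ (Fin d → ℂ))ˣ).2 : Module.End ℂ (Fin d → ℂ)) *
          ((e : Γ × (Module.End ℂ (Fin d → ℂ))ˣ).2 : Module.End ℂ (Fin d → ℂ)) =
        ((e : Γ × (Module.End ℂ (Fin d → ℂ))ˣ).2 : Module.End ℂ (Fin d → ℂ)) *
          ((z : Γ × (Module.End ℂ (Fin d → ℂ))ˣ).2 : Module.End ℂ (Fin d → ℂ))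
      have h2 : ((z : Γ × (Module.End ℂ (Fin d → ℂ))ˣ).2 : Module.End ℂ (Fin d → ℂ)) =
          c ⟨z, hz⟩ • (1 : Module.End ℂ (Fin d → ℂ)) := h1
      rw [h2, smul_mul_assoc, mul_smul_comm, one_mul, mul_one]
  · intro n
    rfl
  · intro e n
    apply Subtype.ext
    refine Prod.ext ?_ (Units.ext ?_)
    · show (e : Γ × (Module.End ℂ (Fin d → ℂ))ˣ).1 * n * ((e : Γ × (Module.End ℂ (Fin d → ℂ))ˣ).1)⁻¹ =
        ((MulAut.conjNormal (π e) n : N) : Γ)
      rw [MulAut.conjNormal_apply]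
      rfl
    · show ((e : Γ × (Module.End ℂ (Fin d → ℂ))ˣ).2 : Module.End ℂ (Fin d → ℂ)) *
          ((ρ.asGroupHom n : (Module.End ℂ (Fin d → ℂ))ˣ) : Module.End ℂ (Fin d → ℂ)) *
          (((e : Γ × (Module.End ℂ (Fin d → ℂ))ˣ).2⁻¹ : (Module.End ℂ (Fin d → ℂ))ˣ) :
            Module.End ℂ (Fin d → ℂ)) =
        ((ρ.asGroupHom (MulAut.conjNormal (π e) n) : (Module.End ℂ (Fin d → ℂ))ˣ) :
          Module.End ℂ (Fin d → ℂ))
      rw [Representation.asGroupHom_apply, Representation.asGroupHom_apply, (e.2).1 n, mul_assoc,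
        Units.mul_inv, mul_one]
      rfl
  · exact ⟨d, ((Units.coeHom _).comp (MonoidHom.snd _ _)).comp E.subtype, rfl⟩
  · intro n
    show LinearMap.trace ℂ (Fin d → ℂ) ((ρ.asGroupHom n : (Module.End ℂ (Fin d → ℂ))ˣ) :
      Module.End ℂ (Fin d → ℂ)) = (θ : N → ℂ) n
    rw [Representation.asGroupHom_apply]
    exact congrFun hχ n
  · intro z e
    show LinearMap.trace ℂ (Fin d → ℂ) (((z : E) : Γ × (Module.End ℂ (Fin d → ℂ))ˣ).2.val *
      ((e : Γ × (Module.End ℂ (Fin d → ℂ))ˣ).2 : Module.End ℂ (Fin d → ℂ))) = _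
    rw [hc z, smul_mul_assoc, one_mul, map_smul, hlam]
    rfl

end Cover

end Cfsg.Agent.Lib.H8Group
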