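import Mathlib
import Cfsg.Agent.Lib.H8Group.ProjExt
import Cfsg.Agent.Lib.H8Group.CentralCase
import Cfsg.Agent.Lib.Char.Gallagher

set_option autoImplicit false

/-!
Invariant characters above an invariant character of a normal subgroup, for a normal Hall section:
reduction to a central subgroup through the finite central cover.
-/

namespace Cfsg.Agent.Lib.H8Group

open Cfsg Module Cfsg.Agent.Lib.Char MulAction
open scoped ComplexConjugate

universe u

theorem solvable_of_factor {X Y W : Type*} [Group X] [Group Y] [Group W] (u : X →* Y) (v : X →* W)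
    (hv : Function.Surjective v) (h : u.ker ≤ v.ker) (hY : Group.IsSolvable Y) :
    Group.IsSolvable W := by
  have h1 : Group.IsSolvable (X ⧸ u.ker) :=
    Group.isSolvable_of_isSolvable_injective (QuotientGroup.kerLift_injective u)
  let f : X ⧸ u.ker →* W := QuotientGroup.lift u.ker v h
  refine Group.isSolvable_of_surjective (f := f) ?_
  intro w
  obtain ⟨x, rfl⟩ := hv w
  exact ⟨(x : X ⧸ u.ker), rfl⟩

/-- A character constant on the fibres over the identity of a surjection comes from the target. -/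
theorem exists_descend {X Y : Type u} [Group X] [Group Y] [Fintype X] [Finite Y] (f : X →* Y)
    (hf : Function.Surjective f) {χ : X → ℂ} (hχ : IsIrrCharacter X χ)
    (hker : ∀ x ∈ f.ker, χ x = χ 1) : ∃ ψ : Y → ℂ, IsIrrCharacter Y ψ ∧ ∀ x, χ x = ψ (f x) := by
  classical
  have hle : f.ker ≤ charKer χ := fun x hx =>
    (mem_charKer (IsIrrCharacter.isCharacter hχ)).mpr (hker x hx)
  let _ : Fintype f.ker := Fintype.ofFinite _
  obtain ⟨β, hβ, hχβ⟩ := exists_deflate f.ker hχ hle
  let e : X ⧸ f.ker ≃* Y := QuotientGroup.quotientKerEquivOfSurjective f hf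
  refine ⟨β ∘ e.symm, isIrrCharacter_comp_mulEquiv' e.symm hβ, fun x => ?_⟩
  rw [hχβ]
  show β (x : X ⧸ f.ker) = β (e.symm (f x))
  congr 1
  apply e.injective
  rw [MulEquiv.apply_symm_apply]
  rfl

section Main

variable {Γ : Type u} [Group Γ] [Finite Γ]

/-- Invariant characters above an invariant character of a normal subgroup, for a normal Hall
section with a solvable factor. -/
theorem exists_invariant_hall (G N : Subgroup Γ) [hG : G.Normal] [hN : N.Normal] [Fintype G] [Fintype N]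
    (hNG : N ≤ G) (hcop : (G.index).Coprime (N.relIndex G))
    (hsolv : Group.IsSolvable (Γ ⧸ G) ∨ Group.IsSolvable (G ⧸ N.subgroupOf G))
    (θ : IrrCharacter N) (hinv : ∀ (x : Γ) (n : N),
      (θ : N → ℂ) ⟨x * n * x⁻¹, hN.conj_mem n n.2 x⟩ = (θ : N → ℂ) n) :
    ∃ χ : IrrCharacter G, classInner (fun n : N => (χ : G → ℂ) ⟨n, hNG n.2⟩) (θ : N → ℂ) ≠ 0 ∧
      ∀ (x : Γ) (g : G), (χ : G → ℂ) ⟨x * g * x⁻¹, hG.conj_mem g g.2 x⟩ = (χ : G → ℂ) g := by
  classical
  have hinv' : ∀ (x : Γ) (n : N), (θ : N → ℂ) (MulAut.conjNormal x n) = (θ : N → ℂ) n := by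
    intro x n
    rw [← hinv x n]
    exact congrArg (θ : N → ℂ) (Subtype.ext (MulAut.conjNormal_apply x n))
  obtain ⟨E, _, _, π, ι, τ, lam, hπ, hker, hπι, hconj, hτ, hτθ, hτlam⟩ := exists_cover θ hinv'
  let _ : Fintype E := Fintype.ofFinite _
  -- the subgroups of the cover
  obtain ⟨X, hXdef⟩ : ∃ X : Subgroup E, X = G.comap π := ⟨_, rfl⟩
  have hXmem : ∀ e : E, e ∈ X ↔ π e ∈ G := by
    intro e
    rw [hXdef]
    exact Iff.rfl
  have hXn : X.Normal := by
    rw [hXdef]
    exact hG.comap π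
  obtain ⟨N₀, hN₀def⟩ : ∃ N₀ : Subgroup E, N₀ = ι.range := ⟨_, rfl⟩
  have hN₀mem : ∀ e : E, e ∈ N₀ ↔ ∃ n, ι n = e := by
    intro e
    rw [hN₀def]
    exact Iff.rfl
  have hN₀n : N₀.Normal := by
    refine ⟨fun e he a => ?_⟩
    obtain ⟨n, rfl⟩ := (hN₀mem e).mp he
    rw [hconj]
    exact (hN₀mem _).mpr ⟨_, rfl⟩
  have hN₀X : N₀ ≤ X := by
    intro e he
    obtain ⟨n, rfl⟩ := (hN₀mem e).mp he
    rw [hXmem, hπι]
    exact hNG n.2
  have hkerX : π.ker ≤ X := by
    intro z hz
    rw [hXmem, MonoidHom.mem_ker.mp hz]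
    exact G.one_mem
  obtain ⟨A, _, q, hq, hqker⟩ : ∃ (A : Type u) (_ : Group A) (q : E →* A),
      Function.Surjective q ∧ q.ker = N₀ :=
    ⟨E ⧸ N₀, inferInstance, QuotientGroup.mk' N₀, QuotientGroup.mk'_surjective N₀,
      QuotientGroup.ker_mk' N₀⟩
  have hAfin : Finite A := Finite.of_surjective q hq
  obtain ⟨B, hBdef⟩ : ∃ B : Subgroup A, B = X.map q := ⟨_, rfl⟩
  obtain ⟨Z, hZdef⟩ : ∃ Z : Subgroup A, Z = π.ker.map q := ⟨_, rfl⟩
  have hBmem : ∀ e ∈ X, q e ∈ B := by
    intro e he
    rw [hBdef]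
    exact ⟨e, he, rfl⟩
  have hBn : B.Normal := by
    rw [hBdef]
    exact hXn.map q hq
  have hZB : Z ≤ B := by
    rw [hZdef, hBdef]
    exact Subgroup.map_mono hkerX
  have hZc : Z ≤ Subgroup.center A := by
    rw [hZdef]
    rintro _ ⟨z, hz, rfl⟩
    rw [Subgroup.mem_center_iff]
    intro a
    obtain ⟨e, rfl⟩ := hq a
    rw [← map_mul, ← map_mul, hker z hz e]
  have hZ' : (Z.subgroupOf B).Normal := by
    apply normal_of_le_center
    intro x hx
    rw [Subgroup.mem_center_iff]
    intro g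
    apply Subtype.ext
    exact (Subgroup.mem_center_iff.mp (hZc hx) g)
  have hcomapB : B.comap q = X := by
    rw [hBdef]
    apply Subgroup.comap_map_eq_self
    rw [hqker]
    exact hN₀X
  have hcomapZ : Z.comap q = N.comap π := by
    ext e
    rw [Subgroup.mem_comap, Subgroup.mem_comap, hZdef]
    constructor
    · rintro ⟨z, hz, hze⟩
      have h1 : z⁻¹ * e ∈ N₀ := by
        rw [← hqker, MonoidHom.mem_ker, map_mul, map_inv, hze, inv_mul_cancel]
      obtain ⟨n, hn⟩ := (hN₀mem _).mp h1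
      have h2 : π e = n := by
        have h3 : π (z⁻¹ * e) = n := by
          rw [← hn, hπι]
        rw [map_mul, map_inv, MonoidHom.mem_ker.mp hz, inv_one, one_mul] at h3
        exact h3
      rw [h2]
      exact n.2
    · intro he
      let n : N := ⟨π e, he⟩
      refine ⟨e * (ι n)⁻¹, ?_, ?_⟩
      · show π (e * (ι n)⁻¹) = 1
        rw [map_mul, map_inv, hπι]
        simp [n]
      · have h1 : q (ι n) = 1 := by
          rw [← MonoidHom.mem_ker, hqker]
          exact (hN₀mem _).mpr ⟨n, rfl⟩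
        rw [map_mul, map_inv, h1, inv_one, mul_one]
  have hmapX : X.map π = G := by
    rw [hXdef]
    exact Subgroup.map_comap_eq_self_of_surjective hπ G
  have hindexB : B.index = G.index := by
    rw [← Subgroup.index_comap_of_surjective B hq, hcomapB, hXdef,
      Subgroup.index_comap_of_surjective G hπ]
  have hrelZ : Z.relIndex B = N.relIndex G := by
    have h1 : (Z.comap q).relIndex X = Z.relIndex (X.map q) := Subgroup.relIndex_comap Z q X
    have h2 : (N.comap π).relIndex X = N.relIndex (X.map π) := Subgroup.relIndex_comap N π X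
    rw [hBdef, ← h1, hcomapZ, h2, hmapX]
  -- the maps from the cover of `G`
  let πX : X →* G := (π.comp X.subtype).codRestrict G (fun x => (hXmem x).mp x.2)
  let qX : X →* B := (q.comp X.subtype).codRestrict B (fun x => hBmem x x.2)
  have hπX : Function.Surjective πX := by
    intro g
    obtain ⟨e, he⟩ := hπ g
    refine ⟨⟨e, (hXmem e).mpr (he ▸ g.2)⟩, Subtype.ext he⟩
  have hqX : Function.Surjective qX := by
    rintro ⟨b, hb⟩
    rw [hBdef] at hb
    obtain ⟨e, he, rfl⟩ := hb
    exact ⟨⟨e, he⟩, rfl⟩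
  have hsolv' : Group.IsSolvable (A ⧸ B) ∨ Group.IsSolvable (B ⧸ Z.subgroupOf B) := by
    rcases hsolv with h | h
    · left
      refine solvable_of_factor ((QuotientGroup.mk' G).comp π) ((QuotientGroup.mk' B).comp q)
        ((QuotientGroup.mk'_surjective B).comp hq) ?_ h
      intro e he
      have h1 : π e ∈ G := by
        have h2 : ((π e : Γ) : Γ ⧸ G) = 1 := he
        rwa [QuotientGroup.eq_one_iff] at h2
      have h3 : e ∈ X := (hXmem e).mpr h1
      show ((q e : A) : A ⧸ B) = 1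
      rw [QuotientGroup.eq_one_iff]
      exact hBmem e h3
    · right
      have hN' : (N.subgroupOf G).Normal := Subgroup.Normal.subgroupOf hN G
      refine solvable_of_factor ((QuotientGroup.mk' (N.subgroupOf G)).comp πX)
        ((QuotientGroup.mk' (Z.subgroupOf B)).comp qX)
        ((QuotientGroup.mk'_surjective _).comp hqX) ?_ h
      intro x hx
      have h1 : π x ∈ N := by
        have h2 : ((πX x : G) : G ⧸ N.subgroupOf G) = 1 := hx
        rw [QuotientGroup.eq_one_iff] at h2
        exact h2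
      have h3 : (x : E) ∈ Z.comap q := by
        rw [hcomapZ]
        exact h1
      show ((qX x : B) : B ⧸ Z.subgroupOf B) = 1
      rw [QuotientGroup.eq_one_iff]
      exact h3
  -- the character of `Z`
  let r : π.ker →* Z := (q.comp π.ker.subtype).codRestrict Z (fun z => by
    rw [hZdef]
    exact ⟨z, z.2, rfl⟩)
  have hr : Function.Bijective r := by
    constructor
    · rw [injective_iff_map_eq_one]
      intro z hz
      have h1 : q z = 1 := congrArg Subtype.val hz
      have h2 : (z : E) ∈ N₀ := by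
        rw [← hqker]
        exact h1
      obtain ⟨n, hn⟩ := (hN₀mem _).mp h2
      have h3 : (n : Γ) = 1 := by
        rw [← hπι n, hn]
        exact z.2
      have h4 : n = 1 := Subtype.ext h3
      apply Subtype.ext
      rw [← hn, h4, map_one]
      rfl
    · rintro ⟨a, ha⟩
      rw [hZdef] at ha
      obtain ⟨z, hz, rfl⟩ := ha
      exact ⟨⟨z, hz⟩, rfl⟩
  let e₀ : π.ker ≃* Z := MulEquiv.ofBijective r hr
  let μ : Z →* ℂˣ := (lam⁻¹).comp e₀.symm.toMonoidHom
  have hμ : ∀ z : π.ker, μ (r z) = (lam z)⁻¹ := by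
    intro z
    show (lam⁻¹) (e₀.symm (e₀ z)) = _
    rw [MulEquiv.symm_apply_apply]
    rfl
  obtain ⟨β, hβZ, hβA⟩ := exists_invariant_central B Z hZB hZc (by
    rw [hindexB, hrelZ]
    exact hcop) hsolv' μ
  -- the irreducible character of the cover of `G`
  let _ : Fintype X := Fintype.ofFinite _
  let _ : Fintype B := Fintype.ofFinite _
  let N₀X : Subgroup X := N₀.subgroupOf X
  have hN₀Xn : N₀X.Normal := Subgroup.Normal.subgroupOf hN₀n X
  let _ : Fintype N₀X := Fintype.ofFinite _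
  let _ : Fintype (X ⧸ N₀X) := Fintype.ofFinite _
  let τX : X → ℂ := fun x => τ x
  have hτX : IsCharacter X τX := IsCharacter.comp hτ X.subtype
  have hres : IsIrrCharacter N₀X (resFun N₀X τX) := by
    let j : N →* N₀X := ((ι.codRestrict X (fun n => hN₀X ((hN₀mem _).mpr ⟨n, rfl⟩)))).codRestrict N₀X
      (fun n => (hN₀mem _).mpr ⟨n, rfl⟩)
    have hj : Function.Bijective j := by
      constructor
      · rw [injective_iff_map_eq_one]
        intro n hn
        have h1 : ι n = 1 := congrArg (fun y : N₀X => ((y : X) : E)) hn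
        apply Subtype.ext
        rw [← hπι n, h1, map_one]
        rfl
      · rintro ⟨⟨e, he⟩, he'⟩
        obtain ⟨n, hn⟩ := (hN₀mem e).mp he'
        refine ⟨n, ?_⟩
        apply Subtype.ext
        apply Subtype.ext
        exact hn
    let e₁ : N ≃* N₀X := MulEquiv.ofBijective j hj
    have h1 : resFun N₀X τX = (θ : N → ℂ) ∘ e₁.symm := by
      funext x
      show τ ((x : X) : E) = _
      have h2 : x = e₁ (e₁.symm x) := (e₁.apply_symm_apply x).symm
      conv_lhs => rw [h2]
      exact hτθ (e₁.symm x)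
    rw [h1]
    exact isIrrCharacter_comp_mulEquiv' e₁.symm θ.2
  let qbar : X ⧸ N₀X →* B := QuotientGroup.lift N₀X qX (by
    intro x hx
    apply Subtype.ext
    show q x = 1
    rw [← MonoidHom.mem_ker, hqker]
    exact hx)
  have hqbar : Function.Bijective qbar := by
    constructor
    · rw [injective_iff_map_eq_one]
      intro y hy
      induction y using QuotientGroup.induction_on with
      | H x =>
      have h1 : q x = 1 := congrArg Subtype.val hy
      rw [QuotientGroup.eq_one_iff]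
      show (x : E) ∈ N₀
      rw [← hqker]
      exact h1
    · intro b
      obtain ⟨x, rfl⟩ := hqX b
      exact ⟨(x : X ⧸ N₀X), rfl⟩
  let ebar : X ⧸ N₀X ≃* B := MulEquiv.ofBijective qbar hqbar
  have hβbar : IsIrrCharacter (X ⧸ N₀X) ((β : B → ℂ) ∘ ebar) :=
    isIrrCharacter_comp_mulEquiv' ebar β.2
  have hgal := isIrrCharacter_gallagher N₀X hτX hres hβbar
  have hgval : ∀ x : X, inflate N₀X ((β : B → ℂ) ∘ ebar) x * τX x =
      (β : B → ℂ) (qX x) * τ x := fun _ => rfl
  have hker' : ∀ x ∈ πX.ker, (fun g : X => inflate N₀X ((β : B → ℂ) ∘ ebar) g * τX g) x =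
      (fun g : X => inflate N₀X ((β : B → ℂ) ∘ ebar) g * τX g) 1 := by
    intro x hx
    beta_reduce
    rw [hgval, hgval, map_one]
    have hx' : π x = 1 := congrArg Subtype.val (MonoidHom.mem_ker.mp hx)
    let z : π.ker := ⟨x, hx'⟩
    have h1 : qX x = ⟨r z, hZB (r z).2⟩ := rfl
    have h2 := hβZ (r z)
    have h3 : τ x = (lam z : ℂ) * τ 1 := by
      have := hτlam z 1
      rwa [mul_one] at this
    rw [h1, h2, hμ z, h3]
    have hne : (lam z : ℂ) ≠ 0 := (lam z).ne_zero
    rw [Units.val_inv_eq_inv_val]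
    show ((lam z : ℂ))⁻¹ * _ * ((lam z : ℂ) * τ 1) = _
    have h4 : ((X.subtype 1 : E)) = 1 := rfl
    field_simp
    rfl
  obtain ⟨ψ, hψ, hψval⟩ := exists_descend πX hπX hgal hker'
  refine ⟨⟨ψ, hψ⟩, ?_, ?_⟩
  · have h1 : (fun n : N => ψ ⟨n, hNG n.2⟩) = ((β : B → ℂ) 1) • (θ : N → ℂ) := by
      funext n
      let x : X := ⟨ι n, hN₀X ((hN₀mem _).mpr ⟨n, rfl⟩)⟩
      have h2 : πX x = ⟨n, hNG n.2⟩ := Subtype.ext (hπι n)
      have h3 : qX x = 1 := by
        apply Subtype.ext
        show q (ι n) = 1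
        rw [← MonoidHom.mem_ker, hqker]
        exact (hN₀mem _).mpr ⟨n, rfl⟩
      have h4 := hψval x
      rw [hgval, h2, h3] at h4
      show ψ ⟨n, hNG n.2⟩ = (β : B → ℂ) 1 * (θ : N → ℂ) n
      rw [← h4, hτθ]
    show classInner (fun n : N => ψ ⟨n, hNG n.2⟩) (θ : N → ℂ) ≠ 0
    rw [h1, classInner_smul_left, classInner_irr_self θ.2, mul_one]
    exact IsIrrCharacter.apply_one_ne_zero β.2
  · intro x g
    obtain ⟨e, rfl⟩ := hπ x
    obtain ⟨y, rfl⟩ := hπX g
    have hy' : e * (y : E) * e⁻¹ ∈ X := hXn.conj_mem y y.2 e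
    let y' : X := ⟨e * y * e⁻¹, hy'⟩
    have h2 : (⟨π e * (πX y : G) * (π e)⁻¹, hG.conj_mem _ (πX y).2 (π e)⟩ : G) = πX y' := by
      apply Subtype.ext
      show π e * π y * (π e)⁻¹ = π (e * y * e⁻¹)
      rw [map_mul, map_mul, map_inv]
    show ψ ⟨π e * (πX y : G) * (π e)⁻¹, hG.conj_mem _ (πX y).2 (π e)⟩ = ψ (πX y)
    rw [h2, ← hψval y', ← hψval y, hgval, hgval]
    have h3 : τ y' = τ y := by
      have := IsCharacter.isClassFunction hτ (y : E) e
      exact this
    rw [h3]
    congr 1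
    have h4 := hβA (q e) (qX y)
    have h5 : qX y' = ⟨q e * (qX y : B) * (q e)⁻¹, hBn.conj_mem _ (qX y).2 (q e)⟩ := by
      apply Subtype.ext
      show q (e * y * e⁻¹) = q e * q y * (q e)⁻¹
      rw [map_mul, map_mul, map_inv]
    rw [h5]
    exact h4

end Main

end Cfsg.Agent.Lib.H8Group
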