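import Mathlib

/-!
# Landau's theorem: the order of a finite group is bounded in terms of its number of classes
-/

set_option autoImplicit false

namespace Cfsg.Agent.Lib.H8Group

universe u

/-- Egyptian fractions with a fixed number of terms and a fixed sum have bounded denominators. -/
theorem egyptian_bound (k : ℕ) : ∀ q : ℚ, 0 < q → ∃ B : ℕ, ∀ (ι : Type u) (S : Finset ι) (f : ι → ℕ), S.card = k →
    (∀ i ∈ S, 0 < f i) → ∑ i ∈ S, (1 / (f i : ℚ)) = q → ∀ i ∈ S, f i ≤ B := by
  classical
  induction k with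
  | zero =>
    intro q _
    refine ⟨0, ?_⟩
    intro ι S f hS _ _ i hi
    rw [Finset.card_eq_zero] at hS
    simp [hS] at hi
  | succ k ih =>
    intro q hq
    set M : ℕ := ⌈((k : ℚ) + 1) / q⌉₊ with hM
    have hex : ∀ v : ℕ, ∃ B : ℕ, 0 < q - 1 / (v : ℚ) → ∀ (ι : Type u) (S : Finset ι) (f : ι → ℕ), S.card = k →
        (∀ i ∈ S, 0 < f i) → ∑ i ∈ S, (1 / (f i : ℚ)) = q - 1 / (v : ℚ) → ∀ i ∈ S, f i ≤ B := by
      intro v
      by_cases h : 0 < q - 1 / (v : ℚ)
      · obtain ⟨B, hB⟩ := ih _ h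
        exact ⟨B, fun _ => hB⟩
      · exact ⟨0, fun h' => absurd h' h⟩
    choose Bv hBv using hex
    refine ⟨max M ((Finset.range (M + 1)).sup Bv), ?_⟩
    intro ι S f hS hpos hsum i hi
    have hne : S.Nonempty := Finset.card_pos.mp (by omega)
    obtain ⟨i₀, hi₀, hmin⟩ := Finset.exists_min_image S f hne
    have hf0 := hpos i₀ hi₀
    have hf0' : (0 : ℚ) < f i₀ := by exact_mod_cast hf0
    -- bound for the minimum
    have h1 : q ≤ ((k : ℚ) + 1) * (1 / (f i₀ : ℚ)) := by
      rw [← hsum]
      calc ∑ i ∈ S, (1 / (f i : ℚ)) ≤ ∑ _i ∈ S, (1 / (f i₀ : ℚ)) := by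
            refine Finset.sum_le_sum fun j hj => ?_
            apply one_div_le_one_div_of_le hf0'
            exact_mod_cast hmin j hj
        _ = _ := by
            rw [Finset.sum_const, hS]
            simp
    have h2 : (f i₀ : ℚ) ≤ ((k : ℚ) + 1) / q := by
      rw [le_div_iff₀ hq]
      rw [mul_one_div, le_div_iff₀ hf0'] at h1
      linarith
    have h3 : f i₀ ≤ M := by
      have := Nat.le_ceil (((k : ℚ) + 1) / q)
      have h4 : (f i₀ : ℚ) ≤ (M : ℚ) := h2.trans this
      exact_mod_cast h4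
    by_cases hii : i = i₀
    · rw [hii]
      exact h3.trans (le_max_left _ _)
    · have hiE : i ∈ S.erase i₀ := Finset.mem_erase.mpr ⟨hii, hi⟩
      have hsum' : ∑ j ∈ S.erase i₀, (1 / (f j : ℚ)) = q - 1 / ((f i₀ : ℕ) : ℚ) := by
        rw [← hsum, ← Finset.add_sum_erase S _ hi₀]
        ring
      have hpos' : 0 < q - 1 / ((f i₀ : ℕ) : ℚ) := by
        rw [← hsum']
        refine Finset.sum_pos' (fun j _ => by positivity) ⟨i, hiE, ?_⟩
        have : (0 : ℚ) < f i := by exact_mod_cast hpos i hi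
        positivity
      have h5 := hBv (f i₀) hpos' ι (S.erase i₀) f (by rw [Finset.card_erase_of_mem hi₀, hS]; rfl)
        (fun j hj => hpos j (Finset.mem_of_mem_erase hj)) hsum' i hiE
      refine h5.trans (le_trans ?_ (le_max_right _ _))
      exact Finset.le_sup (f := Bv) (Finset.mem_range.mpr (by omega))

/-- **Landau's theorem.** -/
theorem landau_bound (K : ℕ) : ∃ N : ℕ, ∀ (G : Type u) [Group G] [Finite G], Nat.card (ConjClasses G) ≤ K → Nat.card G ≤ N := by
  classical
  have hex : ∀ k : ℕ, ∃ B : ℕ, ∀ (ι : Type u) (S : Finset ι) (f : ι → ℕ), S.card = k →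
      (∀ i ∈ S, 0 < f i) → ∑ i ∈ S, (1 / (f i : ℚ)) = 1 → ∀ i ∈ S, f i ≤ B :=
    fun k => egyptian_bound.{u} k 1 one_pos
  choose B hB using hex
  refine ⟨(Finset.range (K + 1)).sup B, ?_⟩
  intro G _ _ hG
  letI := Fintype.ofFinite G
  letI : Fintype (ConjClasses G) := Fintype.ofFinite _
  have hcardG : (0 : ℚ) < Nat.card G := by exact_mod_cast Nat.card_pos
  let f : ConjClasses G → ℕ := fun c => Nat.card G / (c.carrier.toFinset.card)
  have hcpos : ∀ c : ConjClasses G, 0 < c.carrier.toFinset.card := fun c => by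
    obtain ⟨g, rfl⟩ := ConjClasses.mk_surjective c
    exact Finset.card_pos.mpr ⟨g, by simp [ConjClasses.mem_carrier_iff_mk_eq]⟩
  have hdvd : ∀ c : ConjClasses G, c.carrier.toFinset.card ∣ Nat.card G := fun c => by
    obtain ⟨g, rfl⟩ := ConjClasses.mk_surjective c
    have h1 : (ConjClasses.mk g).carrier.toFinset.card = Nat.card (ConjClasses.mk g).carrier := by
      rw [Nat.card_eq_fintype_card, Set.toFinset_card]
    rw [h1, ConjClasses.carrier_eq_preimage_mk]
    have h2 : Nat.card (ConjClasses.mk ⁻¹' {ConjClasses.mk g}) = Nat.card (MulAction.orbit (ConjAct G) g) := by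
      apply Nat.card_congr
      refine Equiv.setCongr ?_
      ext x
      simp only [Set.mem_preimage, Set.mem_singleton_iff, ConjAct.mem_orbit_conjAct, ConjClasses.mk_eq_mk_iff_isConj]
    rw [h2]
    have h3 := MulAction.card_orbit_mul_card_stabilizer_eq_card_group (ConjAct G) g
    rw [Nat.card_eq_fintype_card (α := G), Nat.card_eq_fintype_card (α := MulAction.orbit (ConjAct G) g)]
    rw [ConjAct.card] at h3
    exact ⟨_, h3.symm⟩
  have hfpos : ∀ c : ConjClasses G, 0 < f c := fun c => Nat.div_pos (Nat.le_of_dvd Nat.card_pos (hdvd c)) (hcpos c)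
  have hfval : ∀ c : ConjClasses G, (1 / (f c : ℚ)) = (c.carrier.toFinset.card : ℚ) / Nat.card G := by
    intro c
    simp only [f]
    rw [Nat.cast_div (hdvd c) (by exact_mod_cast (hcpos c).ne')]
    have h1 : ((c.carrier.toFinset.card : ℕ) : ℚ) ≠ 0 := by exact_mod_cast (hcpos c).ne'
    field_simp
  have hsum : ∑ c : ConjClasses G, (1 / (f c : ℚ)) = 1 := by
    rw [Finset.sum_congr rfl fun c _ => hfval c, ← Finset.sum_div, div_eq_one_iff_eq hcardG.ne']
    have h1 := Group.sum_card_conj_classes_eq_card (G := G)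
    rw [finsum_eq_sum_of_fintype] at h1
    have h2 : ∑ x : ConjClasses G, x.carrier.toFinset.card = Nat.card G := by
      rw [← h1]
      refine Finset.sum_congr rfl fun c _ => ?_
      rw [Set.ncard_eq_toFinset_card']
    exact_mod_cast h2
  have hle := hB _ (ConjClasses G) Finset.univ f rfl (fun c _ => hfpos c) hsum (ConjClasses.mk 1) (Finset.mem_univ _)
  have h1 : f (ConjClasses.mk 1) = Nat.card G := by
    simp only [f]
    have h2 : (ConjClasses.mk (1 : G)).carrier.toFinset.card = 1 := by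
      rw [Finset.card_eq_one]
      refine ⟨1, ?_⟩
      ext x
      simp only [Set.mem_toFinset, ConjClasses.mem_carrier_iff_mk_eq, Finset.mem_singleton, ConjClasses.mk_eq_mk_iff_isConj]
      exact ⟨fun h => isConj_one_right.mp h.symm, fun h => by rw [h]⟩
    rw [h2, Nat.div_one]
  rw [h1] at hle
  refine hle.trans ?_
  have hcardcc : (Finset.univ : Finset (ConjClasses G)).card = Nat.card (ConjClasses G) := by
    rw [Finset.card_univ, Nat.card_eq_fintype_card]
  rw [hcardcc]
  exact Finset.le_sup (f := B) (Finset.mem_range.mpr (by omega))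

end Cfsg.Agent.Lib.H8Group
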