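import Cfsg.Agent.Lib.H8Group.FourAct
import Cfsg.Agent.Lib.H8Group.DefClass
import Cfsg.Agent.Lib.Blocks.QuotBlocks
import Cfsg.Agent.Lib.Blocks.Inflate
import Cfsg.Agent.Lib.Blocks.Height
import Cfsg.Agent.Lib.Basic.Hall
import Cfsg.Agent.Lib.Basic.Core
import Cfsg.Agent.Lib.H8Group.BlockBasics
import Cfsg.Agent.S4718

/-!
# Bounding groups of deficiency class `r` with a large elementary abelian 2-subgroup
-/

set_option autoImplicit false
set_option linter.unusedSectionVars false

namespace Cfsg.Agent.Lib.H8Group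

open Cfsg Cfsg.Agent.Lib.Char Cfsg.Agent.Lib.Blocks

universe u

/-- Passing to the quotient by a central subgroup of order `p` lowers the deficiency class. -/
theorem defClass_quotient_central {G : Type u} [Group G] [Fintype G] {M : Ideal AlgInt} {p : ℕ}
    [hp : Fact p.Prime] (hM : IsPModular p M) (Z : Subgroup G) [Z.Normal]
    (hZ : Z ≤ Subgroup.center G) (hcard : Nat.card Z = p) (r : ℕ)
    (h : ∀ B' : Set (IrrCharacter G), IsPBlock M B' → B' ≠ principalBlock M G → blockDefect p B' < r + 1) :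
    ∀ Bbar : Set (IrrCharacter (G ⧸ Z)), IsPBlock M Bbar → Bbar ≠ principalBlock M (G ⧸ Z) →
      blockDefect p Bbar < r := by
  classical
  intro Bbar hBbar hne
  have := isPrime_of_modular hM
  letI : Fintype Z := Fintype.ofFinite _
  letI : Fintype (G ⧸ Z) := Fintype.ofFinite _
  have hZp : IsPGroup p Z := IsPGroup.of_card (n := 1) (by rw [hcard, pow_one])
  obtain ⟨χ, hχ⟩ := IsPBlock.nonempty hBbar
  set B := blockOf M (inflIrr Z χ : G → ℂ) with hBdef
  have hB : IsPBlock M B := isPBlock_blockOf _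
  have hBne : B ≠ principalBlock M G := by
    intro heq
    apply hne
    have h1 : inflIrr Z χ ∈ principalBlock M G := by
      rw [← heq]
      exact self_mem_blockOf _
    have h2 : inflIrr Z (oneIrr (G ⧸ Z)) ∈ principalBlock M G := by
      have : inflIrr Z (oneIrr (G ⧸ Z)) = oneIrr G := by
        apply Subtype.ext
        funext g
        rfl
      rw [this]
      exact one_mem_principalBlock
    have h3 := sameBlock_of_mem (isPBlock_principalBlock M G) h1 h2
    have hidx : (Subgroup.centralizer (Z : Set G)).index = p ^ 0 := by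
      have : Subgroup.centralizer (Z : Set G) = ⊤ := by
        rw [eq_top_iff]
        intro g _
        rw [Subgroup.mem_centralizer_iff]
        intro z hz
        exact ((Subgroup.mem_center_iff.mp (hZ hz)) g).symm
      rw [this, Subgroup.index_top, pow_zero]
    have h4 := sameBlock_of_inflate_of_index hM hZp hidx
      (β := χ) (β' := oneIrr (G ⧸ Z)) h3
    have h5 : oneIrr (G ⧸ Z) ∈ Bbar := by
      have h6 : Bbar = blockOf M (χ : G ⧸ Z → ℂ) := blockOf_eq_of_mem hBbar hχ
      rw [h6]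
      exact h4
    have h7 := blockOf_eq_of_mem hBbar h5
    have h8 := blockOf_eq_of_mem (isPBlock_principalBlock M (G ⧸ Z)) (one_mem_principalBlock (M := M) (G := G ⧸ Z))
    rw [h7, h8]
  have hsub : Bbar ⊆ inflSet Z B := by
    intro ψ hψ
    by_contra hψ'
    have hc := indic_inflSet_mem_zS (M := M) Z hB
    have h1 := zS_apply_congr hBbar hc hχ hψ
    have h2 : χ ∈ inflSet Z B := self_mem_blockOf (M := M) (inflIrr Z χ)
    rw [indic_apply_of_mem h2, indic_apply_of_notMem hψ', sub_zero] at h1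
    exact not_memLocalIdeal_one h1
  obtain ⟨Dbar, hDbar⟩ := IsPBlock.exists_isDefectGroup hM hBbar
  obtain ⟨P, hP, hle⟩ := exists_defect_map_ge Z hM hBbar hB hsub hDbar
  have hZP : Z ≤ P := le_trans (Cfsg.Agent.Lib.Basic.le_pCore inferInstance hZp)
    (IsDefectGroup.pCore_le hM hB hP)
  have h1 : Nat.card P = p * Nat.card (P.map (QuotientGroup.mk' Z)) := by
    have h2 : (P.map (QuotientGroup.mk' Z)).comap (QuotientGroup.mk' Z) = P := by
      rw [Subgroup.comap_map_eq, QuotientGroup.ker_mk', sup_eq_left.mpr hZP]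
    have h3 := Cfsg.Agent.Lib.Basic.card_comap_mk (N := Z) (P.map (QuotientGroup.mk' Z))
    rw [h2, hcard] at h3
    exact h3
  have h2 : Nat.card Dbar ≤ Nat.card (P.map (QuotientGroup.mk' Z)) := Subgroup.card_le_of_le hle
  rw [card_defectGroup hM hBbar hDbar] at h2
  rw [card_defectGroup hM hB hP] at h1
  have h3 := h B hB hBne
  have hp1 : 1 < p := hp.out.one_lt
  have h4 : p ^ (blockDefect p Bbar + 1) ≤ p ^ blockDefect p B := by
    rw [h1, pow_succ, mul_comm]
    exact Nat.mul_le_mul_left _ h2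
  have h5 := (Nat.pow_le_pow_iff_right hp1).mp h4
  omega

/-- The inductive statement. -/
def DefBoundStmt (a r N : ℕ) : Prop :=
  ∀ (G : Type u) [Group G] [Finite G] (M : Ideal AlgInt) (P : Sylow 2 G), IsPModular 2 M →
    Nat.card P ≤ 2 ^ a →
    (∀ B : Set (IrrCharacter G), IsPBlock M B → B ≠ principalBlock M G → blockDefect 2 B < r) →
    (∃ E : Subgroup G, E ≤ (P : Subgroup G) ∧ IsMulCommutative E ∧ (∀ x ∈ E, x * x = 1) ∧
      Nat.card E = 2 ^ (r + 1)) →
    Nat.card G ≤ N

theorem defBound_zero (a : ℕ) : ∃ N, DefBoundStmt.{u} a 0 N := by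
  classical
  choose N hN using fun a' : ℕ => Cfsg.Agent.S4718.result.{u} 2 a'
  refine ⟨(Finset.range (a + 1)).sup N, ?_⟩
  intro G _ _ M P hM hP hdef _
  have h1 : (Nat.card G).factorization 2 ≤ a := by
    rw [P.card_eq_multiplicity] at hP
    exact (Nat.pow_le_pow_iff_right (by norm_num)).mp hP
  have h2 := hN _ G M hM rfl (fun B hB => by
    by_contra hne
    exact Nat.not_lt_zero _ (hdef B hB hne))
  exact le_trans h2 (Finset.le_sup (f := N) (Finset.mem_range.mpr (by omega)))

/-- The bound on the centralizer of an involution in the elementary abelian subgroup. -/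
theorem card_centralizer_le_of_step {a r c₀ : ℕ} (IH : DefBoundStmt.{u} a r c₀)
    {G : Type u} [Group G] [Finite G] {M : Ideal AlgInt} (P : Sylow 2 G) (hM : IsPModular 2 M)
    (hP : Nat.card P ≤ 2 ^ a)
    (hdef : ∀ B : Set (IrrCharacter G), IsPBlock M B → B ≠ principalBlock M G → blockDefect 2 B < r + 1)
    {E : Subgroup G} (hE : E ≤ (P : Subgroup G)) (hcomm : IsMulCommutative E)
    (hinv : ∀ x ∈ E, x * x = 1) (hcard : Nat.card E = 2 ^ (r + 1 + 1)) {t : G} (ht : t ∈ E) (ht1 : t ≠ 1) :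
    Nat.card (Subgroup.centralizer ({t} : Set G)) ≤ 2 * c₀ := by
  classical
  letI : Fintype G := Fintype.ofFinite G
  set C := Subgroup.centralizer ({t} : Set G) with hC
  letI : Fintype C := Fintype.ofFinite _
  have htord : orderOf t = 2 := orderOf_eq_prime (by rw [pow_two]; exact hinv t ht) ht1
  have htC : t ∈ C := by
    rw [hC, Subgroup.mem_centralizer_iff]
    intro y hy
    rw [Set.mem_singleton_iff.mp hy]
  let tC : C := ⟨t, htC⟩
  have htCord : orderOf tC = 2 := by
    rw [← htord]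
    exact Subgroup.orderOf_mk t htC
  let Z : Subgroup C := Subgroup.zpowers tC
  have hcomm' : ∀ x y : G, x ∈ E → y ∈ E → x * y = y * x := by
    intro x y hx hy
    have := hcomm.is_comm.comm ⟨x, hx⟩ ⟨y, hy⟩
    exact congrArg Subtype.val this
  have hZcen : Z ≤ Subgroup.center C := by
    rw [Subgroup.zpowers_le, Subgroup.mem_center_iff]
    rintro ⟨y, hy⟩
    apply Subtype.ext
    have := Subgroup.mem_centralizer_iff.mp hy t (Set.mem_singleton t)
    exact this.symm
  haveI hZn : Z.Normal := by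
    refine ⟨fun n hn g => ?_⟩
    have := Subgroup.mem_center_iff.mp (hZcen hn) g
    rw [this, mul_inv_cancel_right]
    exact hn
  have hZcard : Nat.card Z = 2 := by
    rw [Nat.card_zpowers, htCord]
  haveI : Fact (Nat.Prime 2) := ⟨Nat.prime_two⟩
  have h1 := defClass_centralizer hM (r + 1) hdef t ⟨1, by rw [htord, pow_one]⟩
  have h2 : ∀ B : Set (IrrCharacter (C ⧸ Z)), IsPBlock M B → B ≠ principalBlock M (C ⧸ Z) →
      blockDefect 2 B < r := defClass_quotient_central hM Z hZcen hZcard r h1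
  -- the subgroup `E` inside `C`
  have hEC : E ≤ C := by
    intro x hx
    rw [hC, Subgroup.mem_centralizer_iff]
    intro y hy
    rw [Set.mem_singleton_iff.mp hy]
    exact hcomm' t x ht hx
  let E' : Subgroup C := E.subgroupOf C
  have hE'card : Nat.card E' = 2 ^ (r + 1 + 1) := by
    rw [← hcard]
    exact Nat.card_congr (Subgroup.subgroupOfEquivOfLe hEC).toEquiv
  have hE'p : IsPGroup 2 E' := IsPGroup.of_card hE'card
  obtain ⟨Q, hQ⟩ := hE'p.exists_le_sylow
  have hsurj : Function.Surjective (QuotientGroup.mk' Z) := QuotientGroup.mk'_surjective Z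
  let Qb : Sylow 2 (C ⧸ Z) := Q.mapSurjective hsurj
  have hQb : (Qb : Subgroup (C ⧸ Z)) = (Q : Subgroup C).map (QuotientGroup.mk' Z) := rfl
  let Eb : Subgroup (C ⧸ Z) := E'.map (QuotientGroup.mk' Z)
  have hEbQ : Eb ≤ (Qb : Subgroup (C ⧸ Z)) := by
    rw [hQb]
    exact Subgroup.map_mono hQ
  have hZE' : Z ≤ E' := by
    rw [Subgroup.zpowers_le]
    exact ht
  have hEbcard : Nat.card Eb = 2 ^ (r + 1) := by
    have h3 : Eb.comap (QuotientGroup.mk' Z) = E' := by
      rw [Subgroup.comap_map_eq, QuotientGroup.ker_mk', sup_eq_left.mpr hZE']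
    have h4 := Cfsg.Agent.Lib.Basic.card_comap_mk (N := Z) Eb
    rw [h3, hE'card, hZcard] at h4
    have h5 : 2 * 2 ^ (r + 1) = 2 * Nat.card Eb := by
      rw [← h4, pow_succ]
      ring
    omega
  have hEbcomm : IsMulCommutative Eb := by
    refine ⟨⟨?_⟩⟩
    rintro ⟨x, hx⟩ ⟨y, hy⟩
    obtain ⟨x', hx', rfl⟩ := hx
    obtain ⟨y', hy', rfl⟩ := hy
    apply Subtype.ext
    show (QuotientGroup.mk' Z x') * (QuotientGroup.mk' Z y') =
      (QuotientGroup.mk' Z y') * (QuotientGroup.mk' Z x')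
    rw [← map_mul, ← map_mul]
    congr 1
    apply Subtype.ext
    exact hcomm' _ _ hx' hy'
  have hEbinv : ∀ x ∈ Eb, x * x = 1 := by
    rintro x ⟨x', hx', rfl⟩
    rw [← map_mul]
    have : x' * x' = 1 := by
      apply Subtype.ext
      exact hinv _ hx'
    rw [this, map_one]
  have hQcard : Nat.card Qb ≤ 2 ^ a := by
    have h3 : Nat.card Qb ≤ Nat.card Q := by
      rw [hQb]
      exact Nat.card_le_card_of_surjective _ (MonoidHom.subgroupMap_surjective (QuotientGroup.mk' Z) (Q : Subgroup C))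
    have h4 : Nat.card Q ≤ Nat.card P := by
      rw [Q.card_eq_multiplicity, P.card_eq_multiplicity]
      apply Nat.pow_le_pow_right (by norm_num)
      apply (Nat.factorization_le_iff_dvd Nat.card_pos.ne' Nat.card_pos.ne').mpr ?_ 2
      exact Subgroup.card_subgroup_dvd_card C
    omega
  have h3 := IH (C ⧸ Z) M Qb hM hQcard h2 ⟨Eb, hEbQ, hEbcomm, hEbinv, hEbcard⟩
  have h4 : Nat.card C = 2 * Nat.card (C ⧸ Z) := by
    have := Subgroup.card_eq_card_quotient_mul_card_subgroup Z
    rw [this, hZcard, mul_comm]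
  omega

theorem defBound_succ (a r : ℕ) (IH : ∃ N, DefBoundStmt.{u} a r N) :
    ∃ N, DefBoundStmt.{u} a (r + 1) N := by
  classical
  obtain ⟨c₀, hc₀⟩ := IH
  obtain ⟨N, hN⟩ := card_le_of_involutions.{u} (2 * c₀) a
  refine ⟨N, ?_⟩
  rintro G _ _ M P hM hP hdef ⟨E, hE, hcomm, hinv, hcard⟩
  letI : Fintype G := Fintype.ofFinite G
  have h4 : 2 < Nat.card E := by
    rw [hcard]
    have : 2 ^ (r + 1 + 1) = 2 ^ r * 4 := by ring
    have h5 : 0 < 2 ^ r := by positivity
    omega
  have hcomm' : ∀ x y : G, x ∈ E → y ∈ E → x * y = y * x := by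
    intro x y hx hy
    have := hcomm.is_comm.comm ⟨x, hx⟩ ⟨y, hy⟩
    exact congrArg Subtype.val this
  letI : Fintype E := Fintype.ofFinite _
  -- pick two distinct nontrivial elements
  obtain ⟨t₁, t₂, ht₁, ht₂, ht₁₂⟩ : ∃ t₁ t₂ : E, t₁ ≠ 1 ∧ t₂ ≠ 1 ∧ t₁ ≠ t₂ := by
    have h5 : 2 < (Finset.univ : Finset E).card := by
      rw [Finset.card_univ, ← Nat.card_eq_fintype_card]
      exact h4
    obtain ⟨x, hx', y, hy', z, hz', hxy, hxz, hyz⟩ := Finset.two_lt_card.mp h5
    by_cases hx : x = 1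
    · exact ⟨y, z, by rw [hx] at hxy; exact hxy.symm, by rw [hx] at hxz; exact hxz.symm, hyz⟩
    · by_cases hy : y = 1
      · exact ⟨x, z, hx, by rw [hy] at hyz; exact hyz.symm, hxz⟩
      · exact ⟨x, y, hx, hy, hxy⟩
  have ht₁G : (t₁ : G) ≠ 1 := fun h => ht₁ (Subtype.ext h)
  have ht₂G : (t₂ : G) ≠ 1 := fun h => ht₂ (Subtype.ext h)
  have ht₁₂G : (t₁ : G) * t₂ ≠ 1 := by
    intro h
    apply ht₁₂
    apply Subtype.ext
    have h1 := hinv _ t₁.2
    calc (t₁ : G) = t₁ * (t₁ * t₂) := by rw [h, mul_one]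
      _ = (t₁ * t₁) * t₂ := by rw [mul_assoc]
      _ = t₂ := by rw [h1, one_mul]
  have key : ∀ t ∈ E, t ≠ 1 → Nat.card (Subgroup.centralizer ({t} : Set G)) ≤ 2 * c₀ := by
    intro t ht ht1
    exact card_centralizer_le_of_step hc₀ P hM hP hdef hE hcomm hinv hcard ht ht1
  refine hN G (t₁ : G) (t₂ : G) (hinv _ t₁.2) (hinv _ t₂.2) (hcomm' _ _ t₁.2 t₂.2)
    (key _ t₁.2 ht₁G) (key _ t₂.2 ht₂G) (key _ (E.mul_mem t₁.2 t₂.2) ht₁₂G) ?_
  rw [P.card_eq_multiplicity] at hP
  exact (Nat.pow_le_pow_iff_right (by norm_num)).mp hP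

theorem exists_defBound (a r : ℕ) : ∃ N, DefBoundStmt.{u} a r N := by
  induction r with
  | zero => exact defBound_zero a
  | succ r ih => exact defBound_succ a r ih

end Cfsg.Agent.Lib.H8Group
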