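import Mathlib
import Cfsg.Agent.Lib.Basic.Solv1

/-!
# Finite groups with a Klein four group of automorphisms with small fixed point sets

Brauer--Fowler style descent: the order of a finite group `K` admitting commuting involutory automorphisms
`a`, `b` is bounded in terms of the orders of the fixed point sets of `a`, `b`, `ab` and the `2`-part of `|K|`.
-/

set_option autoImplicit false
set_option linter.unusedSectionVars false

namespace Cfsg.Agent.Lib.H8Group

open Cfsg

universe u

section Fix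

variable {K : Type u} [Group K]

/-- The number of fixed points of a self-map. -/
noncomputable def fixCard (φ : K → K) : ℕ := Nat.card {x : K // φ x = x}

theorem fixCard_eq_filter [Fintype K] [DecidableEq K] (φ : K → K) :
    fixCard φ = (Finset.univ.filter fun x : K => φ x = x).card := by
  rw [fixCard, Nat.card_eq_fintype_card, Fintype.card_subtype]

theorem fixCard_pos [Finite K] (φ : K →* K) : 0 < fixCard φ := by
  rw [fixCard]
  haveI : Nonempty {x : K // φ x = x} := ⟨⟨1, map_one φ⟩⟩
  exact Nat.card_pos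

/-- Twisted fibres are cosets of the fixed point set. -/
theorem card_le_twist [Fintype K] [DecidableEq K] (φ : K →* K) (s t : Finset K) (h : ∀ x ∈ s, x⁻¹ * φ x ∈ t) :
    s.card ≤ fixCard φ * t.card := by
  refine Finset.card_le_mul_card_image_of_maps_to h _ ?_
  intro z _
  by_cases hne : (s.filter fun x => x⁻¹ * φ x = z).Nonempty
  · obtain ⟨x₀, hx₀⟩ := hne
    have hx₀' := (Finset.mem_filter.mp hx₀).2
    rw [fixCard_eq_filter]
    refine Finset.card_le_card_of_injOn (fun x => x * x₀⁻¹) ?_ ?_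
    · intro x hx
      have hx' := (Finset.mem_filter.mp (Finset.mem_coe.mp hx)).2
      refine Finset.mem_coe.mpr (Finset.mem_filter.mpr ⟨Finset.mem_univ _, ?_⟩)
      have h1 : φ x = x * z := by rw [← hx']; group
      have h2 : φ x₀ = x₀ * z := by rw [← hx₀']; group
      simp only [map_mul, map_inv, h1, h2]
      group
    · intro x _ y _ hxy
      exact mul_right_cancel hxy
  · rw [Finset.not_nonempty_iff_eq_empty] at hne
    rw [hne]
    exact Nat.zero_le _

end Fix

section Square

variable {K : Type u} [Group K] [Finite K]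

theorem pow_mul_self_of_odd {e : ℕ} (he : 2 * e = Nat.card K + 1) (x : K) : (x ^ e) ^ 2 = x := by
  rw [← pow_mul, mul_comm, he, pow_succ, pow_card_eq_one', one_mul]

end Square

/-- Commuting involutory automorphisms. -/
structure FourAct (K : Type u) [Group K] where
  a : K ≃* K
  b : K ≃* K
  haa : ∀ x, a (a x) = x
  hbb : ∀ x, b (b x) = x
  hab : ∀ x, a (b x) = b (a x)

namespace FourAct

variable {K : Type u} [Group K]

/-- The third involution. -/
def c (A : FourAct K) : K ≃* K := A.b.trans A.a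

@[simp] theorem c_apply (A : FourAct K) (x : K) : A.c x = A.a (A.b x) := rfl

/-- The fixed point sets are bounded by `c`. -/
def Bdd (A : FourAct K) (c : ℕ) : Prop :=
  fixCard (A.a : K → K) ≤ c ∧ fixCard (A.b : K → K) ≤ c ∧ fixCard (A.c : K → K) ≤ c

theorem oddBW [Finite K] (A : FourAct K) (hodd : Odd (Nat.card K)) :
    Nat.card K ≤ fixCard (A.a : K → K) * (fixCard (A.b : K → K) * fixCard (A.c : K → K)) := by
  classical
  letI := Fintype.ofFinite K
  obtain ⟨e, he⟩ : ∃ e : ℕ, 2 * e = Nat.card K + 1 := by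
    obtain ⟨r, hr⟩ := hodd
    exact ⟨r + 1, by omega⟩
  let J : Finset K := Finset.univ.filter fun x => A.a x = x⁻¹
  let Cb : Finset K := Finset.univ.filter fun x => A.b x = x
  let Cc : Finset K := Finset.univ.filter fun x => A.c x = x
  let J2 : Finset K := Finset.univ.filter fun x => A.a x = x⁻¹ ∧ A.b x = x⁻¹
  have h1 : (Finset.univ : Finset K).card ≤ fixCard (A.a : K →* K) * J.card := by
    refine card_le_twist (A.a : K →* K) _ J fun x _ => Finset.mem_filter.mpr ⟨Finset.mem_univ _, ?_⟩
    simp only [MonoidHom.coe_coe, map_mul, map_inv, A.haa, mul_inv_rev, inv_inv]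
  have hJ2Cc : J2.card ≤ Cc.card := by
    refine Finset.card_le_card fun x hx => ?_
    obtain ⟨-, hx1, hx2⟩ := Finset.mem_filter.mp hx
    refine Finset.mem_filter.mpr ⟨Finset.mem_univ _, ?_⟩
    rw [c_apply, hx2, map_inv, hx1, inv_inv]
  -- the factorization of `J`
  let Ψ : K × K → K := fun p => p.2 ^ e * p.1 * p.2 ^ e
  have hJ : J ⊆ (Cb ×ˢ J2).image Ψ := by
    intro x hx
    have hax : A.a x = x⁻¹ := (Finset.mem_filter.mp hx).2
    set q := A.b x with hq
    have haq : A.a q = q⁻¹ := by rw [hq, A.hab, hax, map_inv]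
    have hbq : A.b q = x := A.hbb x
    set y := x * q with hy
    set r := y ^ e with hr
    have hr2 : r ^ 2 = y := pow_mul_self_of_odd he y
    have hay : A.a y = q * y⁻¹ * q⁻¹ := by
      rw [hy, map_mul, hax, haq]
      group
    have hby : A.b y = q * y * q⁻¹ := by
      rw [hy, map_mul, hbq]
      show q * x = q * (x * q) * q⁻¹
      group
    have har : A.a r = q * r⁻¹ * q⁻¹ := by
      rw [hr, map_pow, hay, conj_pow, inv_pow]
    have hbr : A.b r = q * r * q⁻¹ := by
      rw [hr, map_pow, hby, conj_pow]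
    set j := r * q⁻¹ with hj
    have haj : A.a j = j⁻¹ := by
      rw [hj, map_mul, har, map_inv, haq]
      group
    have hxq : (x * q)⁻¹ = y⁻¹ := by rw [hy]
    have hry : r * r = y := by rw [← hr2, sq]
    have hbj : A.b j = j⁻¹ := by
      rw [hj, map_mul, hbr, map_inv, hbq]
      have h5 : q⁻¹ * x⁻¹ = y⁻¹ := by rw [hy]; group
      have h6 : r * y⁻¹ = r⁻¹ := by rw [← hry]; group
      calc q * r * q⁻¹ * x⁻¹ = q * (r * (q⁻¹ * x⁻¹)) := by group
        _ = q * r⁻¹ := by rw [h5, h6]
        _ = (r * q⁻¹)⁻¹ := by group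
    have hjqj : j * q * j = x := by
      have h7 : r * r * q⁻¹ = x := by rw [hry, hy]; group
      rw [hj]
      calc r * q⁻¹ * q * (r * q⁻¹) = r * r * q⁻¹ := by group
        _ = x := h7
    set w := j ^ e with hw
    have hw2 : w * w = j := by rw [← sq]; exact pow_mul_self_of_odd he j
    have hbw : A.b w = w⁻¹ := by rw [hw, map_pow, hbj, inv_pow]
    set f := w⁻¹ * x * w⁻¹ with hf
    have hbf : A.b f = f := by
      rw [hf, map_mul, map_mul, map_inv, hbw, inv_inv]
      show w * q * w = w⁻¹ * x * w⁻¹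
      rw [← hjqj, ← hw2]
      group
    refine Finset.mem_image.mpr ⟨(f, j), Finset.mem_product.mpr ⟨?_, ?_⟩, ?_⟩
    · exact Finset.mem_filter.mpr ⟨Finset.mem_univ _, hbf⟩
    · exact Finset.mem_filter.mpr ⟨Finset.mem_univ _, haj, hbj⟩
    · show j ^ e * f * j ^ e = x
      rw [← hw, hf]
      group
  have h2 : J.card ≤ Cb.card * J2.card := by
    calc J.card ≤ ((Cb ×ˢ J2).image Ψ).card := Finset.card_le_card hJ
      _ ≤ (Cb ×ˢ J2).card := Finset.card_image_le
      _ = _ := Finset.card_product _ _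
  have hcard : Nat.card K = (Finset.univ : Finset K).card := by
    rw [Nat.card_eq_fintype_card, Finset.card_univ]
  have hb : fixCard (A.b : K → K) = Cb.card := fixCard_eq_filter _
  have hc : fixCard (A.c : K → K) = Cc.card := fixCard_eq_filter _
  rw [hcard, hb, hc]
  refine h1.trans (Nat.mul_le_mul_left _ ?_)
  exact h2.trans (Nat.mul_le_mul_left _ hJ2Cc)

end FourAct

section BF

variable {K : Type u} [Group K] [Finite K]

/-- **Brauer--Fowler**: an involutory automorphism with few fixed points forces a non-identity element with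
a centralizer of small index. -/
theorem exists_large_centralizer (φ : K →* K) (hφ : ∀ x, φ (φ x) = x) (hinj : Function.Injective φ) {c : ℕ}
    (hc : fixCard φ ≤ c) (hK : 2 * c ≤ Nat.card K) :
    ∃ x : K, x ≠ 1 ∧ (Subgroup.centralizer ({x} : Set K)).index ≤ 2 * c ^ 2 := by
  classical
  letI := Fintype.ofFinite K
  have hcpos : 0 < c := lt_of_lt_of_le (fixCard_pos φ) hc
  set T : Finset K := Finset.univ.image fun k => k⁻¹ * φ k with hT
  have hTinv : ∀ u ∈ T, φ u = u⁻¹ := by
    intro u hu
    obtain ⟨k, -, rfl⟩ := Finset.mem_image.mp hu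
    simp only [map_mul, map_inv, hφ, mul_inv_rev, inv_inv]
  set n := T.card with hn
  have hcardK : Nat.card K = (Finset.univ : Finset K).card := by
    rw [Nat.card_eq_fintype_card, Finset.card_univ]
  have h1 : Nat.card K ≤ c * n := by
    rw [hcardK]
    refine (card_le_twist φ Finset.univ T fun x _ => Finset.mem_image.mpr ⟨x, Finset.mem_univ _, rfl⟩).trans ?_
    exact Nat.mul_le_mul_right _ hc
  have hn2 : 2 ≤ n := by
    by_contra hlt
    have h2 : n ≤ 1 := by omega
    have h3 : c * n ≤ c * 1 := Nat.mul_le_mul_left _ h2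
    omega
  by_contra hcon
  push Not at hcon
  set s := T.offDiag with hs
  have hscard : s.card = n * n - n := Finset.offDiag_card T
  let m : K × K → K := fun p => p.1 * p.2⁻¹
  have hmaps : ∀ p ∈ s, m p ∈ (Finset.univ.erase (1 : K)) := by
    intro p hp
    obtain ⟨-, -, hne⟩ := Finset.mem_offDiag.mp hp
    refine Finset.mem_erase.mpr ⟨?_, Finset.mem_univ _⟩
    intro h
    exact hne (mul_inv_eq_one.mp h)
  have hfib : ∀ x ∈ (Finset.univ.erase (1 : K)), 2 * c ^ 2 * (s.filter fun p => m p = x).card ≤ Nat.card K - 1 := by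
    intro x hx
    have hx1 : x ≠ 1 := (Finset.mem_erase.mp hx).1
    have hKpos : 0 < Nat.card K := Nat.card_pos
    by_cases hne : (s.filter fun p => m p = x).Nonempty
    · obtain ⟨p₀, hp₀⟩ := hne
      have hp₀s := (Finset.mem_filter.mp hp₀).1
      have hp₀x := (Finset.mem_filter.mp hp₀).2
      obtain ⟨hp₀1, hp₀2, -⟩ := Finset.mem_offDiag.mp hp₀s
      have hφx1 : φ x ≠ 1 := by
        intro h
        apply hx1
        rw [← hφ x, h, map_one]
      have hidx := hcon (φ x) hφx1
      have hle : (s.filter fun p => m p = x).card ≤ Nat.card (Subgroup.centralizer ({φ x} : Set K)) := by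
        have h3 : Nat.card (Subgroup.centralizer ({φ x} : Set K)) =
            (Finset.univ.filter fun z : K => z ∈ Subgroup.centralizer ({φ x} : Set K)).card := by
          rw [Nat.card_eq_fintype_card, Fintype.card_subtype]
        rw [h3]
        refine Finset.card_le_card_of_injOn (fun p => p₀.1⁻¹ * p.1) ?_ ?_
        · intro p hp
          have hp' := Finset.mem_coe.mp hp
          have hps := (Finset.mem_filter.mp hp').1
          have hpx := (Finset.mem_filter.mp hp').2
          obtain ⟨hp1, hp2, -⟩ := Finset.mem_offDiag.mp hps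
          refine Finset.mem_coe.mpr (Finset.mem_filter.mpr ⟨Finset.mem_univ _, ?_⟩)
          rw [Subgroup.mem_centralizer_singleton_iff]
          have hφ1 : φ x = p.1⁻¹ * p.2 := by
            have : x = p.1 * p.2⁻¹ := hpx.symm
            rw [this, map_mul, map_inv, hTinv _ hp1, hTinv _ hp2, inv_inv]
          have hφ2 : φ x = p₀.1⁻¹ * p₀.2 := by
            have : x = p₀.1 * p₀.2⁻¹ := hp₀x.symm
            rw [this, map_mul, map_inv, hTinv _ hp₀1, hTinv _ hp₀2, inv_inv]
          have hx1' : x = p.1 * p.2⁻¹ := hpx.symm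
          have hx2' : x = p₀.1 * p₀.2⁻¹ := hp₀x.symm
          have hkey1 : p.1 * φ x * p.1⁻¹ = x⁻¹ := by
            rw [hφ1, hx1']
            group
          have hkey2 : p₀.1 * φ x * p₀.1⁻¹ = x⁻¹ := by
            rw [hφ2, hx2']
            group
          have hkey3 : p.1 * φ x * p.1⁻¹ = p₀.1 * φ x * p₀.1⁻¹ := hkey1.trans hkey2.symm
          have hkey4 : p₀.1⁻¹ * p.1 * φ x = φ x * (p₀.1⁻¹ * p.1) := by
            have h5 : p₀.1⁻¹ * (p.1 * φ x * p.1⁻¹) * p.1 = p₀.1⁻¹ * (p₀.1 * φ x * p₀.1⁻¹) * p.1 := by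
              rw [hkey3]
            calc p₀.1⁻¹ * p.1 * φ x = p₀.1⁻¹ * (p.1 * φ x * p.1⁻¹) * p.1 := by group
              _ = p₀.1⁻¹ * (p₀.1 * φ x * p₀.1⁻¹) * p.1 := h5
              _ = φ x * (p₀.1⁻¹ * p.1) := by group
          exact hkey4
        · intro p hp p' hp' h
          have hp1 := Finset.mem_coe.mp hp
          have hp2 := Finset.mem_coe.mp hp'
          have hpx := (Finset.mem_filter.mp hp1).2
          have hpx' := (Finset.mem_filter.mp hp2).2
          have h6 : p.1 = p'.1 := mul_left_cancel h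
          have h7 : p.1 * p.2⁻¹ = p'.1 * p'.2⁻¹ := hpx.trans hpx'.symm
          rw [h6] at h7
          have h8 : p.2 = p'.2 := by
            have := mul_left_cancel h7
            exact inv_injective this
          exact Prod.ext h6 h8
      have hcm := Subgroup.card_mul_index (Subgroup.centralizer ({φ x} : Set K))
      have h9 : 2 * c ^ 2 * (s.filter fun p => m p = x).card < Nat.card K := by
        rw [← hcm]
        calc 2 * c ^ 2 * (s.filter fun p => m p = x).card
            ≤ 2 * c ^ 2 * Nat.card (Subgroup.centralizer ({φ x} : Set K)) := Nat.mul_le_mul_left _ hle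
          _ < (Subgroup.centralizer ({φ x} : Set K)).index * Nat.card (Subgroup.centralizer ({φ x} : Set K)) :=
              Nat.mul_lt_mul_of_pos_right hidx Nat.card_pos
          _ = _ := Nat.mul_comm _ _
      omega
    · rw [Finset.not_nonempty_iff_eq_empty] at hne
      rw [hne]
      simp
  have hsum : 2 * c ^ 2 * s.card ≤ (Nat.card K - 1) * (Nat.card K - 1) := by
    have h2 := Finset.card_eq_sum_card_fiberwise hmaps
    rw [h2, Finset.mul_sum]
    calc ∑ x ∈ (Finset.univ.erase (1 : K)), 2 * c ^ 2 * (s.filter fun p => m p = x).card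
        ≤ ∑ _x ∈ (Finset.univ.erase (1 : K)), (Nat.card K - 1) := Finset.sum_le_sum hfib
      _ = _ := by
        rw [Finset.sum_const, Finset.card_erase_of_mem (Finset.mem_univ _), ← hcardK]
        rfl
  -- numerics
  have hKpos : 0 < Nat.card K := Nat.card_pos
  have h3 : n * n ≤ 2 * (n * n - n) := by
    have : n ≤ n * n - n := by
      have h4 : 2 * n ≤ n * n := Nat.mul_le_mul_right _ hn2
      omega
    have h5 : n ≤ n * n := Nat.le_mul_self n
    omega
  have h6 : Nat.card K * Nat.card K ≤ (c * n) * (c * n) := Nat.mul_le_mul h1 h1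
  have h7 : (c * n) * (c * n) ≤ 2 * c ^ 2 * s.card := by
    rw [hscard]
    calc (c * n) * (c * n) = c ^ 2 * (n * n) := by ring
      _ ≤ c ^ 2 * (2 * (n * n - n)) := Nat.mul_le_mul_left _ h3
      _ = _ := by ring
  have h8 : (Nat.card K - 1) * (Nat.card K - 1) < Nat.card K * Nat.card K :=
    Nat.mul_self_lt_mul_self (by omega)
  omega

end BF

section Quot

variable {K : Type u} [Group K]

theorem fixCard_quot_le [Finite K] (Z : Subgroup K) [Z.Normal] (φ : K →* K) (f : K ⧸ Z → K ⧸ Z)
    (hf : ∀ x : K, f (x : K ⧸ Z) = ((φ x : K) : K ⧸ Z)) : fixCard f ≤ fixCard φ := by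
  classical
  letI := Fintype.ofFinite K
  letI : Fintype (K ⧸ Z) := Fintype.ofFinite _
  let T : Finset K := Finset.univ.filter fun x => x ∈ Z
  let D : Finset K := Finset.univ.filter fun x => x⁻¹ * φ x ∈ Z
  have hT : T.card = Nat.card Z := by
    rw [Nat.card_eq_fintype_card, Fintype.card_subtype]
  have h1 : D.card ≤ fixCard φ * T.card :=
    card_le_twist φ D T fun x hx => Finset.mem_filter.mpr ⟨Finset.mem_univ _, (Finset.mem_filter.mp hx).2⟩
  have h2 : (Finset.univ.filter fun q : K ⧸ Z => f q = q).card * T.card ≤ D.card := by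
    rw [← Finset.card_product]
    refine Finset.card_le_card_of_injOn (fun p => p.1.out * p.2) ?_ ?_
    · intro p hp
      obtain ⟨hp1, hp2⟩ := Finset.mem_product.mp (Finset.mem_coe.mp hp)
      have hp1' := (Finset.mem_filter.mp hp1).2
      have hp2' : p.2 ∈ Z := (Finset.mem_filter.mp hp2).2
      refine Finset.mem_coe.mpr (Finset.mem_filter.mpr ⟨Finset.mem_univ _, ?_⟩)
      have h3 : ((p.1.out * p.2 : K) : K ⧸ Z) = p.1 := by
        rw [QuotientGroup.mk_mul_of_mem _ hp2', QuotientGroup.out_eq']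
      rw [← QuotientGroup.eq, ← hf, h3, hp1']
    · intro p hp p' hp' h
      obtain ⟨-, hp2⟩ := Finset.mem_product.mp (Finset.mem_coe.mp hp)
      obtain ⟨-, hp2'⟩ := Finset.mem_product.mp (Finset.mem_coe.mp hp')
      have h2z : p.2 ∈ Z := (Finset.mem_filter.mp hp2).2
      have h2z' : p'.2 ∈ Z := (Finset.mem_filter.mp hp2').2
      have h3 : ((p.1.out * p.2 : K) : K ⧸ Z) = p.1 := by
        rw [QuotientGroup.mk_mul_of_mem _ h2z, QuotientGroup.out_eq']
      have h3' : ((p'.1.out * p'.2 : K) : K ⧸ Z) = p'.1 := by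
        rw [QuotientGroup.mk_mul_of_mem _ h2z', QuotientGroup.out_eq']
      have h' : p.1.out * p.2 = p'.1.out * p'.2 := h
      have h4 : p.1 = p'.1 := by rw [← h3, ← h3', h']
      have h5 : p.2 = p'.2 := by
        rw [h4] at h'
        exact mul_left_cancel h'
      exact Prod.ext h4 h5
  have h3 : fixCard f = (Finset.univ.filter fun q : K ⧸ Z => f q = q).card := fixCard_eq_filter f
  have hTpos : 0 < T.card := by
    rw [hT]
    exact Nat.card_pos
  rw [h3]
  exact Nat.le_of_mul_le_mul_right (h2.trans h1) hTpos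

end Quot

namespace FourAct

variable {K : Type u} [Group K]

/-- Invariant subgroups. -/
def Inv (A : FourAct K) (H : Subgroup K) : Prop := (∀ x ∈ H, A.a x ∈ H) ∧ (∀ x ∈ H, A.b x ∈ H)

/-- The restriction to an invariant subgroup. -/
def restrict (A : FourAct K) (H : Subgroup K) (h : A.Inv H) : FourAct H where
  a :=
    { toFun := fun x => ⟨A.a x, h.1 x x.2⟩
      invFun := fun x => ⟨A.a x, h.1 x x.2⟩
      left_inv := fun x => Subtype.ext (A.haa x)
      right_inv := fun x => Subtype.ext (A.haa x)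
      map_mul' := fun x y => Subtype.ext (by simp) }
  b :=
    { toFun := fun x => ⟨A.b x, h.2 x x.2⟩
      invFun := fun x => ⟨A.b x, h.2 x x.2⟩
      left_inv := fun x => Subtype.ext (A.hbb x)
      right_inv := fun x => Subtype.ext (A.hbb x)
      map_mul' := fun x y => Subtype.ext (by simp) }
  haa := fun x => Subtype.ext (A.haa x)
  hbb := fun x => Subtype.ext (A.hbb x)
  hab := fun x => Subtype.ext (A.hab x)

theorem fixCard_sub_le [Finite K] (H : Subgroup K) (φ : K → K) (f : H → H) (hf : ∀ x : H, (f x : K) = φ x) :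
    fixCard f ≤ fixCard φ := by
  refine Nat.card_le_card_of_injective (fun x => (⟨x.1.1, ?_⟩ : {y : K // φ y = y})) ?_
  · rw [← hf, x.2]
  · intro x y hxy
    have h := congrArg Subtype.val hxy
    exact Subtype.ext (Subtype.ext h)

theorem Bdd.restrict [Finite K] {A : FourAct K} {c : ℕ} (hA : A.Bdd c) (H : Subgroup K) (h : A.Inv H) :
    (A.restrict H h).Bdd c :=
  ⟨(fixCard_sub_le H _ _ fun _ => rfl).trans hA.1, (fixCard_sub_le H _ _ fun _ => rfl).trans hA.2.1,
    (fixCard_sub_le H _ _ fun _ => rfl).trans hA.2.2⟩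

theorem map_eq_of_inv (φ : K ≃* K) (hφ : ∀ x, φ (φ x) = x) (Z : Subgroup K) (hZ : ∀ x ∈ Z, φ x ∈ Z) :
    Z.map φ.toMonoidHom = Z := by
  ext x
  constructor
  · rintro ⟨y, hy, rfl⟩
    exact hZ y hy
  · intro hx
    exact ⟨φ x, hZ x hx, hφ x⟩

/-- The action on the quotient by an invariant normal subgroup. -/
noncomputable def quot (A : FourAct K) (Z : Subgroup K) [Z.Normal] (h : A.Inv Z) : FourAct (K ⧸ Z) where
  a := QuotientGroup.congr Z Z A.a (map_eq_of_inv A.a A.haa Z h.1)
  b := QuotientGroup.congr Z Z A.b (map_eq_of_inv A.b A.hbb Z h.2)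
  haa := fun x => by
    obtain ⟨y, rfl⟩ := QuotientGroup.mk_surjective x
    show ((A.a (A.a y) : K) : K ⧸ Z) = y
    rw [A.haa]
  hbb := fun x => by
    obtain ⟨y, rfl⟩ := QuotientGroup.mk_surjective x
    show ((A.b (A.b y) : K) : K ⧸ Z) = y
    rw [A.hbb]
  hab := fun x => by
    obtain ⟨y, rfl⟩ := QuotientGroup.mk_surjective x
    show ((A.a (A.b y) : K) : K ⧸ Z) = ((A.b (A.a y) : K) : K ⧸ Z)
    rw [A.hab]

theorem Bdd.quot [Finite K] {A : FourAct K} {c : ℕ} (hA : A.Bdd c) (Z : Subgroup K) [Z.Normal] (h : A.Inv Z) :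
    (A.quot Z h).Bdd c := by
  refine ⟨(fixCard_quot_le Z (A.a : K →* K) _ fun x => ?_).trans hA.1,
    (fixCard_quot_le Z (A.b : K →* K) _ fun x => ?_).trans hA.2.1,
    (fixCard_quot_le Z (A.c : K →* K) _ fun x => ?_).trans hA.2.2⟩
  · rfl
  · rfl
  · rfl

end FourAct

section Gen

variable (K : Type u) [Group K]

/-- The subgroup generated by the `2`-elements. -/
def twoGen : Subgroup K := Subgroup.normalClosure {x : K | ∃ k : ℕ, orderOf x = 2 ^ k}

instance twoGen_normal : (twoGen K).Normal := Subgroup.normalClosure_normal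

variable {K}

theorem mem_twoGen_of_order {x : K} {k : ℕ} (h : orderOf x = 2 ^ k) : x ∈ twoGen K :=
  Subgroup.subset_normalClosure ⟨k, h⟩

theorem twoGen_inv (φ : K ≃* K) {x : K} (hx : x ∈ twoGen K) : φ x ∈ twoGen K := by
  have hle : twoGen K ≤ (twoGen K).comap φ.toMonoidHom := by
    refine Subgroup.normalClosure_le_normal fun y hy => ?_
    obtain ⟨k, hk⟩ := hy
    exact mem_twoGen_of_order (k := k) (by
      show orderOf (φ y) = _
      rw [MulEquiv.orderOf_eq, hk])
  exact hle hx

theorem odd_index_twoGen [Finite K] : Odd (twoGen K).index := by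
  haveI : Fact (Nat.Prime 2) := ⟨Nat.prime_two⟩
  obtain ⟨S⟩ : Nonempty (Sylow 2 K) := inferInstance
  have hle : (S : Subgroup K) ≤ twoGen K := by
    intro x hx
    obtain ⟨k, hk⟩ := (IsPGroup.iff_orderOf.mp S.2) ⟨x, hx⟩
    exact mem_twoGen_of_order (k := k) (by rwa [Subgroup.orderOf_mk] at hk)
  have h1 : (twoGen K).index ∣ (S : Subgroup K).index := Subgroup.index_dvd_of_le hle
  have h2 := S.not_dvd_index
  exact Nat.not_even_iff_odd.mp fun h => h2 (h.two_dvd.trans h1)

/-- No proper normal subgroups of odd index. -/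
def NoOddQuot (K : Type u) [Group K] : Prop := ∀ H : Subgroup K, H.Normal → Odd H.index → H = ⊤

/-- No nontrivial normal subgroups of odd order. -/
def NoOddNormal (K : Type u) [Group K] : Prop := ∀ H : Subgroup K, H.Normal → Odd (Nat.card H) → H = ⊥

theorem noOddQuot_twoGen [Finite K] : NoOddQuot (twoGen K) := by
  classical
  intro H hH hodd
  have hmem : ∀ z : twoGen K, ∀ k : ℕ, orderOf (z : K) = 2 ^ k → z ∈ H := by
    intro z k hk
    have h1 : orderOf ((z : twoGen K ⧸ H)) ∣ 2 ^ k := by
      apply orderOf_dvd_of_pow_eq_one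
      rw [← QuotientGroup.mk_pow]
      have h2 : z ^ (2 ^ k) = 1 := by
        apply Subtype.ext
        simp only [Subgroup.coe_pow, Subgroup.coe_one]
        rw [← hk, pow_orderOf_eq_one]
      rw [h2]
      rfl
    have h2 : orderOf ((z : twoGen K ⧸ H)) ∣ H.index := by
      rw [Subgroup.index_eq_card]
      exact orderOf_dvd_natCard _
    have h3 : Nat.Coprime (2 ^ k) H.index := Nat.Coprime.pow_left _ (Nat.coprime_two_left.mpr hodd)
    have h4 : orderOf ((z : twoGen K ⧸ H)) = 1 := Nat.Coprime.eq_one_of_dvd (h3.coprime_dvd_left h1) h2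
    rw [orderOf_eq_one_iff] at h4
    exact (QuotientGroup.eq_one_iff z).mp h4
  have hle : twoGen K ≤ H.map (twoGen K).subtype := by
    refine (Subgroup.closure_le _).mpr ?_
    intro y hy
    obtain ⟨a, ⟨k, hk⟩, hay⟩ := Group.mem_conjugatesOfSet_iff.mp hy
    have hyo : orderOf y = 2 ^ k := by
      obtain ⟨c, hc⟩ := isConj_iff.mp hay
      rw [← hc, ← hk]
      exact MulEquiv.orderOf_eq (MulAut.conj c) a
    have hyL := mem_twoGen_of_order hyo
    exact ⟨⟨y, hyL⟩, hmem ⟨y, hyL⟩ k hyo, rfl⟩
  rw [eq_top_iff]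
  intro z _
  obtain ⟨w, hw, hwz⟩ := hle z.2
  have : w = z := Subtype.ext hwz
  rwa [← this]

theorem NoOddQuot.quot {K : Type u} [Group K] (h : NoOddQuot K) (X : Subgroup K) [X.Normal] : NoOddQuot (K ⧸ X) := by
  intro W hW hodd
  have h1 := h (W.comap (QuotientGroup.mk' X)) (hW.comap _) (by
    rw [Subgroup.index_comap_of_surjective W (QuotientGroup.mk'_surjective X)]
    exact hodd)
  rw [eq_top_iff]
  intro q _
  obtain ⟨g, rfl⟩ := QuotientGroup.mk_surjective q
  have h2 : g ∈ W.comap (QuotientGroup.mk' X) := by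
    rw [h1]
    trivial
  exact h2

theorem noOddNormal_quot [Finite K] : NoOddNormal (K ⧸ pPrimeCore 2 K) := by
  haveI : Fact (Nat.Prime 2) := ⟨Nat.prime_two⟩
  intro Y hY hodd
  have h1 := Cfsg.Agent.Lib.Basic.le_pPrimeCore hY (p := 2) (Nat.coprime_two_right.mpr hodd)
  rw [Cfsg.Agent.Lib.Basic.pPrimeCore_quotient_eq_bot] at h1
  exact le_bot_iff.mp h1

end Gen

section Main

/-- The index bound. -/
def coreBound (c : ℕ) : ℕ := ((2 * c ^ 2).factorial) ^ 4

theorem index_normalCore_le {K : Type u} [Group K] [Finite K] (H : Subgroup K) :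
    H.normalCore.index ≤ H.index.factorial := by
  have h : H.normalCore.index ∣ H.index.factorial := by
    rw [Subgroup.normalCore_eq_ker, Subgroup.index_ker, Subgroup.index_eq_card, ← Nat.card_perm]
    exact Subgroup.card_subgroup_dvd_card (MulAction.toPermHom K (K ⧸ H)).range
  exact Nat.le_of_dvd (Nat.factorial_pos _) h

theorem isPGroup_center_of_noOddNormal {K : Type u} [Group K] [Finite K] (hO : NoOddNormal K) :
    IsPGroup 2 (Subgroup.center K) := by
  classical
  haveI : Fact (Nat.Prime 2) := ⟨Nat.prime_two⟩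
  obtain ⟨t, o, ho, hd⟩ := Nat.exists_eq_two_pow_mul_odd (n := Nat.card (Subgroup.center K)) Nat.card_pos.ne'
  let Y : Subgroup K :=
    { carrier := {z | z ∈ Subgroup.center K ∧ z ^ o = 1}
      mul_mem' := by
        rintro x y ⟨hx, hx'⟩ ⟨hy, hy'⟩
        refine ⟨Subgroup.mul_mem _ hx hy, ?_⟩
        have hcomm : Commute x y := Subgroup.mem_center_iff.mp hx y |>.symm
        rw [hcomm.mul_pow, hx', hy', one_mul]
      one_mem' := ⟨Subgroup.one_mem _, one_pow _⟩
      inv_mem' := by
        rintro x ⟨hx, hx'⟩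
        exact ⟨Subgroup.inv_mem _ hx, by rw [inv_pow, hx', inv_one]⟩ }
  have hYn : Y.Normal := by
    constructor
    rintro x ⟨hx, hx'⟩ g
    have : g * x * g⁻¹ = x := by
      rw [Subgroup.mem_center_iff.mp hx g]
      group
    rw [this]
    exact ⟨hx, hx'⟩
  have hYodd : Odd (Nat.card Y) := by
    refine Nat.not_even_iff_odd.mp fun h => ?_
    obtain ⟨w, hw⟩ := exists_prime_orderOf_dvd_card' (G := Y) 2 h.two_dvd
    have h1 : (w : Y) ^ o = 1 := Subtype.ext w.2.2
    have h2 := orderOf_dvd_of_pow_eq_one h1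
    rw [hw] at h2
    exact (Nat.not_even_iff_odd.mpr ho) (even_iff_two_dvd.mpr h2)
  have hYbot := hO Y hYn hYodd
  rw [IsPGroup.iff_orderOf]
  intro z
  have h1 : ((z : K) ^ (2 ^ t)) ∈ Y := by
    refine ⟨Subgroup.pow_mem _ z.2 _, ?_⟩
    rw [← pow_mul, ← hd]
    have h2 : z ^ Nat.card (Subgroup.center K) = 1 := pow_card_eq_one'
    have h3 := congrArg Subtype.val h2
    exact h3
  rw [hYbot, Subgroup.mem_bot] at h1
  have h2 : z ^ (2 ^ t) = 1 := Subtype.ext (by simpa using h1)
  obtain ⟨k, -, hk⟩ := (Nat.dvd_prime_pow Nat.prime_two).mp (orderOf_dvd_of_pow_eq_one h2)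
  exact ⟨k, hk⟩

theorem FourAct.core_step {K : Type u} [Group K] [Finite K] (A : FourAct K) {c m N' : ℕ} (hA : A.Bdd c)
    (hQ : NoOddQuot K) (hO : NoOddNormal K) (hfac : (Nat.card K).factorization 2 ≤ m + 1)
    (IH : ∀ (K' : Type u) [Group K'] [Finite K'] (A' : FourAct K'), A'.Bdd c → (Nat.card K').factorization 2 ≤ m →
      Nat.card K' ≤ N') :
    Nat.card K ≤ max (2 * c) (max (coreBound c * N') (2 ^ (m + 1) * N')) := by
  classical
  by_cases h : 2 * c ≤ Nat.card K
  swap
  · exact le_max_of_le_left (by omega)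
  obtain ⟨x, hx1, hidx⟩ := exists_large_centralizer (A.a : K →* K) A.haa A.a.injective hA.1 h
  set H := Subgroup.centralizer ({x} : Set K) with hH
  set N₀ := H.normalCore with hN₀
  have hN₀i : N₀.index ≤ (2 * c ^ 2).factorial :=
    (index_normalCore_le H).trans (Nat.factorial_le hidx)
  have hN₀n : N₀.Normal := inferInstance
  let W : Subgroup K := (N₀ ⊓ N₀.comap (A.a : K →* K)) ⊓ (N₀.comap (A.b : K →* K) ⊓ N₀.comap (A.c : K →* K))
  have hWn : W.Normal := by
    haveI : (N₀.comap (A.a : K →* K)).Normal := hN₀n.comap _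
    haveI : (N₀.comap (A.b : K →* K)).Normal := hN₀n.comap _
    haveI : (N₀.comap (A.c : K →* K)).Normal := hN₀n.comap _
    infer_instance
  have hcomapi : ∀ φ : K ≃* K, (N₀.comap (φ : K →* K)).index = N₀.index := fun φ =>
    Subgroup.index_comap_of_surjective N₀ φ.surjective
  have hWi : W.index ≤ coreBound c := by
    have h1 : W.index ≤ (N₀ ⊓ N₀.comap (A.a : K →* K)).index * (N₀.comap (A.b : K →* K) ⊓ N₀.comap (A.c : K →* K)).index :=
      Subgroup.index_inf_le
    have h2 : (N₀ ⊓ N₀.comap (A.a : K →* K)).index ≤ N₀.index * N₀.index := by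
      have := Subgroup.index_inf_le (H := N₀) (K := N₀.comap (A.a : K →* K))
      rwa [hcomapi] at this
    have h3 : (N₀.comap (A.b : K →* K) ⊓ N₀.comap (A.c : K →* K)).index ≤ N₀.index * N₀.index := by
      have := Subgroup.index_inf_le (H := N₀.comap (A.b : K →* K)) (K := N₀.comap (A.c : K →* K))
      rwa [hcomapi, hcomapi] at this
    have h4 := Nat.mul_le_mul (Nat.mul_le_mul hN₀i hN₀i) (Nat.mul_le_mul hN₀i hN₀i)
    rw [coreBound]
    calc W.index ≤ _ := h1
      _ ≤ (N₀.index * N₀.index) * (N₀.index * N₀.index) := Nat.mul_le_mul h2 h3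
      _ ≤ _ := h4
      _ = _ := by ring
  have hWinv : A.Inv W := by
    constructor
    · rintro y ⟨⟨h1, h2⟩, h3, h4⟩
      refine ⟨⟨h2, ?_⟩, ?_, ?_⟩
      · show A.a (A.a y) ∈ N₀
        rwa [A.haa]
      · show A.b (A.a y) ∈ N₀
        rw [← A.hab]
        exact h4
      · show A.a (A.b (A.a y)) ∈ N₀
        rw [← A.hab, A.haa]
        exact h3
    · rintro y ⟨⟨h1, h2⟩, h3, h4⟩
      refine ⟨⟨h3, ?_⟩, ?_, ?_⟩
      · exact h4
      · show A.b (A.b y) ∈ N₀
        rwa [A.hbb]
      · show A.a (A.b (A.b y)) ∈ N₀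
        rw [A.hbb]
        exact h2
  by_cases hW : W = ⊤
  · -- the element is central
    have hN₀top : N₀ = ⊤ := by
      rw [eq_top_iff]
      intro y _
      have hy : y ∈ W := by rw [hW]; trivial
      exact hy.1.1
    have hHtop : H = ⊤ := by
      rw [eq_top_iff, ← hN₀top]
      exact Subgroup.normalCore_le H
    have hxZ : x ∈ Subgroup.center K := by
      rw [Subgroup.mem_center_iff]
      intro g
      have hg : g ∈ H := by rw [hHtop]; trivial
      exact Subgroup.mem_centralizer_singleton_iff.mp hg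
    set Z := Subgroup.center K with hZ
    have hZne : Z ≠ ⊥ := by
      intro h0
      rw [h0, Subgroup.mem_bot] at hxZ
      exact hx1 hxZ
    have hZeven : Even (Nat.card Z) := by
      refine Nat.not_odd_iff_even.mp fun hodd => hZne (hO Z inferInstance hodd)
    have hZp : IsPGroup 2 Z := isPGroup_center_of_noOddNormal hO
    obtain ⟨s, hs⟩ := IsPGroup.iff_card.mp hZp
    have hKcard : Nat.card K = Nat.card (K ⧸ Z) * Nat.card Z := Subgroup.card_eq_card_quotient_mul_card_subgroup Z
    have hK0 : Nat.card K ≠ 0 := Nat.card_pos.ne'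
    have hs1 : 1 ≤ s := by
      by_contra h0
      have : s = 0 := by omega
      rw [this, pow_zero] at hs
      rw [hs] at hZeven
      exact absurd hZeven (by decide)
    have hfacK : (Nat.card K).factorization 2 = (Nat.card (K ⧸ Z)).factorization 2 + s := by
      rw [hKcard, hs, Nat.factorization_mul Nat.card_pos.ne' (by positivity), Finsupp.add_apply,
        Nat.Prime.factorization_pow Nat.prime_two]
      simp
    have hZinv : A.Inv Z := by
      constructor <;>
      · intro y hy
        rw [Subgroup.mem_center_iff] at hy ⊢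
        intro g
        first
          | (obtain ⟨g', rfl⟩ := A.a.surjective g
             rw [← map_mul, ← map_mul, hy])
          | (obtain ⟨g', rfl⟩ := A.b.surjective g
             rw [← map_mul, ← map_mul, hy])
    have hq := IH (K ⧸ Z) (A.quot Z hZinv) (hA.quot Z hZinv) (by omega)
    have hsm : s ≤ m + 1 := by omega
    refine le_max_of_le_right (le_max_of_le_right ?_)
    rw [hKcard, hs, mul_comm]
    exact Nat.mul_le_mul (Nat.pow_le_pow_right (by norm_num) hsm) hq
  · -- an even step
    have hnotodd : ¬ Odd W.index := fun hodd => hW (hQ W hWn hodd)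
    have heven : Even W.index := Nat.not_odd_iff_even.mp hnotodd
    have hKcard : Nat.card K = Nat.card W * W.index := (Subgroup.card_mul_index W).symm
    have hK0 : Nat.card K ≠ 0 := Nat.card_pos.ne'
    have hi0 : W.index ≠ 0 := by
      intro h0
      rw [hKcard, h0] at hK0
      simp at hK0
    have hfacK : (Nat.card K).factorization 2 = (Nat.card W).factorization 2 + W.index.factorization 2 := by
      rw [hKcard, Nat.factorization_mul Nat.card_pos.ne' hi0, Finsupp.add_apply]
    have h2i : 1 ≤ W.index.factorization 2 :=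
      (Nat.Prime.dvd_iff_one_le_factorization Nat.prime_two hi0).mp heven.two_dvd
    have hq := IH W (A.restrict W hWinv) (hA.restrict W hWinv) (by omega)
    refine le_max_of_le_right (le_max_of_le_left ?_)
    rw [hKcard, mul_comm]
    exact Nat.mul_le_mul hWi hq

/-- **The bound.** -/
theorem card_le_of_fourAct (c m : ℕ) : ∃ N : ℕ, ∀ (K : Type u) [Group K] [Finite K] (A : FourAct K), A.Bdd c →
    (Nat.card K).factorization 2 ≤ m → Nat.card K ≤ N := by
  classical
  have hodd : ∀ (K : Type u) [Group K] [Finite K] (A : FourAct K), A.Bdd c → Odd (Nat.card K) →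
      Nat.card K ≤ c * (c * c) := by
    intro K _ _ A hA hO
    exact (A.oddBW hO).trans (Nat.mul_le_mul hA.1 (Nat.mul_le_mul hA.2.1 hA.2.2))
  induction m with
  | zero =>
    refine ⟨c * (c * c), ?_⟩
    intro K _ _ A hA hf
    refine hodd K A hA ?_
    have h0 : (Nat.card K).factorization 2 = 0 := by omega
    refine Nat.not_even_iff_odd.mp fun he => ?_
    have := (Nat.Prime.dvd_iff_one_le_factorization Nat.prime_two Nat.card_pos.ne').mp he.two_dvd
    omega
  | succ m ih =>
    obtain ⟨N', hN'⟩ := ih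
    refine ⟨c * (c * c) * (c * (c * c) * max (2 * c) (max (coreBound c * N') (2 ^ (m + 1) * N'))), ?_⟩
    intro K _ _ A hA hf
    haveI : Fact (Nat.Prime 2) := ⟨Nat.prime_two⟩
    set L := twoGen K with hL
    have hLinv : A.Inv L := ⟨fun x hx => twoGen_inv A.a hx, fun x hx => twoGen_inv A.b hx⟩
    have hQ : Nat.card (K ⧸ L) ≤ c * (c * c) := by
      refine hodd _ (A.quot L hLinv) (hA.quot L hLinv) ?_
      rw [← Subgroup.index_eq_card]
      exact odd_index_twoGen
    let AL := A.restrict L hLinv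
    have hAL : AL.Bdd c := hA.restrict L hLinv
    set X := pPrimeCore 2 L with hX
    have hXinv : AL.Inv X := by
      have hch := Cfsg.Agent.Lib.Basic.pPrimeCore_characteristic (G := L) 2
      have hfix : ∀ φ : L ≃* L, ∀ x ∈ X, φ x ∈ X := by
        intro φ x hx
        have h1 := hch.fixed φ
        have h2 : x ∈ X.comap φ.toMonoidHom := by
          rw [hX, h1]
          exact hx
        exact h2
      exact ⟨fun x hx => hfix AL.a x hx, fun x hx => hfix AL.b x hx⟩
    have hXc : Nat.card X ≤ c * (c * c) := by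
      refine hodd _ (AL.restrict X hXinv) (hAL.restrict X hXinv) ?_
      have h1 := Cfsg.Agent.Lib.Basic.pPrimeCore_coprime (G := L) 2
      exact Nat.coprime_two_right.mp h1
    have hXn : X.Normal := Cfsg.Agent.Lib.Basic.pPrimeCore_normal 2
    have hLbar := FourAct.core_step (AL.quot X hXinv) (hAL.quot X hXinv) (noOddQuot_twoGen.quot X) noOddNormal_quot
      (m := m) (N' := N') (by
        have h1 : Nat.card (L ⧸ X) ∣ Nat.card L := Subgroup.card_quotient_dvd_card X
        have h2 : Nat.card L ∣ Nat.card K := Subgroup.card_subgroup_dvd_card L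
        have h3 := (Nat.factorization_le_iff_dvd Nat.card_pos.ne' Nat.card_pos.ne').mpr (h1.trans h2) 2
        omega) hN'
    have h1 : Nat.card K = Nat.card (K ⧸ L) * Nat.card L := Subgroup.card_eq_card_quotient_mul_card_subgroup L
    have h2 : Nat.card L = Nat.card (L ⧸ X) * Nat.card X := Subgroup.card_eq_card_quotient_mul_card_subgroup X
    rw [h1, h2]
    refine Nat.mul_le_mul hQ ?_
    rw [mul_comm]
    exact Nat.mul_le_mul hXc hLbar

end Main

section Invol

variable {G : Type u} [Group G]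

/-- The action of commuting involutions by conjugation. -/
def fourActOfInvolutions (t₁ t₂ : G) (h₁ : t₁ * t₁ = 1) (h₂ : t₂ * t₂ = 1) (h : t₁ * t₂ = t₂ * t₁) : FourAct G where
  a := MulAut.conj t₁
  b := MulAut.conj t₂
  haa := fun x => by
    simp only [MulAut.conj_apply]
    have h3 : t₁⁻¹ = t₁ := inv_eq_of_mul_eq_one_left h₁
    calc t₁ * (t₁ * x * t₁⁻¹) * t₁⁻¹ = (t₁ * t₁) * x * (t₁⁻¹ * t₁⁻¹) := by group
      _ = x := by rw [h3, h₁]; group
  hbb := fun x => by
    simp only [MulAut.conj_apply]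
    have h3 : t₂⁻¹ = t₂ := inv_eq_of_mul_eq_one_left h₂
    calc t₂ * (t₂ * x * t₂⁻¹) * t₂⁻¹ = (t₂ * t₂) * x * (t₂⁻¹ * t₂⁻¹) := by group
      _ = x := by rw [h3, h₂]; group
  hab := fun x => by
    simp only [MulAut.conj_apply]
    have h3 : t₁⁻¹ = t₁ := inv_eq_of_mul_eq_one_left h₁
    have h4 : t₂⁻¹ = t₂ := inv_eq_of_mul_eq_one_left h₂
    rw [h3, h4]
    calc t₁ * (t₂ * x * t₂) * t₁ = (t₁ * t₂) * x * (t₂ * t₁) := by group
      _ = (t₂ * t₁) * x * (t₁ * t₂) := by rw [← h]
      _ = t₂ * (t₁ * x * t₁) * t₂ := by group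

theorem fixCard_conj [Finite G] (t : G) : fixCard (fun x => t * x * t⁻¹) = Nat.card (Subgroup.centralizer ({t} : Set G)) := by
  apply Nat.card_congr
  refine Equiv.subtypeEquivRight fun x => ?_
  rw [Subgroup.mem_centralizer_singleton_iff]
  constructor
  · intro h
    have h' : t * x * t⁻¹ = x := h
    have h1 : t * x = x * t := by
      calc t * x = t * x * t⁻¹ * t := by group
        _ = x * t := by rw [h']
    exact h1.symm
  · intro h
    have h1 : x * t = t * x := h
    show t * x * t⁻¹ = x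
    rw [← h1]
    group

/-- Two commuting involutions with small centralizers bound the order. -/
theorem card_le_of_involutions (c m : ℕ) : ∃ N : ℕ, ∀ (G : Type u) [Group G] [Finite G] (t₁ t₂ : G), t₁ * t₁ = 1 → t₂ * t₂ = 1 →
    t₁ * t₂ = t₂ * t₁ → Nat.card (Subgroup.centralizer ({t₁} : Set G)) ≤ c → Nat.card (Subgroup.centralizer ({t₂} : Set G)) ≤ c →
    Nat.card (Subgroup.centralizer ({t₁ * t₂} : Set G)) ≤ c → (Nat.card G).factorization 2 ≤ m → Nat.card G ≤ N := by
  obtain ⟨N, hN⟩ := card_le_of_fourAct.{u} c m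
  refine ⟨N, ?_⟩
  intro G _ _ t₁ t₂ h₁ h₂ h h1 h2 h3 hf
  refine hN G (fourActOfInvolutions t₁ t₂ h₁ h₂ h) ⟨?_, ?_, ?_⟩ hf
  · exact (fixCard_conj t₁).le.trans h1
  · exact (fixCard_conj t₂).le.trans h2
  · have h4 : (((fourActOfInvolutions t₁ t₂ h₁ h₂ h).c : G ≃* G) : G → G) = fun x => (t₁ * t₂) * x * (t₁ * t₂)⁻¹ := by
      funext x
      show t₁ * (t₂ * x * t₂⁻¹) * t₁⁻¹ = _
      group
    rw [h4]
    exact (fixCard_conj (t₁ * t₂)).le.trans h3

end Invol

end Cfsg.Agent.Lib.H8Group
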