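import Mathlib
import Cfsg.Agent.Lib.H8Group.GlaubP

set_option autoImplicit false

/-!
The Glauberman correspondence when all the non-identity elements of a cyclic group of operators have
the same centralizer.
-/

namespace Cfsg.Agent.Lib.H8Group

open Cfsg Module Cfsg.Agent.Lib.Char
open scoped ComplexConjugate

universe u

/-- Integer vectors with prescribed variance. -/
theorem int_vector_dichotomy {ι : Type*} [Fintype ι] [DecidableEq ι] [Nonempty ι] (m : ι → ℤ) (T : ℤ)
    (hT0 : 0 ≤ T) (hT : T ≤ (Fintype.card ι : ℤ) - 1)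
    (h : (Fintype.card ι : ℤ) * ∑ i, m i ^ 2 = (∑ i, m i) ^ 2 + T) :
    (T = 0 ∧ (Fintype.card ι : ℤ) ∣ ∑ i, m i) ∨
    (∃ (i₀ : ι) (k ε : ℤ), (ε = 1 ∨ ε = -1) ∧ ∀ i, m i = k + if i = i₀ then ε else 0) := by
  set n : ℤ := (Fintype.card ι : ℤ) with hn
  have hnpos : 0 < n := by
    rw [hn]
    exact_mod_cast Fintype.card_pos
  set F : ℤ := ∑ i, m i with hF
  set k' : ℤ := F / n with hk'
  set r : ℤ := F % n with hr
  have hFeq : F = n * k' + r := (Int.mul_ediv_add_emod F n).symm
  have hr0 : 0 ≤ r := Int.emod_nonneg _ hnpos.ne'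
  have hrn : r < n := Int.emod_lt_of_pos _ hnpos
  let q : ι → ℤ := fun i => m i - k'
  have hqsum : ∑ i, q i = r := by
    simp only [q, Finset.sum_sub_distrib, Finset.sum_const, Finset.card_univ, nsmul_eq_mul]
    rw [← hF, hFeq, ← hn]
    ring
  have hqsq : n * ∑ i, q i ^ 2 = r ^ 2 + T := by
    have h1 : ∑ i, q i ^ 2 = ∑ i, m i ^ 2 - 2 * k' * F + n * k' ^ 2 := by
      simp only [q, sub_sq, Finset.sum_add_distrib, Finset.sum_sub_distrib, Finset.sum_const,
        Finset.card_univ, nsmul_eq_mul]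
      rw [← hn, hF, Finset.mul_sum]
      congr 1
      congr 1
      refine Finset.sum_congr rfl fun i _ => ?_
      ring
    rw [h1, mul_add, mul_sub, h]
    rw [hFeq]
    ring
  have hle : ∑ i, q i ≤ ∑ i, q i ^ 2 := by
    refine Finset.sum_le_sum fun i _ => ?_
    have : q i ≤ q i ^ 2 := by
      nlinarith [sq_nonneg (q i), sq_nonneg (q i - 1), Int.le_self_sq (q i)]
    exact this
  rw [hqsum] at hle
  have hsq0 : 0 ≤ ∑ i, q i ^ 2 := Finset.sum_nonneg fun i _ => sq_nonneg _
  rcases eq_or_lt_of_le hr0 with hr' | hrpos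
  · -- `r = 0`
    left
    rw [← hr'] at hqsq hFeq
    have h2 : ∑ i, q i ^ 2 = 0 := by
      by_contra hne
      have h3 : 1 ≤ ∑ i, q i ^ 2 := by
        have : 0 < ∑ i, q i ^ 2 := lt_of_le_of_ne hsq0 (Ne.symm hne)
        omega
      nlinarith
    refine ⟨?_, ⟨k', by rw [hFeq]; ring⟩⟩
    rw [h2] at hqsq
    nlinarith
  · right
    have h3 : n * r ≤ r ^ 2 + T := by
      rw [← hqsq]
      exact mul_le_mul_of_nonneg_left hle hnpos.le
    have hTeq : T = n - 1 := by
      have : (r - 1) * (n - 1 - r) ≥ 0 := mul_nonneg (by omega) (by omega)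
      nlinarith
    have h4 : (r - 1) * (n - 1 - r) = 0 := by
      have h5 : (r - 1) * (n - 1 - r) ≥ 0 := mul_nonneg (by omega) (by omega)
      nlinarith
    rcases mul_eq_zero.mp h4 with h5 | h5
    · -- `r = 1`
      have hr1 : r = 1 := by omega
      rw [hr1, hTeq] at hqsq
      have h6 : ∑ i, q i ^ 2 = 1 := by
        have : n * ∑ i, q i ^ 2 = n * 1 := by rw [hqsq]; ring
        exact mul_left_cancel₀ hnpos.ne' this
      obtain ⟨b, hb, hb0⟩ := exists_unique_sq_of_sum_eq_one q h6
      have h7 : q b = 1 := by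
        have h8 : ∑ i, q i = q b := by
          rw [Finset.sum_eq_single b (fun i _ hi => hb0 i hi) (fun h => absurd (Finset.mem_univ _) h)]
        rw [h8, hr1] at hqsum
        exact hqsum
      refine ⟨b, k', 1, Or.inl rfl, fun i => ?_⟩
      by_cases hi : i = b
      · subst hi
        rw [if_pos rfl]
        have : m i - k' = 1 := h7
        omega
      · rw [if_neg hi]
        have : m i - k' = 0 := hb0 i hi
        omega
    · -- `r = n - 1`
      have hr1 : r = n - 1 := by omega
      rw [hr1, hTeq] at hqsq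
      have h6 : ∑ i, q i ^ 2 = n - 1 := by
        have : n * ∑ i, q i ^ 2 = n * (n - 1) := by rw [hqsq]; ring
        exact mul_left_cancel₀ hnpos.ne' this
      let p : ι → ℤ := fun i => 1 - q i
      have hpsum : ∑ i, p i = 1 := by
        simp only [p, Finset.sum_sub_distrib, Finset.sum_const, Finset.card_univ, nsmul_eq_mul]
        rw [hqsum, hr1, ← hn]
        ring
      have hpsq : ∑ i, p i ^ 2 = 1 := by
        have : ∑ i, p i ^ 2 = ∑ i, (1 - 2 * q i + q i ^ 2) := by
          refine Finset.sum_congr rfl fun i _ => ?_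
          simp only [p]
          ring
        rw [this, Finset.sum_add_distrib, Finset.sum_sub_distrib, ← Finset.mul_sum, hqsum, h6, hr1]
        simp only [Finset.sum_const, Finset.card_univ, nsmul_eq_mul, mul_one]
        rw [← hn]
        ring
      obtain ⟨b, hb, hb0⟩ := exists_unique_sq_of_sum_eq_one p hpsq
      have h7 : p b = 1 := by
        have h8 : ∑ i, p i = p b := by
          rw [Finset.sum_eq_single b (fun i _ hi => hb0 i hi) (fun h => absurd (Finset.mem_univ _) h)]
        rw [h8] at hpsum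
        exact hpsum
      refine ⟨b, k' + 1, -1, Or.inr rfl, fun i => ?_⟩
      by_cases hi : i = b
      · subst hi
        rw [if_pos rfl]
        have : 1 - (m i - k') = 1 := h7
        omega
      · rw [if_neg hi]
        have : 1 - (m i - k') = 0 := hb0 i hi
        omega

section Abelian

variable {S : Type u} [Group S] [Fintype S]

/-- A character of an abelian group taking the values `0, ±1` off the identity. -/
theorem abelian_char_dichotomy (hab : ∀ a b : S, a * b = b * a) {f : S → ℂ} (hf : IsCharacter S f)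
    (hval : ∀ x, x ≠ 1 → ∃ w : ℤ, f x = w ∧ (w = 0 ∨ w = 1 ∨ w = -1)) :
    ((∀ x, x ≠ 1 → f x = 0) ∧ ∃ t : ℕ, f 1 = (Nat.card S : ℂ) * (t : ℂ)) ∨
    (∃ (k ε : ℤ) (μ : IrrCharacter S), (ε = 1 ∨ ε = -1) ∧ (∀ x, x ≠ 1 → f x = (ε : ℂ) * (μ : S → ℂ) x) ∧
      f 1 = (k : ℂ) * (Nat.card S : ℂ) + (ε : ℂ)) := by
  classical
  have hlin := (comm_iff_irr_degree_one (G := S)).mp hab
  have hcardι : Fintype.card (IrrCharacter S) = Nat.card S := by
    have h1 := sum_irr_degree_sq (G := S)
    simp only [hlin, one_pow, Finset.sum_const, Finset.card_univ, nsmul_eq_mul, mul_one] at h1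
    exact_mod_cast h1
  obtain ⟨F, hF⟩ := IsCharacter.apply_one hf
  have hm : ∀ l : IrrCharacter S, ∃ m : ℕ, classInner f (l : S → ℂ) = (m : ℂ) := fun l =>
    IsCharacter.classInner_irr_eq_nat hf l.2
  choose m hm using hm
  have hsum : ∀ x, f x = ∑ l : IrrCharacter S, (m l : ℂ) * (l : S → ℂ) x := by
    intro x
    have h1 := congrFun (classFunction_eq_sum f (IsCharacter.isClassFunction hf)) x
    simp only [Finset.sum_apply, Pi.smul_apply, smul_eq_mul, hm] at h1
    exact h1
  have hFsum : ((∑ l : IrrCharacter S, (m l : ℤ)) : ℤ) = F := by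
    have h1 := hsum 1
    simp only [hlin, mul_one] at h1
    rw [hF] at h1
    exact_mod_cast h1.symm
  -- the set of non-vanishing elements
  let X : Finset S := Finset.univ.filter fun x => x ≠ 1 ∧ f x ≠ 0
  have hXcard : (X.card : ℤ) ≤ (Fintype.card (IrrCharacter S) : ℤ) - 1 := by
    have h1 : X ⊆ Finset.univ.erase (1 : S) := by
      intro x hx
      exact Finset.mem_erase.mpr ⟨(Finset.mem_filter.mp hx).2.1, Finset.mem_univ _⟩
    have h2 := Finset.card_le_card h1
    rw [Finset.card_erase_of_mem (Finset.mem_univ _), Finset.card_univ,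
      ← Nat.card_eq_fintype_card, ← hcardι] at h2
    have h3 : 0 < Fintype.card (IrrCharacter S) := by
      rw [hcardι]
      exact Nat.card_pos
    omega
  have hnorm : ((Fintype.card (IrrCharacter S) : ℤ)) * ∑ l : IrrCharacter S, (m l : ℤ) ^ 2 =
      (∑ l : IrrCharacter S, (m l : ℤ)) ^ 2 + X.card := by
    have h1 : classInner f f = ∑ l : IrrCharacter S, ((m l : ℂ) ^ 2) := by
      rw [classInner_eq_sum_coeffs f f (IsCharacter.isClassFunction hf) (IsCharacter.isClassFunction hf)]
      refine Finset.sum_congr rfl fun l _ => ?_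
      rw [hm]
      simp [sq]
    have h2 : ∑ x : S, f x * conj (f x) = (F : ℂ) ^ 2 + (X.card : ℂ) := by
      rw [← Finset.add_sum_erase _ _ (Finset.mem_univ (1 : S)), hF]
      congr 1
      · simp [sq]
      · have h3 : ∀ x ∈ Finset.univ.erase (1 : S), f x * conj (f x) = if f x ≠ 0 then 1 else 0 := by
          intro x hx
          obtain ⟨w, hw, h4⟩ := hval x (Finset.ne_of_mem_erase hx)
          rcases h4 with rfl | rfl | rfl
          · simp [hw]
          · simp [hw]
          · simp [hw]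
        rw [Finset.sum_congr rfl h3, Finset.sum_boole]
        congr 2
        ext x
        simp [X]
    have h4 : (Nat.card S : ℂ) * classInner f f = ∑ x : S, f x * conj (f x) := by
      simp only [classInner]
      have : (Nat.card S : ℂ) ≠ 0 := NeZero.ne _
      field_simp
    rw [h1, h2, ← hcardι] at h4
    have h5 : (((Fintype.card (IrrCharacter S) : ℤ)) * ∑ l : IrrCharacter S, (m l : ℤ) ^ 2 : ℤ) =
        (F : ℤ) ^ 2 + (X.card : ℤ) := by
      exact_mod_cast h4
    rw [hFsum]
    exact h5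
  have hne : Nonempty (IrrCharacter S) := ⟨⟨fun _ => 1, isIrrCharacter_one⟩⟩
  rcases int_vector_dichotomy (fun l : IrrCharacter S => (m l : ℤ)) X.card (by positivity) hXcard hnorm with
    ⟨h1, h2⟩ | ⟨l₀, k, ε, hε, h1⟩
  · left
    refine ⟨fun x hx => ?_, ?_⟩
    · by_contra hfx
      have h3 : x ∈ X := Finset.mem_filter.mpr ⟨Finset.mem_univ _, hx, hfx⟩
      have h4 : X.card = 0 := by exact_mod_cast h1
      rw [Finset.card_eq_zero] at h4
      rw [h4] at h3
      simp at h3
    · rw [hFsum, hcardι] at h2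
      have h3 : Nat.card S ∣ F := by exact_mod_cast h2
      obtain ⟨t, rfl⟩ := h3
      refine ⟨t, ?_⟩
      rw [hF]
      push_cast
      rfl
  · right
    have hexp : ∀ x, f x = (k : ℂ) * ∑ l : IrrCharacter S, (l : S → ℂ) x + (ε : ℂ) * (l₀ : S → ℂ) x := by
      intro x
      rw [hsum, Finset.mul_sum, ← Finset.add_sum_erase _ _ (Finset.mem_univ l₀),
        ← Finset.add_sum_erase (a := l₀) _ (fun l : IrrCharacter S => (k : ℂ) * (l : S → ℂ) x) (Finset.mem_univ l₀)]
      have h3 : ((m l₀ : ℤ) : ℂ) = ((k + ε : ℤ) : ℂ) := by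
        have := h1 l₀
        simp only [if_true] at this
        rw [this]
      have h4 : ∀ l ∈ Finset.univ.erase l₀, (m l : ℂ) * (l : S → ℂ) x = (k : ℂ) * (l : S → ℂ) x := by
        intro l hl
        have h5 := h1 l
        rw [if_neg (Finset.ne_of_mem_erase hl), add_zero] at h5
        have h6 : ((m l : ℤ) : ℂ) = (k : ℂ) := by rw [h5]
        have h7 : ((m l : ℤ) : ℂ) = (m l : ℂ) := by push_cast; rfl
        rw [← h7, h6]
      rw [Finset.sum_congr rfl h4]
      have h7 : ((m l₀ : ℤ) : ℂ) = (m l₀ : ℂ) := by push_cast; rfl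
      rw [← h7, h3]
      push_cast
      ring
    refine ⟨k, ε, l₀, hε, fun x hx => ?_, ?_⟩
    · rw [hexp]
      have h3 := sum_irr_degree_mul_apply (G := S) x
      simp only [hlin, one_mul, if_neg hx] at h3
      rw [h3, mul_zero, zero_add]
    · rw [hexp]
      have h3 := sum_irr_degree_mul_apply (G := S) 1
      simp only [hlin, one_mul, if_true] at h3
      simp only [hlin]
      rw [h3, mul_one]

end Abelian

section Decomp

variable {Γ : Type u} [Group Γ] [Fintype Γ] {G : Subgroup Γ} [hG : G.Normal] [Fintype G] {s : Γ}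

/-- Powers of elements of `⟨s⟩`: the value on `c x` depends only on the Galois class of `x`. -/
theorem power_indep (hgen : Subgroup.zpowers (s : Γ ⧸ G) = ⊤)
    (hcop : Nat.Coprime (orderOf s) (Nat.card G)) {χ : Γ → ℂ} (hχ : IsIrrCharacter Γ χ)
    (hres : IsIrrCharacter G (resFun G χ)) {m : ℕ} (hm : ∀ x, detChar χ x ^ m = 1)
    (hm' : Nat.Coprime G.index m) {c x : Γ} (hc : c ∈ cD G s) (hx : x ∈ Subgroup.zpowers s) {j : ℕ}
    (hj : j.Coprime (orderOf s)) : χ (c * x ^ j) = χ (c * x) := by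
  have hidx := index_dvd_orderOf hgen
  let k := Nat.chineseRemainder hcop j 1
  have hk1 : (k : ℕ) ≡ j [MOD orderOf s] := k.2.1
  have hk2 : (k : ℕ) ≡ 1 [MOD Nat.card G] := k.2.2
  have hkG : ∀ g ∈ G, g ^ (k : ℕ) = g := by
    intro g hg
    have h1 : orderOf g ∣ Nat.card G := Subgroup.orderOf_dvd_natCard G hg
    have h2 : (k : ℕ) ≡ 1 [MOD orderOf g] := hk2.of_dvd h1
    have h3 := pow_eq_pow_iff_modEq.mpr h2
    simpa using h3
  have hk3 : (k : ℕ).Coprime (orderOf s) := by
    have := hk1.gcd_eq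
    rw [Nat.Coprime, this]
    exact hj
  have hk4 : (k : ℕ).Coprime (Nat.card G) := by
    have := hk2.gcd_eq
    rw [Nat.Coprime, this]
    simp
  have hk5 : (k : ℕ).Coprime (Nat.card Γ) := by
    rw [← Subgroup.index_mul_card G]
    exact Nat.Coprime.mul_right (hk3.coprime_dvd_right hidx) hk4
  have hcop' : Nat.Coprime G.index (Nat.card G * m) :=
    Nat.Coprime.mul_right (hcop.coprime_dvd_left hidx) hm'
  have h1 := canonical_pow_eq G hχ hres hm hcop' hk5 hkG (c * x)
  have hcs : Commute c x := by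
    obtain ⟨i, rfl⟩ := Subgroup.mem_zpowers_iff.mp hx
    exact Commute.zpow_right (mem_cD.mp hc).2 i
  have hxo : orderOf x ∣ orderOf s := by
    rw [← Nat.card_zpowers s, ← Nat.card_zpowers x]
    have hle : Subgroup.zpowers x ≤ Subgroup.zpowers s := Subgroup.zpowers_le.mpr hx
    exact Subgroup.card_dvd_of_le hle
  rw [hcs.mul_pow, hkG c (mem_cD.mp hc).1, pow_eq_pow_iff_modEq.mpr (hk1.of_dvd hxo)] at h1
  exact h1

/-- The norm on the coset of an element, in terms of its centralizer. -/
theorem norm_on_coset {x : Γ} (C : Subgroup Γ) [Fintype C] (hC : C = cD G x)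
    (hcop : Nat.Coprime (orderOf x) (Nat.card G)) {χ : Γ → ℂ} (hχ : IsIrrCharacter Γ χ)
    (hres : IsIrrCharacter G (resFun G χ)) :
    ∑ c : C, χ ((c : Γ) * x) * conj (χ ((c : Γ) * x)) = (Nat.card C : ℂ) := by
  subst hC
  have h1 := gallagher_norm G (IsIrrCharacter.isCharacter hχ) hres x
  have h2 := sum_coset_eq (D := G) (s := x) mem_normalizer_of_normal hcop
    (fun y => χ y * conj (χ y)) (by
      intro g _ y
      have := (IsCharacter.isClassFunction (IsIrrCharacter.isCharacter hχ)) y g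
      rw [this])
  simp only [h1] at h2
  have hne : (Nat.card G : ℂ) ≠ 0 := NeZero.ne _
  apply mul_left_cancel₀ hne
  rw [← h2, mul_comm]

/-- Integrality of the coefficients and the norm for an element with the same centralizer. -/
theorem fpf_coeffs [Fintype (cD G s)] [Fintype (Subgroup.zpowers s)]
    (hgen : Subgroup.zpowers (s : Γ ⧸ G) = ⊤)
    (hcop : Nat.Coprime (orderOf s) (Nat.card G)) {χ : Γ → ℂ} (hχ : IsIrrCharacter Γ χ)
    (hres : IsIrrCharacter G (resFun G χ)) {m : ℕ} (hm : ∀ x, detChar χ x ^ m = 1)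
    (hm' : Nat.Coprime G.index m) (ξ : IrrCharacter (cD G s) → Subgroup.zpowers s → ℂ)
    (hξ : ∀ γ, IsCharacter _ (ξ γ))
    (hdec : ∀ (c : cD G s) (t : Subgroup.zpowers s),
        χ ((c : Γ) * t) = ∑ γ : IrrCharacter (cD G s), (γ : cD G s → ℂ) c * ξ γ t)
    (x : Subgroup.zpowers s) (γ : IrrCharacter (cD G s)) : ∃ w : ℤ, ξ γ x = w := by
  apply int_of_isIntegral_of_rat (IsCharacter.isIntegral (hξ γ) x)
  have : NeZero (Nat.card (Subgroup.zpowers s)) := ⟨Nat.card_pos.ne'⟩
  apply rat_of_forall_sigma _ (character_mem_cycField (hξ γ) x)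
  intro σ k hk hσ
  rw [sigma_character (hξ γ) σ k hσ]
  have hk' : k.Coprime (orderOf s) := by
    rwa [Nat.card_zpowers] at hk
  have h1 := classInner_decomp (cD G s) (Subgroup.zpowers s) ξ hdec (x ^ k) γ
  have h2 := classInner_decomp (cD G s) (Subgroup.zpowers s) ξ hdec x γ
  rw [← h1, ← h2]
  congr 1
  funext c
  rw [Subgroup.coe_pow]
  exact power_indep hgen hcop hχ hres hm hm' c.2 x.2 hk'

/-- The squares of the coefficients of `x` sum to one when `x` has the same centralizer as `s`. -/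
theorem fpf_norm [Fintype (cD G s)] [Fintype (Subgroup.zpowers s)]
    (hcop : Nat.Coprime (orderOf s) (Nat.card G)) {χ : Γ → ℂ} (hχ : IsIrrCharacter Γ χ)
    (hres : IsIrrCharacter G (resFun G χ)) (ξ : IrrCharacter (cD G s) → Subgroup.zpowers s → ℂ)
    (hdec : ∀ (c : cD G s) (t : Subgroup.zpowers s),
        χ ((c : Γ) * t) = ∑ γ : IrrCharacter (cD G s), (γ : cD G s → ℂ) c * ξ γ t)
    (x : Subgroup.zpowers s) (hx : cD G s = cD G (x : Γ)) (w : IrrCharacter (cD G s) → ℤ)
    (hw : ∀ γ, ξ γ x = w γ) : ∑ γ : IrrCharacter (cD G s), w γ ^ 2 = 1 := by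
  classical
  have hxo : orderOf (x : Γ) ∣ orderOf s := by
    rw [← Nat.card_zpowers s, ← Nat.card_zpowers (x : Γ)]
    have hle : Subgroup.zpowers (x : Γ) ≤ Subgroup.zpowers s := Subgroup.zpowers_le.mpr x.2
    exact Subgroup.card_dvd_of_le hle
  have hnorm := norm_on_coset (G := G) (x := (x : Γ)) (cD G s) hx (hcop.coprime_dvd_left hxo) hχ hres
  have hdecs : (fun c : cD G s => χ ((c : Γ) * x)) =
      ∑ γ : IrrCharacter (cD G s), (w γ : ℂ) • (γ : cD G s → ℂ) := by
    funext c
    have := hdec c x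
    rw [this, Finset.sum_apply]
    refine Finset.sum_congr rfl fun γ _ => ?_
    rw [hw γ]
    simp [mul_comm]
  have h1 : classInner (fun c : cD G s => χ ((c : Γ) * x)) (fun c : cD G s => χ ((c : Γ) * x)) = 1 := by
    simp only [classInner]
    rw [hnorm]
    have : (Nat.card (cD G s) : ℂ) ≠ 0 := NeZero.ne _
    field_simp
  have h2 : ∀ γ : IrrCharacter (cD G s),
      classInner (fun c : cD G s => χ ((c : Γ) * x)) (γ : cD G s → ℂ) = (w γ : ℂ) := by
    intro γ
    have := classInner_decomp (cD G s) (Subgroup.zpowers s) ξ hdec x γ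
    rw [← hw γ, ← this]
  have h3 : classInner (fun c : cD G s => χ ((c : Γ) * x)) (fun c : cD G s => χ ((c : Γ) * x)) =
      ∑ γ : IrrCharacter (cD G s), (w γ : ℂ) * conj (w γ : ℂ) := by
    conv_lhs => rw [hdecs]
    rw [classInner_sum_left]
    refine Finset.sum_congr rfl fun γ _ => ?_
    rw [classInner_smul_left, classInner_conj_symm, ← hdecs, h2 γ]
  rw [h1] at h3
  have h4 : ∀ γ : IrrCharacter (cD G s), (w γ : ℂ) * conj (w γ : ℂ) = ((w γ ^ 2 : ℤ) : ℂ) := by
    intro γ
    simp [sq]
  simp only [h4] at h3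
  exact_mod_cast h3.symm

end Decomp

end Cfsg.Agent.Lib.H8Group
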