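import Mathlib

/-!
# Groups acting on a Klein four group with quotient of odd order
-/

set_option autoImplicit false
set_option linter.unusedSectionVars false
set_option linter.style.haveILetI false

namespace Cfsg.Agent.Lib.H8Group

open Subgroup

section KleinAct

variable {G : Type*} [Group G] [Finite G] {P T C : Subgroup G}

/-- If all `2`-elements of `T` lie in `C`, an element of `T` with square in `C` lies in `C`. -/
theorem mem_of_mul_self_mem (hreg : ∀ t ∈ T, (∃ k : ℕ, orderOf t = 2 ^ k) → t ∈ C) {g : G} (hg : g ∈ T)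
    (hg2 : g * g ∈ C) : g ∈ C := by
  have hord : orderOf g ≠ 0 := (orderOf_pos g).ne'
  obtain ⟨s, m, hm, hs⟩ := Nat.exists_eq_pow_mul_and_not_dvd hord 2 (by norm_num)
  have hm0 : m ≠ 0 := by
    rintro rfl
    rw [mul_zero] at hs
    exact hord hs
  have h1 : g ^ m ∈ C := by
    apply hreg _ (T.pow_mem hg m)
    refine ⟨s, ?_⟩
    rw [orderOf_pow_of_dvd hm0 ⟨_, by rw [hs, mul_comm]⟩, hs]
    exact Nat.mul_div_cancel _ (Nat.pos_of_ne_zero hm0)
  obtain ⟨c, hc⟩ : ∃ c, m = 2 * c + 1 := by
    have : m % 2 = 1 := by omega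
    exact ⟨m / 2, by omega⟩
  have h2 : g = g ^ m * ((g * g) ^ c)⁻¹ := by
    rw [← pow_two, ← pow_mul, hc, pow_succ]
    group
  rw [h2]
  exact C.mul_mem h1 (C.inv_mem (C.pow_mem hg2 c))

variable (hP : Nat.card P = 4) (hexp : ∀ x ∈ P, x * x = 1) (hab : ∀ x ∈ P, ∀ y ∈ P, x * y = y * x)
  (hTN : T ≤ normalizer (P : Set G))
  (hreg : ∀ t ∈ T, (∃ k : ℕ, orderOf t = 2 ^ k) → t ∈ centralizer (P : Set G))

include hP hexp in
/-- A nonidentity element of `P` and a further element generate `P`. -/
theorem exists_klein_gens {x : G} (hx : x ∈ P) (hx1 : x ≠ 1) :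
    ∃ y ∈ P, y ≠ 1 ∧ y ≠ x ∧ ∀ v ∈ P, v = 1 ∨ v = x ∨ v = y ∨ v = x * y := by
  classical
  have hcard : (P : Set G).ncard = 4 := by
    rw [← hP]
    exact (Nat.card_coe_set_eq (P : Set G)).symm
  obtain ⟨y, hy, hy'⟩ : ∃ y ∈ (P : Set G), y ∉ ({1, x} : Set G) := by
    by_contra h
    push Not at h
    have h1 : (P : Set G) ⊆ {1, x} := h
    have h2 := Set.ncard_le_ncard h1 (Set.toFinite _)
    have h3 : ({1, x} : Set G).ncard ≤ 2 := Set.ncard_insert_le _ _ |>.trans (by simp)
    omega
  simp only [Set.mem_insert_iff, Set.mem_singleton_iff, not_or] at hy'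
  refine ⟨y, hy, hy'.1, hy'.2, ?_⟩
  have hxx := hexp x hx
  have hxy1 : x * y ≠ 1 := fun h => by
    apply hy'.2
    calc y = (x * x) * y := by rw [hxx, one_mul]
      _ = x * (x * y) := mul_assoc _ _ _
      _ = x := by rw [h, mul_one]
  have hxyx : x * y ≠ x := fun h => hy'.1 (mul_eq_left.mp h)
  have hxyy : x * y ≠ y := fun h => hx1 (mul_eq_right.mp h)
  set S : Finset G := {1, x, y, x * y} with hS
  have hScard : S.card = 4 := by
    rw [hS, Finset.card_insert_of_notMem, Finset.card_insert_of_notMem, Finset.card_insert_of_notMem, Finset.card_singleton]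
    · simpa using hxyy.symm
    · simp only [Finset.mem_insert, Finset.mem_singleton, not_or]
      exact ⟨fun h => hy'.2 h.symm, hxyx.symm⟩
    · simp only [Finset.mem_insert, Finset.mem_singleton, not_or]
      exact ⟨hx1.symm, fun h => hy'.1 h.symm, hxy1.symm⟩
  have hsub : (S : Set G) ⊆ (P : Set G) := by
    intro v hv
    simp only [hS, Finset.coe_insert, Finset.coe_singleton, Set.mem_insert_iff, Set.mem_singleton_iff] at hv
    rcases hv with rfl | rfl | rfl | rfl
    · exact P.one_mem
    · exact hx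
    · exact hy
    · exact P.mul_mem hx hy
  have heq := Set.eq_of_subset_of_ncard_le hsub (by
    rw [hcard, Set.ncard_coe_finset, hScard]) (Set.toFinite _)
  intro v hv
  have h1 : v ∈ (S : Set G) := by
    rw [heq]
    exact hv
  simpa [hS] using h1

include hP hexp hTN hreg in
/-- **The action on the nonidentity elements of a Klein four group is free.** -/
theorem klein_free {g : G} (hg : g ∈ T) {x : G} (hx : x ∈ P) (hx1 : x ≠ 1) (hgx : g * x * g⁻¹ = x) :
    g ∈ centralizer (P : Set G) := by
  obtain ⟨y, hy, hy1, hyx, hall⟩ := exists_klein_gens hP hexp hx hx1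
  have hmem : ∀ h : G, h * x * h⁻¹ = x → h * y * h⁻¹ = y → h ∈ centralizer (P : Set G) := by
    intro h hhx hhy
    rw [Subgroup.mem_centralizer_iff]
    have hcx : x * h = h * x := by
      conv_lhs => rw [← hhx]
      group
    have hcy : y * h = h * y := by
      conv_lhs => rw [← hhy]
      group
    intro v hv
    rcases hall v hv with rfl | rfl | rfl | rfl
    · simp
    · exact hcx
    · exact hcy
    · rw [mul_assoc, hcy, ← mul_assoc, hcx, mul_assoc]
  have hgy : g * y * g⁻¹ ∈ P := (Subgroup.mem_normalizer_iff.mp (hTN hg) y).mp hy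
  rcases hall _ hgy with h | h | h | h
  · exfalso
    apply hy1
    have h2 : g * y = g := by
      have := congrArg (· * g) h
      simpa using this
    exact mul_eq_left.mp h2
  · exfalso
    apply hyx
    have h2 : g * y * g⁻¹ = g * x * g⁻¹ := h.trans hgx.symm
    exact mul_left_cancel (mul_right_cancel h2)
  · exact hmem g hgx h
  · apply mem_of_mul_self_mem hreg hg
    apply hmem
    · calc g * g * x * (g * g)⁻¹ = g * (g * x * g⁻¹) * g⁻¹ := by group
        _ = x := by rw [hgx, hgx]
    · have hxx := hexp x hx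
      calc g * g * y * (g * g)⁻¹ = g * (g * y * g⁻¹) * g⁻¹ := by group
        _ = g * (x * y) * g⁻¹ := by rw [h]
        _ = (g * x * g⁻¹) * (g * y * g⁻¹) := by group
        _ = x * (x * y) := by rw [hgx, h]
        _ = y := by rw [← mul_assoc, hxx, one_mul]

include hP hexp hTN hreg in
/-- **The inertial index on a Klein four group.** -/
theorem klein_index :
    (centralizer (P : Set G)).relIndex T = 1 ∨
      ((centralizer (P : Set G)).relIndex T = 3 ∧ ∀ u ∈ P, u ≠ 1 → ∀ v ∈ P, v ≠ 1 → ∃ t ∈ T, t * v * t⁻¹ = u) := by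
  classical
  set C := centralizer (P : Set G) with hC
  -- a nonidentity element
  have hcard : (P : Set G).ncard = 4 := by
    rw [← hP]
    exact (Nat.card_coe_set_eq (P : Set G)).symm
  have hXcard : ((P : Set G) \ {1}).ncard = 3 := by
    rw [Set.ncard_diff_singleton_of_mem (SetLike.mem_coe.mpr P.one_mem), hcard]
  have hindex : ∀ u ∈ P, u ≠ 1 → ∃ O : Set G, O ⊆ (P : Set G) \ {1} ∧ C.relIndex T = O.ncard ∧
      ∀ v ∈ O, ∃ t ∈ T, t * u * t⁻¹ = v := by
    intro u hu hu1
    letI act : MulAction T G :=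
      { smul := fun t g => (t : G) * g * (t : G)⁻¹
        one_smul := by
          intro g
          show ((1 : T) : G) * g * ((1 : T) : G)⁻¹ = g
          simp
        mul_smul := by
          intro a b g
          show ((a * b : T) : G) * g * ((a * b : T) : G)⁻¹ = (a : G) * ((b : G) * g * (b : G)⁻¹) * (a : G)⁻¹
          push_cast
          group }
    have hsmul : ∀ (t : T) (g : G), t • g = (t : G) * g * (t : G)⁻¹ := fun _ _ => rfl
    have hstab : MulAction.stabilizer T u = C.subgroupOf T := by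
      ext t
      rw [MulAction.mem_stabilizer_iff, hsmul, Subgroup.mem_subgroupOf]
      constructor
      · exact fun h => klein_free hP hexp hTN hreg t.2 hu hu1 h
      · intro h
        have h1 := Subgroup.mem_centralizer_iff.mp h u hu
        rw [← h1, mul_inv_cancel_right]
    refine ⟨MulAction.orbit T u, ?_, ?_, ?_⟩
    · rintro _ ⟨t, rfl⟩
      show (t : G) * u * (t : G)⁻¹ ∈ _
      refine ⟨(Subgroup.mem_normalizer_iff.mp (hTN t.2) u).mp hu, ?_⟩
      intro h
      apply hu1
      have h1 : (t : G) * u * (t : G)⁻¹ = 1 := h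
      have h2 : (t : G) * u = t := by
        have := congrArg (· * (t : G)) h1
        simpa using this
      exact mul_eq_left.mp h2
    · rw [Subgroup.relIndex, ← hstab, MulAction.index_stabilizer]
    · rintro _ ⟨t, rfl⟩
      exact ⟨t, t.2, rfl⟩
  -- pick a nonidentity element
  obtain ⟨u₀, hu₀, hu₀1⟩ : ∃ u ∈ P, u ≠ 1 := by
    by_contra h
    push Not at h
    have h1 : P = ⊥ := (Subgroup.eq_bot_iff_forall P).mpr h
    rw [h1] at hP
    simp at hP
  obtain ⟨O, hOX, hOe, -⟩ := hindex u₀ hu₀ hu₀1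
  have hle3 : C.relIndex T ≤ 3 := by
    rw [hOe, ← hXcard]
    exact Set.ncard_le_ncard hOX (Set.toFinite _)
  have hne0 : C.relIndex T ≠ 0 := by
    rw [Subgroup.relIndex]
    exact Subgroup.index_ne_zero_of_finite
  have hne2 : C.relIndex T ≠ 2 := by
    intro h2
    have h3 : ∀ t : T, t * t ∈ C.subgroupOf T := Subgroup.mul_self_mem_of_index_two h2
    have h4 : T ≤ C := by
      intro t ht
      apply mem_of_mul_self_mem hreg ht
      have := h3 ⟨t, ht⟩
      exact Subgroup.mem_subgroupOf.mp this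
    have h5 : C.relIndex T = 1 := Subgroup.relIndex_eq_one.mpr h4
    omega
  have hcases : C.relIndex T = 1 ∨ C.relIndex T = 3 := by omega
  rcases hcases with h1 | h3
  · exact Or.inl h1
  · refine Or.inr ⟨h3, fun u hu hu1 v hv hv1 => ?_⟩
    obtain ⟨O', hOX', hOe', hO'⟩ := hindex u hu hu1
    have heq : O' = (P : Set G) \ {1} := Set.eq_of_subset_of_ncard_le hOX' (by
      rw [hXcard, ← hOe', h3]) (Set.toFinite _)
    obtain ⟨t, ht, htv⟩ := hO' v (by
      rw [heq]
      exact ⟨hv, hv1⟩)
    refine ⟨t⁻¹, T.inv_mem ht, ?_⟩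
    rw [← htv]
    group

end KleinAct

end Cfsg.Agent.Lib.H8Group
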