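import Cfsg.Agent.Lib.H8Group.MajorRows
import Cfsg.Agent.Lib.H8Group.KleinAct

/-!
# The column of a subsection of order two with a block of rank one
-/

set_option autoImplicit false
set_option linter.unusedSectionVars false
set_option linter.style.haveILetI false

namespace Cfsg.Agent.Lib.H8Group

open Cfsg Cfsg.Agent.Lib.Char Cfsg.Agent.Lib.Blocks
open scoped ComplexConjugate

universe u

section Form

variable {G : Type u} [Group G] [Fintype G] {M : Ideal AlgInt} {p : ℕ} [hp : Fact p.Prime]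

/-- **In a block of rank one the matrix is a tensor square.** -/
theorem exists_blockT_eq_mul (hM : IsPModular p M) {B : Set (IrrCharacter G)} (hB : IsPBlock M B)
    (hl : blockRank p B = 1) :
    ∃ d : IrrCharacter G → ℤ, ∀ χ ∈ B, ∀ ψ ∈ B, blockT p B χ ψ = d χ * d ψ := by
  classical
  have := isPrime_of_modular hM
  have hpp : p.Prime := hp.out
  obtain ⟨χ₀, hχ₀, h00⟩ := exists_height_zero (p := p) (IsPBlock.nonempty hB)
  set S := Finset.univ.filter (· ∈ B) with hS
  have hmemS : ∀ χ, χ ∈ S ↔ χ ∈ B := fun χ => by simp [hS]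
  set t : IrrCharacter G → ℤ := fun χ => blockT p B χ₀ χ with ht
  set s : ℤ := t χ₀ with hs
  have hspos : 0 < s := blockT_self_pos hM hB hχ₀
  have hsC : (s : ℂ) ≠ 0 := by exact_mod_cast hspos.ne'
  have hPd : ((p ^ blockDefect p B : ℕ) : ℂ) ≠ 0 := by exact_mod_cast pow_ne_zero _ hpp.ne_zero
  -- the scalars
  have hr : ∀ χ ∈ B, pRegularPart p (χ : G → ℂ) = ((t χ : ℂ) / s) • pRegularPart p (χ₀ : G → ℂ) := by
    intro χ hχ
    obtain ⟨c, hc⟩ := exists_smul_of_rank_one hl hχ₀ hχ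
    have h1 := pow_defect_mul_classInner hM hB hχ χ₀
    rw [hc, classInner_smul_left, mul_left_comm, pow_defect_mul_classInner hM hB hχ₀, blockT_symm B χ χ₀] at h1
    have h2 : c = (t χ : ℂ) / s := by
      rw [eq_div_iff hsC]
      exact h1
    rw [hc, h2]
  have hTmul : ∀ χ ∈ B, ∀ ψ, s * blockT p B χ ψ = t χ * t ψ := by
    intro χ hχ ψ
    have h1 := pow_defect_mul_classInner hM hB hχ ψ
    rw [hr χ hχ, classInner_smul_left, mul_left_comm, pow_defect_mul_classInner hM hB hχ₀] at h1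
    have h2 : (s : ℂ) * (blockT p B χ ψ : ℂ) = (t χ : ℂ) * (t ψ : ℂ) := by
      rw [← h1]
      field_simp
      rfl
    exact_mod_cast h2
  have htpos : ∀ χ ∈ B, 0 < t χ := by
    intro χ hχ
    have h1 := congrFun (hr χ hχ) 1
    have hreg : ¬ p ∣ orderOf (1 : G) := by
      rw [orderOf_one]
      exact hpp.one_lt.ne' ∘ Nat.dvd_one.mp
    rw [pRegularPart_of_not_dvd _ hreg, Pi.smul_apply, pRegularPart_of_not_dvd _ hreg, irr_one_eq, irr_one_eq,
      smul_eq_mul] at h1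
    have h2 : (s : ℂ) * (charDegree (χ : G → ℂ) : ℂ) = (t χ : ℂ) * (charDegree (χ₀ : G → ℂ) : ℂ) := by
      rw [h1]
      field_simp
    have h3 : s * (charDegree (χ : G → ℂ) : ℤ) = t χ * (charDegree (χ₀ : G → ℂ) : ℤ) := by exact_mod_cast h2
    have h4 : 0 < s * (charDegree (χ : G → ℂ) : ℤ) := mul_pos hspos (by exact_mod_cast charDegree_pos χ.2)
    rw [h3] at h4
    exact (pos_iff_pos_of_mul_pos h4).mpr (by exact_mod_cast charDegree_pos χ₀.2)
  -- Bezout
  obtain ⟨g, a, hbez, hgdvd⟩ := exists_bezout_finset S t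
  have hgpos : 0 < g := by
    rcases Nat.eq_zero_or_pos g with h | h
    · have h1 := hgdvd χ₀ ((hmemS _).mpr hχ₀)
      rw [h] at h1
      simp only [Nat.cast_zero, zero_dvd_iff] at h1
      exact absurd h1 hspos.ne'
    · exact h
  have hgC : (g : ℂ) ≠ 0 := by exact_mod_cast hgpos.ne'
  have hgZ : (g : ℤ) ≠ 0 := by exact_mod_cast hgpos.ne'
  set dI : IrrCharacter G → ℤ := fun χ => t χ / g with hdI
  have htd : ∀ χ ∈ B, t χ = g * dI χ := fun χ hχ =>
    (Int.mul_ediv_cancel' (hgdvd χ ((hmemS _).mpr hχ))).symm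
  have hdIpos : ∀ χ ∈ B, 0 < dI χ := by
    intro χ hχ
    have h1 := htpos χ hχ
    rw [htd χ hχ] at h1
    exact (pos_iff_pos_of_mul_pos h1).mp (by exact_mod_cast hgpos)
  have hsum1 : ∑ χ ∈ S, a χ * dI χ = 1 := by
    apply mul_left_cancel₀ hgZ
    have h1 : (g : ℤ) * ∑ χ ∈ S, a χ * dI χ = ∑ χ ∈ S, a χ * t χ := by
      rw [Finset.mul_sum]
      refine Finset.sum_congr rfl fun χ hχ => ?_
      rw [htd χ ((hmemS _).mp hχ)]
      ring
    rw [h1, hbez, mul_one]
  -- the scalar `c`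
  set c : ℤ := ∑ χ ∈ S, ∑ ψ ∈ S, a χ * a ψ * blockT p B χ ψ with hc
  have hsc : s * c = g ^ 2 := by
    have h1 : s * c = ∑ χ ∈ S, ∑ ψ ∈ S, a χ * a ψ * (t χ * t ψ) := by
      rw [hc, Finset.mul_sum]
      refine Finset.sum_congr rfl fun χ hχ => ?_
      rw [Finset.mul_sum]
      refine Finset.sum_congr rfl fun ψ _ => ?_
      rw [← hTmul χ ((hmemS _).mp hχ) ψ]
      ring
    rw [h1]
    have h2 : ∑ χ ∈ S, ∑ ψ ∈ S, a χ * a ψ * (t χ * t ψ) = (∑ χ ∈ S, a χ * t χ) * ∑ ψ ∈ S, a ψ * t ψ := by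
      rw [Finset.sum_mul]
      refine Finset.sum_congr rfl fun χ _ => ?_
      rw [Finset.mul_sum]
      refine Finset.sum_congr rfl fun ψ _ => ?_
      ring
    rw [h2, hbez]
    ring
  have hTc : ∀ χ ∈ B, ∀ ψ ∈ B, blockT p B χ ψ = c * (dI χ * dI ψ) := by
    intro χ hχ ψ hψ
    apply mul_left_cancel₀ hspos.ne'
    rw [hTmul χ hχ ψ, htd χ hχ, htd ψ hψ, ← mul_assoc s, hsc]
    ring
  have hd0pos := hdIpos χ₀ hχ₀
  have hsdef : s = c * (dI χ₀ * dI χ₀) := hTc χ₀ hχ₀ χ₀ hχ₀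
  have hcpos : 0 < c := by
    rw [hsdef] at hspos
    exact (pos_iff_pos_of_mul_pos hspos).mpr (mul_pos hd0pos hd0pos)
  have hpc : ¬ (p : ℤ) ∣ c := by
    intro h
    apply not_dvd_blockT_self hM hB hχ₀ h00 hχ₀ h00
    have : blockT p B χ₀ χ₀ = s := rfl
    rw [this, hsdef]
    exact Dvd.dvd.mul_right h _
  -- the sum of squares
  have hrow : ∑ ψ ∈ S, t ψ * t ψ = (p ^ blockDefect p B : ℕ) * s := by
    have h1 := sum_blockT_mul hM hB hχ₀ hχ₀
    rw [← Finset.sum_filter_add_sum_filter_not Finset.univ (fun ψ : IrrCharacter G => ψ ∈ B)] at h1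
    have h2 : ∑ ψ ∈ Finset.univ.filter (fun ψ : IrrCharacter G => ¬ ψ ∈ B),
        blockT p B χ₀ ψ * blockT p B χ₀ ψ = 0 := by
      refine Finset.sum_eq_zero fun ψ hψ => ?_
      rw [blockT_eq_zero_of_notMem hM hB hχ₀ (Finset.mem_filter.mp hψ).2, mul_zero]
    rw [h2, add_zero] at h1
    exact h1
  have hcsum : c * ∑ ψ ∈ S, dI ψ ^ 2 = (p ^ blockDefect p B : ℕ) := by
    have h1 : ∑ ψ ∈ S, t ψ * t ψ = (c * (dI χ₀ * dI χ₀)) * (c * ∑ ψ ∈ S, dI ψ ^ 2) := by
      rw [Finset.mul_sum, Finset.mul_sum]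
      refine Finset.sum_congr rfl fun ψ hψ => ?_
      have h2 : t ψ = c * (dI χ₀ * dI ψ) := hTc χ₀ hχ₀ ψ ((hmemS _).mp hψ)
      rw [h2]
      ring
    rw [h1, ← hsdef, mul_comm s] at hrow
    exact mul_right_cancel₀ hspos.ne' hrow
  have hcone : c = 1 := by
    have h1 : (c.toNat : ℤ) = c := Int.toNat_of_nonneg hcpos.le
    have h2 : c.toNat ∣ p ^ blockDefect p B := by
      have h3 : (c.toNat : ℤ) ∣ ((p ^ blockDefect p B : ℕ) : ℤ) := by
        rw [h1, ← hcsum]
        exact dvd_mul_right _ _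
      exact_mod_cast h3
    obtain ⟨i, hi, h3⟩ := (Nat.dvd_prime_pow hpp).mp h2
    have h4 : i = 0 := by
      by_contra h0
      apply hpc
      rw [← h1, h3]
      push_cast
      exact dvd_pow_self _ h0
    rw [h4, pow_zero] at h3
    rw [← h1, h3]
    rfl
  exact ⟨dI, fun χ hχ ψ hψ => by rw [hTc χ hχ ψ hψ, hcone, one_mul]⟩

end Form

section Column

variable {G : Type u} [Group G] [Fintype G] {M : Ideal AlgInt} {p : ℕ} [hp : Fact p.Prime]
variable {H : Subgroup G} [Fintype H] {x : H}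

open scoped Classical

/-- **The column of a subsection of order two in a block of rank one.**  The integers `z χ` satisfy
`∑ z² = p ^ d`, and the entries at height zero are prime to `p`. -/
theorem exists_column_of_rank_one (hM : IsPModular p M) (hH : ∀ w : G, w ∈ H ↔ Commute w (x : G))
    (hxp : ∃ k, orderOf (x : G) = p ^ k) (hx2 : x ^ 2 = 1)
    {b : Set (IrrCharacter H)} {B : Set (IrrCharacter G)} (hind : IsInducedBlock M H b B) (hl : blockRank p b = 1) :
    ∃ z : IrrCharacter G → ℤ, ∑ χ ∈ Finset.univ.filter (· ∈ B), z χ ^ 2 = ((p ^ blockDefect p b : ℕ) : ℤ) ∧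
      ∀ χ ∈ B, blockHeight p B (χ : G → ℂ) = 0 → ¬ (p : ℤ) ∣ z χ := by
  have hpp : p.Prime := hp.out
  have := isPrime_of_modular hM
  obtain ⟨d, hd⟩ := exists_blockT_eq_mul hM hind.1 hl
  set t : {ψ : IrrCharacter H // ψ ∈ b} → ℤ := fun i => d i with ht
  have hT : tMat p b = fun i i' => t i * t i' := by
    funext i i'
    exact hd i i.2 i' i'.2
  -- the scalars are integers
  have hs : ∀ i : {ψ : IrrCharacter H // ψ ∈ b}, ∃ s : ℤ, scalarAt (i : IrrCharacter H) x = (s : ℂ) := by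
    intro i
    have h1 := scalarAt_pow_eq_one (i : IrrCharacter H) (central_x hH) hx2
    have h2 : (scalarAt (i : IrrCharacter H) x - 1) * (scalarAt (i : IrrCharacter H) x + 1) = 0 := by
      linear_combination h1
    rcases mul_eq_zero.mp h2 with h | h
    · refine ⟨1, ?_⟩
      push_cast
      linear_combination h
    · refine ⟨-1, ?_⟩
      push_cast
      linear_combination h
  choose s hs using hs
  set z : IrrCharacter G → ℤ := fun χ => ∑ i : {ψ : IrrCharacter H // ψ ∈ b}, (resMul H χ i : ℤ) * s i * t i with hz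
  have hzC : ∀ χ : IrrCharacter G, ((z χ : ℤ) : ℂ) = ∑ i, rowD b χ x 1 i * (t i : ℂ) := by
    intro χ
    simp only [hz, rowD, pow_one, hs]
    push_cast
    rfl
  have hhq : ∀ χ : IrrCharacter G, hq (tMat p b) (rowD b χ x 1) = ((z χ ^ 2 : ℤ) : ℂ) := by
    intro χ
    rw [hT, hq_tensor, ← hzC, Complex.norm_intCast]
    rw [sq_abs]
    push_cast
    rfl
  refine ⟨z, ?_, ?_⟩
  · have h1 := sum_hq_tMat hM hH hxp hind (j := 1) (fun h => hpp.one_lt.ne' (Nat.dvd_one.mp h))
    rw [hl] at h1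
    have h2 : ((∑ χ ∈ Finset.univ.filter (· ∈ B), z χ ^ 2 : ℤ) : ℂ) = (((p ^ blockDefect p b : ℕ) : ℤ) : ℂ) := by
      rw [Int.cast_natCast]
      have h3 : ((p ^ blockDefect p b : ℕ) : ℂ) = ((p ^ blockDefect p b : ℕ) : ℂ) * ((1 : ℕ) : ℂ) := by simp
      rw [h3, ← h1, Int.cast_sum, Finset.sum_filter]
      refine Finset.sum_congr rfl fun χ _ => ?_
      by_cases hχ : χ ∈ B
      · rw [if_pos hχ, indic_apply_of_mem hχ, one_mul, hhq]
      · rw [if_neg hχ, indic_apply_of_notMem hχ, zero_mul]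
    exact_mod_cast h2
  · intro χ hχ h0 hdvd
    obtain ⟨n, hn⟩ := exists_degF_not_dvd (p := p) (IsPBlock.nonempty hind.1)
    apply rowR_not_mem hM hH hxp hind hn hχ h0
    have h1 : rowR (p := p) b χ x 1 n = (((∑ ξ, n ξ * t ξ) * z χ : ℤ) : ℂ) := by
      rw [Int.cast_mul, hzC, rowR, Finset.mul_sum]
      refine Finset.sum_congr rfl fun i _ => ?_
      have h2 : tVec (p := p) b n i = (∑ ξ, n ξ * t ξ) * t i := by
        rw [tVec, Finset.sum_mul]
        refine Finset.sum_congr rfl fun ξ _ => ?_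
        rw [hT]
        show n ξ * (t i * t ξ) = n ξ * t ξ * t i
        ring
      rw [h2]
      push_cast
      ring
    rw [h1, intCast_memLocalIdeal_iff hM]
    exact Dvd.dvd.mul_left hdvd _

end Column

section Count

/-- A sum of four squares with an odd entry. -/
theorem four_le_card_of_sum_sq {ι : Type*} [DecidableEq ι] (S : Finset ι) (z : ι → ℤ) (hsum : ∑ i ∈ S, z i ^ 2 = 4) {i₀ : ι}
    (hi₀ : i₀ ∈ S) (hodd : ¬ (2 : ℤ) ∣ z i₀) : 4 ≤ S.card := by
  have hnn : ∀ i ∈ S, 0 ≤ z i ^ 2 := fun i _ => sq_nonneg _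
  have h0 : z i₀ ≠ 0 := fun h => hodd (h ▸ dvd_zero _)
  have h1 : 1 ≤ z i₀ ^ 2 := by
    have : 0 < z i₀ ^ 2 := by positivity
    omega
  have hle : ∀ i ∈ S, z i ^ 2 ≤ 1 := by
    intro i hi
    by_cases h : i = i₀
    · subst h
      have h2 : z i ^ 2 ≤ 4 := by
        rw [← hsum]
        exact Finset.single_le_sum hnn hi
      have h3 : -2 ≤ z i := by nlinarith
      have h4 : z i ≤ 2 := by nlinarith
      have h5 : z i = -1 ∨ z i = 1 := by
        have : z i ≠ -2 := fun h => hodd (by rw [h]; norm_num)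
        have : z i ≠ 2 := fun h => hodd (by rw [h])
        omega
      rcases h5 with h5 | h5 <;> rw [h5] <;> norm_num
    · have h2 : z i ^ 2 + z i₀ ^ 2 ≤ 4 := by
        rw [← hsum, ← Finset.sum_pair (f := fun j => z j ^ 2) h]
        refine Finset.sum_le_sum_of_subset_of_nonneg ?_ (fun j hj _ => hnn j hj)
        intro j hj
        simp only [Finset.mem_insert, Finset.mem_singleton] at hj
        rcases hj with rfl | rfl <;> assumption
      have h3 : z i ^ 2 ≤ 3 := by omega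
      have h4 : -1 ≤ z i := by nlinarith
      have h5 : z i ≤ 1 := by nlinarith
      nlinarith
  have h2 : (4 : ℤ) ≤ S.card := by
    calc (4 : ℤ) = ∑ i ∈ S, z i ^ 2 := hsum.symm
      _ ≤ ∑ _i ∈ S, 1 := Finset.sum_le_sum hle
      _ = S.card := by simp
  exact_mod_cast h2

variable {G : Type u} [Group G] [Fintype G] {M : Ideal AlgInt}
variable {H : Subgroup G} [Fintype H] {x : H}

open scoped Classical

/-- **A block with a major subsection of order two, of rank one and defect two, has at least four characters.** -/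
theorem four_le_card_of_rank_one (hM : IsPModular 2 M) (hH : ∀ w : G, w ∈ H ↔ Commute w (x : G))
    (hx2 : x ^ 2 = 1) {b : Set (IrrCharacter H)} {B : Set (IrrCharacter G)} (hind : IsInducedBlock M H b B)
    (hl : blockRank 2 b = 1) (hdef : blockDefect 2 b = 2) : 4 ≤ Nat.card B := by
  have := isPrime_of_modular hM
  have hxp : ∃ k, orderOf (x : G) = 2 ^ k := by
    have h1 : (x : G) ^ 2 = 1 := by exact_mod_cast congrArg Subtype.val hx2
    have h2 : orderOf (x : G) ∣ 2 ^ 1 := orderOf_dvd_of_pow_eq_one h1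
    obtain ⟨i, -, hi⟩ := (Nat.dvd_prime_pow Nat.prime_two).mp h2
    exact ⟨i, hi⟩
  obtain ⟨z, hz1, hz2⟩ := exists_column_of_rank_one hM hH hxp hx2 hind hl
  obtain ⟨χ₀, hχ₀, h00⟩ := exists_height_zero (p := 2) (IsPBlock.nonempty hind.2.1)
  rw [natCard_block_eq]
  refine four_le_card_of_sum_sq _ z ?_ (Finset.mem_filter.mpr ⟨Finset.mem_univ _, hχ₀⟩) ?_
  · rw [hz1, hdef]
    norm_num
  · exact_mod_cast hz2 χ₀ hχ₀ h00

end Count

end Cfsg.Agent.Lib.H8Group
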