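import Mathlib
import Cfsg.Agent.Lib.BT.Reduce

/-! A simple group of order `7920`: the Sylow `11`-subgroups are self-centralizing, with `144` of them. -/

set_option autoImplicit false
set_option linter.unusedSectionVars false
set_option linter.unusedVariables false

namespace Cfsg.Agent.Lib.H8Group.M11

open Cfsg Cfsg.Agent.Lib.Char Cfsg.Agent.Lib.Blocks Cfsg.Agent.Lib.BT Subgroup MulAction

universe u

/-- An involution: its support has even size and its sign is determined. -/
theorem perm_involution {α : Type*} [Fintype α] [DecidableEq α] (σ : Equiv.Perm α) (h : σ ^ 2 = 1) :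
    ∃ k : ℕ, σ.support.card = 2 * k ∧ Equiv.Perm.sign σ = (-1) ^ k := by
  have h2 : ∀ n ∈ σ.cycleType, n = 2 := by
    intro n hn
    have h3 := Equiv.Perm.dvd_of_mem_cycleType hn
    have h4 := Equiv.Perm.two_le_of_mem_cycleType hn
    have h5 : orderOf σ ∣ 2 := orderOf_dvd_of_pow_eq_one h
    have h6 : n ∣ 2 := h3.trans h5
    have := Nat.le_of_dvd (by norm_num) h6
    omega
  have h3 : σ.cycleType = Multiset.replicate (Multiset.card σ.cycleType) 2 :=
    Multiset.eq_replicate_card.mpr h2
  refine ⟨Multiset.card σ.cycleType, ?_, ?_⟩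
  · rw [← Equiv.Perm.sum_cycleType, h3]
    simp [mul_comm]
  · rw [Equiv.Perm.sign_of_cycleType, h3]
    simp only [Multiset.sum_replicate, Multiset.card_replicate, smul_eq_mul]
    have h4 : ∀ k : ℕ, ((-1 : ℤˣ)) ^ (k * 2 + k) = (-1) ^ k := by
      intro k
      rw [pow_add, pow_mul]
      simp
    exact h4 _

variable {G : Type u} [Group G] [Fintype G] [IsSimpleGroup G]

instance fact11 : Fact (Nat.Prime 11) := ⟨by norm_num⟩
instance fact5 : Fact (Nat.Prime 5) := ⟨by norm_num⟩

/-- An element fixing all the Sylow subgroups is trivial. -/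
theorem eq_one_of_fix_all {p : ℕ} [hp : Fact p.Prime] (P : Sylow p G) (hne : (P : Subgroup G) ≠ ⊥) (hnt : (P : Subgroup G) ≠ ⊤)
    {t : G} (ht : ∀ Q : Sylow p G, t • Q = Q) : t = 1 := by
  classical
  let f := MulAction.toPermHom G (Sylow p G)
  rcases IsSimpleGroup.eq_bot_or_eq_top_of_normal f.ker inferInstance with h | h
  · have h1 : t ∈ f.ker := by
      rw [MonoidHom.mem_ker]
      ext Q : 1
      exact ht Q
    rw [h] at h1
    exact (Subgroup.mem_bot.mp h1)
  · exfalso
    have h1 : ((P : Subgroup G)).Normal := by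
      have h2 : normalizer ((P : Subgroup G) : Set G) = ⊤ := by
        rw [eq_top_iff]
        intro g _
        have h3 : g ∈ f.ker := by rw [h]; trivial
        rw [MonoidHom.mem_ker] at h3
        have h4 : g • P = P := by
          have h5 := congrArg (fun σ : Equiv.Perm (Sylow p G) => σ P) h3
          exact h5
        exact Sylow.smul_eq_iff_mem_normalizer.mp h4
      exact Subgroup.normalizer_eq_top_iff.mp h2
    rcases IsSimpleGroup.eq_bot_or_eq_top_of_normal _ h1 with h2 | h2
    · exact hne h2
    · exact hnt h2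

theorem card_fix_modEq {p : ℕ} [hp : Fact p.Prime] (P : Sylow p G) {t : G} (ht : t ∈ centralizer ((P : Subgroup G) : Set G)) :
    Nat.card {Q : Sylow p G // t • Q = Q} ≡ 1 [MOD p] := by
  classical
  have hPp : IsPGroup p (P : Subgroup G) := P.isPGroup'
  have hcomm : ∀ c ∈ (P : Subgroup G), t * c = c * t := by
    intro c hc
    exact (mem_centralizer_iff.mp ht c hc).symm
  let S : SubMulAction (P : Subgroup G) (Sylow p G) :=
    { carrier := {Q | t • Q = Q}
      smul_mem' := by
        intro c Q hQ
        have h1 : t • Q = Q := hQ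
        show t • (c • Q) = c • Q
        have h2 : t • (c • Q) = ((c : G) * t) • Q := by
          rw [← hcomm c c.2, mul_smul]
          rfl
        rw [h2, mul_smul, h1]
        rfl }
  have h := hPp.card_modEq_card_fixedPoints S
  have hPfix : t • P = P := by
    apply Sylow.smul_eq_iff_mem_normalizer.mpr
    exact centralizer_le_normalizer _ ht
  have hfix : Nat.card (fixedPoints (P : Subgroup G) S) = 1 := by
    have hP0 : P ∈ S := hPfix
    have hP1 : (⟨P, hP0⟩ : S) ∈ fixedPoints (P : Subgroup G) S := by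
      intro c
      apply Subtype.ext
      have h3 : P ∈ fixedPoints (P : Subgroup G) (Sylow p G) := (hPp.sylow_mem_fixedPoints_iff).mpr le_rfl
      exact h3 c
    rw [Nat.card_eq_one_iff_unique]
    refine ⟨⟨?_⟩, ⟨⟨⟨P, hP0⟩, hP1⟩⟩⟩
    rintro ⟨⟨Q, hQ⟩, hQf⟩ ⟨⟨R, hR⟩, hRf⟩
    have hQ1 : Q = P := by
      have h3 : Q ∈ fixedPoints (P : Subgroup G) (Sylow p G) := by
        intro c
        exact congrArg Subtype.val (hQf c)
      have h4 := (hPp.sylow_mem_fixedPoints_iff).mp h3
      exact Sylow.ext (P.is_maximal' Q.isPGroup' h4)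
    have hR1 : R = P := by
      have h3 : R ∈ fixedPoints (P : Subgroup G) (Sylow p G) := by
        intro c
        exact congrArg Subtype.val (hRf c)
      have h4 := (hPp.sylow_mem_fixedPoints_iff).mp h3
      exact Sylow.ext (P.is_maximal' R.isPGroup' h4)
    subst hQ1
    subst hR1
    rfl
  rw [hfix] at h
  exact h

theorem card_fix_add {X : Type*} [Fintype X] [DecidableEq X] [MulAction G X] (t : G) :
    Nat.card {Q : X // t • Q = Q} + ((MulAction.toPerm t : Equiv.Perm X).support).card = Nat.card X := by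
  classical
  rw [Nat.card_eq_fintype_card, Nat.card_eq_fintype_card, Fintype.card_subtype]
  have h1 := Finset.card_filter_add_card_filter_not (s := (Finset.univ : Finset X)) (fun Q => t • Q = Q)
  rw [Finset.card_univ] at h1
  rw [← h1]
  congr 2

/-- The sign of a permutation action of a perfect group is trivial. -/
theorem sign_eq_one {X : Type*} [Fintype X] [DecidableEq X] [MulAction G X] (hperf : commutator G = ⊤) (t : G) :
    Equiv.Perm.sign (MulAction.toPerm t : Equiv.Perm X) = 1 := by
  let φ : G →* ℤˣ := (Equiv.Perm.sign : Equiv.Perm X →* ℤˣ).comp (MulAction.toPermHom G X)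
  have h1 : commutator G ≤ φ.ker := by
    rw [commutator_def, Subgroup.commutator_le]
    intro a _ b _
    rw [MonoidHom.mem_ker, map_commutatorElement, commutatorElement_eq_one_iff_mul_comm]
    exact mul_comm _ _
  rw [hperf] at h1
  have h2 : t ∈ φ.ker := h1 trivial
  exact h2

theorem card_sylow11 (hG : Nat.card G = 7920) (P : Sylow 11 G) : Nat.card (P : Subgroup G) = 11 := by
  rw [Sylow.card_eq_multiplicity, hG]
  have h1 : (7920 : ℕ) = 11 * 720 := by norm_num
  rw [h1, Nat.factorization_mul (by norm_num) (by norm_num), Finsupp.add_apply,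
    Nat.Prime.factorization_self (by norm_num), Nat.factorization_eq_zero_of_not_dvd (by norm_num)]
  norm_num

/-- An element of order two centralizing `P`, with `n` odd or even. -/
theorem invol_count [Fintype (Sylow 11 G)] [DecidableEq (Sylow 11 G)] (P : Sylow 11 G) {t : G} (ht : t ∈ centralizer ((P : Subgroup G) : Set G)) (h2 : t ^ 2 = 1) :
    ∃ k f : ℕ, Nat.card {Q : Sylow 11 G // t • Q = Q} = f ∧ f + 2 * k = Nat.card (Sylow 11 G) ∧ f % 11 = 1 ∧
      Equiv.Perm.sign (MulAction.toPerm t : Equiv.Perm (Sylow 11 G)) = (-1) ^ k := by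
  have hσ : (MulAction.toPerm t : Equiv.Perm (Sylow 11 G)) ^ 2 = 1 := by
    have := map_pow (MulAction.toPermHom G (Sylow 11 G)) t 2
    rw [h2, map_one] at this
    exact this.symm
  obtain ⟨k, hk, hs⟩ := perm_involution _ hσ
  have h3 := card_fix_add (X := Sylow 11 G) t
  have h4 := card_fix_modEq P ht
  refine ⟨k, _, rfl, ?_, h4, hs⟩
  rw [← h3, hk]

theorem no_invol_of_twelve (hG : Nat.card G = 7920) (P : Sylow 11 G) (hn : Nat.card (Sylow 11 G) = 12)
    {t : G} (ht : t ∈ centralizer ((P : Subgroup G) : Set G)) (h2 : t ^ 2 = 1) : t = 1 := by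
  classical
  letI : Fintype (Sylow 11 G) := Fintype.ofFinite _
  obtain ⟨k, f, hf, hk, hm, hs⟩ := invol_count P ht h2
  have hP := card_sylow11 hG P
  have hne : (P : Subgroup G) ≠ ⊥ := by
    intro h0
    rw [h0] at hP
    simp at hP
  have hnt : (P : Subgroup G) ≠ ⊤ := by
    intro h0
    rw [h0, Subgroup.card_top, hG] at hP
    omega
  have hf12 : f = 12 := by omega
  have hfix : ∀ Q : Sylow 11 G, t • Q = Q := by
    intro Q
    by_contra hQ
    have h3 : Nat.card {Q : Sylow 11 G // t • Q = Q} < Nat.card (Sylow 11 G) := by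
      rw [Nat.card_eq_fintype_card, Nat.card_eq_fintype_card]
      exact Fintype.card_subtype_lt hQ
    omega
  exact eq_one_of_fix_all P hne hnt hfix

/-- In the case of `45` Sylow subgroups, an involution centralizing `P` fixes only `P`. -/
theorem invol_fix_of_45 (hG : Nat.card G = 7920) (hperf : commutator G = ⊤) (P : Sylow 11 G) (hn : Nat.card (Sylow 11 G) = 45)
    {t : G} (ht : t ∈ centralizer ((P : Subgroup G) : Set G)) (h2 : t ^ 2 = 1) (ht1 : t ≠ 1) :
    ∀ Q : Sylow 11 G, t • Q = Q → Q = P := by
  classical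
  letI : Fintype (Sylow 11 G) := Fintype.ofFinite _
  obtain ⟨k, f, hf, hk, hm, hs⟩ := invol_count P ht h2
  have hP := card_sylow11 hG P
  have hne : (P : Subgroup G) ≠ ⊥ := by
    intro h0
    rw [h0] at hP
    simp at hP
  have hnt : (P : Subgroup G) ≠ ⊤ := by
    intro h0
    rw [h0, Subgroup.card_top, hG] at hP
    omega
  have hPfix : t • P = P := by
    apply Sylow.smul_eq_iff_mem_normalizer.mpr
    exact centralizer_le_normalizer _ ht
  have hcases : f = 1 ∨ f = 23 ∨ f = 45 := by omega
  rcases hcases with h | h | h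
  · intro Q hQ
    rw [h, Nat.card_eq_one_iff_unique] at hf
    obtain ⟨hu, -⟩ := hf
    have := hu.elim ⟨Q, hQ⟩ ⟨P, hPfix⟩
    exact congrArg Subtype.val this
  · exfalso
    have hk11 : k = 11 := by omega
    rw [sign_eq_one (X := Sylow 11 G) hperf t, hk11] at hs
    exact absurd hs (by decide)
  · exfalso
    apply ht1
    have hfix : ∀ Q : Sylow 11 G, t • Q = Q := by
      intro Q
      by_contra hQ
      have h3 : Nat.card {Q : Sylow 11 G // t • Q = Q} < Nat.card (Sylow 11 G) := by
        rw [Nat.card_eq_fintype_card, Nat.card_eq_fintype_card]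
        exact Fintype.card_subtype_lt hQ
      omega
    exact eq_one_of_fix_all P hne hnt hfix

/-- The case of `45` Sylow subgroups does not occur. -/
theorem false_of_45 (hG : Nat.card G = 7920) (hperf : commutator G = ⊤) (P : Sylow 11 G) (hn : Nat.card (Sylow 11 G) = 45)
    (h8 : 8 ∣ Nat.card (centralizer ((P : Subgroup G) : Set G))) : False := by
  classical
  letI : Fintype (Sylow 11 G) := Fintype.ofFinite _
  -- a subgroup of order 8
  let C := centralizer ((P : Subgroup G) : Set G)
  obtain ⟨H₀, hH₀⟩ := Sylow.exists_subgroup_card_pow_prime (G := C) 2 (n := 3) (by rw [show (2 : ℕ) ^ 3 = 8 by norm_num]; exact h8)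
  let H : Subgroup G := H₀.map C.subtype
  have hHc : Nat.card H = 8 := by
    have : Nat.card H = Nat.card H₀ := Nat.card_congr (H₀.equivMapOfInjective C.subtype C.subtype_injective).symm.toEquiv
    rw [this, hH₀]
    norm_num
  have hHC : H ≤ C := by
    rintro x ⟨y, _, rfl⟩
    exact y.2
  have hPfixed : ∀ h ∈ H, h • P = P := by
    intro h hh
    apply Sylow.smul_eq_iff_mem_normalizer.mpr
    exact centralizer_le_normalizer _ (hHC hh)
  have hfree : ∀ h : H, h ≠ 1 → ∀ Q : Sylow 11 G, (h : G) • Q = Q → Q = P := by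
    intro h hh1 Q hQ
    have hh1' : (h : G) ≠ 1 := fun e => hh1 (Subtype.ext e)
    -- an involution in `⟨h⟩`
    have ho : orderOf h ∣ 8 := by
      have := orderOf_dvd_natCard h
      rwa [hHc] at this
    have ho1 : orderOf h ≠ 1 := by
      rw [Ne, orderOf_eq_one_iff]
      exact hh1
    have h2o : 2 ∣ orderOf h := by
      have h8' : (8 : ℕ) = 2 ^ 3 := by norm_num
      rw [h8'] at ho
      obtain ⟨j, hj, hj2⟩ := (Nat.dvd_prime_pow Nat.prime_two).mp ho
      rw [hj2]
      cases j with
      | zero => rw [pow_zero] at hj2; exact absurd hj2 ho1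
      | succ j => exact dvd_pow_self 2 (by omega)
    obtain ⟨c, hc⟩ := h2o
    let t : G := (h : G) ^ c
    have ht2 : t ^ 2 = 1 := by
      show ((h : G) ^ c) ^ 2 = 1
      rw [← pow_mul, mul_comm c 2, ← hc]
      have := pow_orderOf_eq_one h
      exact_mod_cast congrArg Subtype.val this
    have ht1 : t ≠ 1 := by
      show (h : G) ^ c ≠ 1
      intro e0
      have h3 : h ^ c = 1 := Subtype.ext (by simpa using e0)
      have h4 := orderOf_dvd_of_pow_eq_one h3
      have h5 : 0 < c := by
        rcases Nat.eq_zero_or_pos c with h0 | h0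
        · rw [h0] at hc
          have := orderOf_pos h
          omega
        · exact h0
      have := Nat.le_of_dvd h5 h4
      omega
    have htC : t ∈ C := by
      show (h : G) ^ c ∈ C
      exact C.pow_mem (hHC h.2) c
    have hpowfix : ∀ j : ℕ, ((h : G) ^ j) • Q = Q := by
      intro j
      induction j with
      | zero => simp
      | succ j ih => rw [pow_succ, mul_smul, hQ, ih]
    exact invol_fix_of_45 hG hperf P hn htC ht2 ht1 Q (hpowfix c)
  -- Burnside's lemma
  letI : Fintype H := Fintype.ofFinite _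
  have hcardH : Fintype.card H = 8 := by rw [← Nat.card_eq_fintype_card, hHc]
  have hB := MulAction.sum_card_fixedBy_eq_card_orbits_mul_card_group H (Sylow 11 G)
  have h1 : ∀ h ∈ Finset.univ.erase (1 : H), Fintype.card (fixedBy (Sylow 11 G) h) = 1 := by
    intro h hh
    have hne := Finset.ne_of_mem_erase hh
    rw [Fintype.card_eq_one_iff]
    refine ⟨⟨P, hPfixed h h.2⟩, ?_⟩
    rintro ⟨Q, hQ⟩
    apply Subtype.ext
    exact hfree h hne Q hQ
  have h0 : Fintype.card (fixedBy (Sylow 11 G) (1 : H)) = 45 := by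
    rw [← Nat.card_eq_fintype_card, ← hn]
    refine Nat.card_congr ⟨fun x => x.1, fun x => ⟨x, by simp [mem_fixedBy]⟩, fun x => rfl, fun x => rfl⟩
  rw [← Finset.add_sum_erase _ _ (Finset.mem_univ (1 : H)), Finset.sum_congr rfl h1, h0, hcardH] at hB
  simp [Finset.card_erase_of_mem, hcardH] at hB
  omega


/-- The structure at the prime `11`. -/
theorem exists_SC_M11 (hG : Nat.card G = 7920) : ∃ P : Sylow 11 G, SC P 5 13 2 := by
  classical
  have hnc : ¬ IsCyclic G := by
    intro hc
    haveI := hc
    haveI : IsMulCommutative G := ⟨⟨(IsCyclic.commGroup (α := G)).mul_comm⟩⟩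
    have h1 : (Nat.card G).Prime := Group.is_simple_iff_prime_card.mp inferInstance
    rw [hG] at h1
    norm_num at h1
  have hperf : commutator G = ⊤ := perfect_of_simple hnc
  let P : Sylow 11 G := default
  have hP := card_sylow11 hG P
  have hne1 : Nat.card (P : Subgroup G) ≠ 1 := by
    rw [hP]
    omega
  have hnt : (P : Subgroup G) ≠ ⊤ := by
    intro h0
    rw [h0, Subgroup.card_top, hG] at hP
    omega
  have hne : (P : Subgroup G) ≠ ⊥ := by
    intro h0
    rw [h0] at hP
    simp at hP
  obtain ⟨e, he⟩ : ∃ e, (centralizer ((P : Subgroup G) : Set G)).relIndex (normalizer ((P : Subgroup G) : Set G)) = e := ⟨_, rfl⟩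
  have he1 : e ≠ 1 := by
    intro h1
    rw [h1] at he
    exact Small.BD.false_of_normalizer_le hperf P (Subgroup.relIndex_eq_one.mp he) hne1
  have hdiv : e ∣ 10 := by
    have h1 := SmallSimple.relIndex_centralizer_normalizer_dvd P
    haveI : IsCyclic (P : Subgroup G) := isCyclic_of_prime_card hP
    rw [IsCyclic.card_mulAut, hP, Nat.totient_prime (by norm_num)] at h1
    rw [← he]
    exact h1
  have hN := Small.BD.card_normalizer_eq (P : Subgroup G) he
  have hPC : (P : Subgroup G) ≤ centralizer ((P : Subgroup G) : Set G) := by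
    intro x hx
    rw [mem_centralizer_iff]
    intro w hw
    exact Small.BD.comm_of_prime (p := 11) (P : Subgroup G) hP w hw x hx
  obtain ⟨v, hv⟩ : 11 ∣ Nat.card (centralizer ((P : Subgroup G) : Set G)) := by
    have h1 := Subgroup.card_dvd_of_le hPC
    rwa [hP] at h1
  have hn : Nat.card (Sylow 11 G) = (normalizer ((P : Subgroup G) : Set G)).index := Sylow.card_eq_index_normalizer P
  have hmul : Nat.card (normalizer ((P : Subgroup G) : Set G)) * (normalizer ((P : Subgroup G) : Set G)).index = 7920 := by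
    rw [Subgroup.card_mul_index, hG]
  rw [← hn, hN, hv] at hmul
  have hmod : Nat.card (Sylow 11 G) ≡ 1 [MOD 11] := card_sylow_modEq_one 11 G
  obtain ⟨n, hnn⟩ : ∃ n, Nat.card (Sylow 11 G) = n := ⟨_, rfl⟩
  rw [hnn] at hmul hmod
  have hmod' : n % 11 = 1 := hmod
  have hmul2 : n * (e * v) = 720 := by nlinarith
  have hele : e ≤ 10 := Nat.le_of_dvd (by norm_num) hdiv
  -- the case `n = 1`
  have hn1 : n ≠ 1 := by
    intro h1
    have h2 : (normalizer ((P : Subgroup G) : Set G)).index = 1 := by rw [← hn, hnn, h1]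
    have h3 : normalizer ((P : Subgroup G) : Set G) = ⊤ := Subgroup.index_eq_one.mp h2
    have h4 : ((P : Subgroup G)).Normal := Subgroup.normalizer_eq_top_iff.mp h3
    rcases IsSimpleGroup.eq_bot_or_eq_top_of_normal _ h4 with h5 | h5
    · exact hne h5
    · exact hnt h5
  have hnle : n ≤ 720 := Nat.le_of_dvd (by norm_num) (Dvd.intro _ hmul2)
  -- the numerical cases
  have hcases : (n = 12 ∧ 2 ∣ v) ∨ (n = 45 ∧ e = 2 ∧ v = 8) ∨ (n = 144 ∧ e = 5 ∧ v = 1) := by
    obtain ⟨k, hk⟩ : ∃ k, n = 1 + 11 * k := ⟨n / 11, by omega⟩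
    subst hk
    have hk0 : k ≤ 65 := by omega
    have he' : e = 0 ∨ e = 2 ∨ e = 5 ∨ e = 10 := by
      interval_cases e <;> first | omega | (exfalso; revert hdiv; decide) 
    rcases he' with rfl | rfl | rfl | rfl
    · simp at hmul2
    all_goals interval_cases k <;> omega
  rcases hcases with ⟨rfl, h2v⟩ | ⟨rfl, rfl, rfl⟩ | ⟨rfl, rfl, rfl⟩
  · -- `n = 12`
    exfalso
    have h2C : 2 ∣ Nat.card (centralizer ((P : Subgroup G) : Set G)) := by
      rw [hv]
      exact Dvd.dvd.mul_left h2v 11
    obtain ⟨t, ht⟩ := exists_prime_orderOf_dvd_card' 2 h2C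
    have ht2 : (t : G) ^ 2 = 1 := by
      have := pow_orderOf_eq_one t
      rw [ht] at this
      exact_mod_cast congrArg Subtype.val this
    have h1 := no_invol_of_twelve hG P hnn t.2 ht2
    have h2 : t = 1 := Subtype.ext h1
    rw [h2, orderOf_one] at ht
    omega
  · -- `n = 45`
    exfalso
    apply false_of_45 hG hperf P hnn
    rw [hv]
    norm_num
  · -- `n = 144`
    refine ⟨P, ?_⟩
    have hCP : centralizer ((P : Subgroup G) : Set G) = P := by
      symm
      apply Subgroup.eq_of_le_of_card_ge hPC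
      rw [hv, hP]
    refine ⟨hP, ?_, he, by norm_num, by norm_num, by norm_num, by rw [hnn], hperf⟩
    intro y hy hy1
    rw [← hCP]
    apply le_antisymm
    · intro x hx
      rw [mem_centralizer_iff]
      intro w hw
      have hx' : y * x = x * y := mem_centralizer_iff.mp hx y rfl
      have hy' : (⟨y, hy⟩ : (P : Subgroup G)) ≠ 1 := fun e0 => hy1 (congrArg Subtype.val e0)
      have hw' := mem_zpowers_of_prime_card (p := 11) hP hy' (g' := ⟨w, hw⟩)
      obtain ⟨k, hk⟩ := hw'
      have hk' : y ^ k = w := congrArg Subtype.val hk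
      rw [← hk']
      exact ((Commute.zpow_left (show Commute y x from hx') k)).eq
    · intro x hx
      rw [mem_centralizer_iff]
      intro w hw
      rw [Set.mem_singleton_iff.mp hw]
      exact mem_centralizer_iff.mp hx y hy


end Cfsg.Agent.Lib.H8Group.M11
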