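import Mathlib
import Cfsg.Agent.Lib.H8Group.M11A

/-! A simple group of order `7920`: the degrees in the principal `11`-block. -/

set_option autoImplicit false
set_option linter.unusedSectionVars false
set_option linter.unusedVariables false

namespace Cfsg.Agent.Lib.H8Group.M11

open Cfsg Cfsg.Agent.Lib.Char Cfsg.Agent.Lib.Blocks Cfsg.Agent.Lib.BT Subgroup MulAction

universe u

/-- Sums over fibers of a function with prescribed values. -/
theorem sum_fiber {ι : Type*} [DecidableEq ι] (s : Finset ι) (d : ι → ℕ) (V : Finset ℕ) (h : ∀ i ∈ s, d i ∈ V) (f : ℕ → ℕ) :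
    ∑ i ∈ s, f (d i) = ∑ v ∈ V, (s.filter (fun i => d i = v)).card * f v := by
  rw [← Finset.sum_fiberwise_of_maps_to h]
  apply Finset.sum_congr rfl
  intro v hv
  rw [Finset.sum_congr rfl (fun i hi => by rw [(Finset.mem_filter.mp hi).2]), Finset.sum_const, smul_eq_mul]

/-- The numerical enumeration. -/
theorem enum (a c b d : ℕ) (ε : ℤ) (hε : ε = 1 ∨ ε = -1) (hs : a + c + b = 4)
    (hrel : ε * d = 1 + 12 * a + 45 * c - 10 * b) (hd : d ∣ 720)
    (hsq : 1 + 144 * a + 2025 * c + 100 * b + 2 * d ^ 2 ≤ 7920) :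
    (a = 0 ∧ c = 1 ∧ b = 3 ∧ d = 16 ∧ ε = 1) ∨ (a = 2 ∧ c = 0 ∧ b = 2 ∧ d = 5 ∧ ε = 1) := by
  have hd62 : d ≤ 62 := by nlinarith
  have hmem : d ∈ ({1,2,3,4,5,6,8,9,10,12,15,16,18,20,24,30,36,40,45,48,60} : Finset ℕ) := by
    interval_cases d <;> first | decide | (exfalso; revert hd; decide)
  simp only [Finset.mem_insert, Finset.mem_singleton] at hmem
  rcases hε with rfl | rfl <;> rcases hmem with rfl | rfl | rfl | rfl | rfl | rfl | rfl | rfl | rfl | rfl | rfl | rfl | rfl | rfl | rfl | rfl | rfl | rfl | rfl | rfl | rfl <;>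
    push_cast at hrel <;> norm_num at hsq <;> omega

variable {G : Type u} [Group G] [Fintype G] {P : Sylow 11 G}

theorem deg_eq_of_A (h : SC P 5 13 2) (hG : Nat.card G = 7920) (D : Dat P 5 2) (hsq : ∀ χ : IrrCharacter G, charDegree (χ : G → ℂ) ≤ 88)
    {χ : IrrCharacter G} (hχ : χ ∈ D.A) : charDegree (χ : G → ℂ) = 12 ∨ charDegree (χ : G → ℂ) = 45 := by
  classical
  letI : Fintype (P : Subgroup G) := Fintype.ofFinite _
  have h1 := h.A_T D hχ
  have h2 := h.A_dvd D hχ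
  have h3 := hsq χ
  have hne : χ ≠ oneIrr G := by
    rintro rfl
    exact D.oA hχ
  have h4 : charDegree (χ : G → ℂ) ≠ 1 := fun h0 => hne (h.eq_one_of_deg h0)
  generalize charDegree (χ : G → ℂ) = d at *
  generalize T (P : Subgroup G) χ = T' at *
  push_cast at h1
  have h5 : d ∣ 720 := by simpa using h2
  interval_cases d <;> first | omega | (exfalso; revert h5; decide)

theorem deg_eq_of_B (h : SC P 5 13 2) (hG : Nat.card G = 7920) (D : Dat P 5 2) (hsq : ∀ χ : IrrCharacter G, charDegree (χ : G → ℂ) ≤ 88)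
    {χ : IrrCharacter G} (hχ : χ ∈ D.B) : charDegree (χ : G → ℂ) = 10 := by
  classical
  letI : Fintype (P : Subgroup G) := Fintype.ofFinite _
  have h1 := h.B_T D hχ
  have h2 := h.B_dvd D hχ
  have h3 := hsq χ
  generalize charDegree (χ : G → ℂ) = d at *
  generalize T (P : Subgroup G) χ = T' at *
  push_cast at h1
  have h5 : d ∣ 720 := by simpa using h2
  interval_cases d <;> first | omega | (exfalso; revert h5; decide)

theorem sum_deg_sq : ∑ χ : IrrCharacter G, charDegree (χ : G → ℂ) ^ 2 = Nat.card G := by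
  have h := sum_irr_degree_sq (G := G)
  have h2 : ∀ χ : IrrCharacter G, (χ : G → ℂ) 1 = (charDegree (χ : G → ℂ) : ℂ) := fun χ =>
    apply_one_eq_charDegree (IsIrrCharacter.isCharacter χ.2)
  simp only [h2] at h
  exact_mod_cast h

/-- The sum of squares, decomposed. -/
theorem sum_sq_decomp (hG : Nat.card G = 7920) (D : Dat P 5 2) :
    1 + (∑ χ ∈ D.A, charDegree (χ : G → ℂ) ^ 2 + (∑ χ ∈ D.B, charDegree (χ : G → ℂ) ^ 2 + (∑ χ ∈ D.Y, charDegree (χ : G → ℂ) ^ 2 + ∑ χ ∈ D.Z, charDegree (χ : G → ℂ) ^ 2))) = 7920 := by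
  have h := sum_deg_sq (G := G)
  rw [hG] at h
  have h2 := D.sum_decomp (fun χ => charDegree (χ : G → ℂ) ^ 2)
  simp only [deg_oneIrr, one_pow] at h2
  rw [← h2]
  exact h

theorem deg_le (hG : Nat.card G = 7920) (χ : IrrCharacter G) : charDegree (χ : G → ℂ) ≤ 88 := by
  classical
  have h := sum_deg_sq (G := G)
  rw [hG] at h
  have h2 : charDegree (χ : G → ℂ) ^ 2 ≤ 7920 := by
    rw [← h]
    exact Finset.single_le_sum (f := fun χ : IrrCharacter G => charDegree (χ : G → ℂ) ^ 2) (fun _ _ => Nat.zero_le _) (Finset.mem_univ χ)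
  nlinarith

/-- The two branches. -/
theorem branches (h : SC P 5 13 2) (hG : Nat.card G = 7920) (D : Dat P 5 2) :
    D.ε = 1 ∧ (∀ χ ∈ D.B, charDegree (χ : G → ℂ) = 10) ∧
    (((∀ χ ∈ D.A, charDegree (χ : G → ℂ) = 45) ∧ D.A.card = 1 ∧ D.B.card = 3 ∧ (∀ χ ∈ D.Y, charDegree (χ : G → ℂ) = 16)) ∨
     ((∀ χ ∈ D.A, charDegree (χ : G → ℂ) = 12) ∧ D.A.card = 2 ∧ D.B.card = 2 ∧ (∀ χ ∈ D.Y, charDegree (χ : G → ℂ) = 5))) := by
  classical
  have hdle := deg_le hG (G := G)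
  have hA : ∀ χ ∈ D.A, charDegree (χ : G → ℂ) ∈ ({12, 45} : Finset ℕ) := by
    intro χ hχ
    have := deg_eq_of_A h hG D hdle hχ
    simpa using this
  have hB := fun χ hχ => deg_eq_of_B h hG D hdle (χ := χ) hχ
  have hAs := sum_fiber D.A (fun χ => charDegree (χ : G → ℂ)) _ hA
  obtain ⟨a, ha⟩ : ∃ a, (D.A.filter (fun χ : IrrCharacter G => charDegree (χ : G → ℂ) = 12)).card = a := ⟨_, rfl⟩
  obtain ⟨c, hc⟩ : ∃ c, (D.A.filter (fun χ : IrrCharacter G => charDegree (χ : G → ℂ) = 45)).card = c := ⟨_, rfl⟩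
  have hAs' : ∀ f : ℕ → ℕ, ∑ χ ∈ D.A, f (charDegree (χ : G → ℂ)) = a * f 12 + c * f 45 := by
    intro f
    rw [hAs f, Finset.sum_insert (by decide), Finset.sum_singleton, ha, hc]
  have hBs : ∀ f : ℕ → ℕ, ∑ χ ∈ D.B, f (charDegree (χ : G → ℂ)) = D.B.card * f 10 := by
    intro f
    rw [Finset.sum_congr rfl (fun χ hχ => by rw [hB χ hχ]), Finset.sum_const, smul_eq_mul]
  have hcardA : D.A.card = a + c := by
    have := hAs' (fun _ => 1)
    simpa using this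
  obtain ⟨b, hb⟩ : ∃ b, D.B.card = b := ⟨_, rfl⟩
  have hs : a + c + b = 4 := by
    have := D.card_AB
    omega
  have h2Y : D.Y.card = 2 := D.card_Y
  obtain ⟨θ, hθ⟩ : D.Y.Nonempty := by
    rw [← Finset.card_pos]
    omega
  have hdeg := h.rel_one D hθ
  have hYd : ∀ χ ∈ D.Y, charDegree (χ : G → ℂ) = charDegree (θ : G → ℂ) := fun χ hχ => h.Y_deg D hχ hθ
  have hdd := h.Y_dvd D hθ
  obtain ⟨d, hd⟩ : ∃ d, charDegree (θ : G → ℂ) = d := ⟨_, rfl⟩
  rw [hd] at hdeg hdd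
  have hdA : ∑ χ ∈ D.A, ((charDegree (χ : G → ℂ) : ℕ) : ℤ) = 12 * a + 45 * c := by
    have := hAs' (fun n => n)
    rw [← Nat.cast_sum, this]
    push_cast
    ring
  have hdB : ∑ χ ∈ D.B, ((charDegree (χ : G → ℂ) : ℕ) : ℤ) = 10 * b := by
    have := hBs (fun n => n)
    rw [← Nat.cast_sum, this, hb]
    push_cast
    ring
  rw [hdA, hdB] at hdeg
  have hsq := sum_sq_decomp hG D
  have hsA := hAs' (fun n => n ^ 2)
  have hsB := hBs (fun n => n ^ 2)
  have hsY : ∑ χ ∈ D.Y, charDegree (χ : G → ℂ) ^ 2 = 2 * d ^ 2 := by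
    rw [Finset.sum_congr rfl (fun χ hχ => by rw [hYd χ hχ, hd]), Finset.sum_const, smul_eq_mul, h2Y]
  rw [hsA, hsB, hsY, hb] at hsq
  have hsq2 : 1 + 144 * a + 2025 * c + 100 * b + 2 * d ^ 2 ≤ 7920 := by
    have h3 : 0 ≤ ∑ χ ∈ D.Z, charDegree (χ : G → ℂ) ^ 2 := Nat.zero_le _
    have h4 : a * 12 ^ 2 = 144 * a := by ring
    have h5 : c * 45 ^ 2 = 2025 * c := by ring
    have h6 : b * 10 ^ 2 = 100 * b := by ring
    omega
  have hen := enum a c b d D.ε D.ε_sign hs (by rw [hdeg]; ring) (by simpa using hdd) hsq2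
  have hall45 : ∀ (x y : ℕ), (∀ χ ∈ D.A, charDegree (χ : G → ℂ) = x ∨ charDegree (χ : G → ℂ) = y) →
      (D.A.filter (fun χ : IrrCharacter G => charDegree (χ : G → ℂ) = x)).card = 0 → ∀ χ ∈ D.A, charDegree (χ : G → ℂ) = y := by
    intro x y hxy h0 χ hχ
    rcases hxy χ hχ with h1 | h1
    · exfalso
      have : χ ∈ D.A.filter (fun χ : IrrCharacter G => charDegree (χ : G → ℂ) = x) := Finset.mem_filter.mpr ⟨hχ, h1⟩
      rw [Finset.card_eq_zero.mp h0] at this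
      simp at this
    · exact h1
  have hA' : ∀ χ ∈ D.A, charDegree (χ : G → ℂ) = 12 ∨ charDegree (χ : G → ℂ) = 45 := fun χ hχ => by
    simpa using hA χ hχ
  have hA'' : ∀ χ ∈ D.A, charDegree (χ : G → ℂ) = 45 ∨ charDegree (χ : G → ℂ) = 12 := fun χ hχ => (hA' χ hχ).symm
  rcases hen with ⟨rfl, rfl, rfl, rfl, he⟩ | ⟨rfl, rfl, rfl, rfl, he⟩
  · refine ⟨he, hB, Or.inl ⟨hall45 12 45 hA' ha, by omega, hb, fun χ hχ => by rw [hYd χ hχ, hd]⟩⟩
  · refine ⟨he, hB, Or.inr ⟨hall45 45 12 hA'' hc, by omega, hb, fun χ hχ => by rw [hYd χ hχ, hd]⟩⟩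

end Cfsg.Agent.Lib.H8Group.M11
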