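import Mathlib
import Cfsg.Agent.Lib.H8Group.M11B
import Cfsg.Agent.Lib.Char.DefectZero
import Cfsg.Agent.Lib.Char.RootVal

/-! A simple group of order `7920`: the prime `5`. -/

set_option autoImplicit false
set_option linter.unusedSectionVars false
set_option linter.unusedVariables false

namespace Cfsg.Agent.Lib.H8Group.M11

open Cfsg Cfsg.Agent.Lib.Char Cfsg.Agent.Lib.Blocks Cfsg.Agent.Lib.BT Subgroup MulAction
open scoped ComplexConjugate

universe u

variable {G : Type u} [Group G] [Fintype G]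

theorem card_sylow5 (hG : Nat.card G = 7920) (Q : Sylow 5 G) : Nat.card (Q : Subgroup G) = 5 := by
  rw [Sylow.card_eq_multiplicity, hG]
  have h1 : (7920 : ℕ) = 5 * 1584 := by norm_num
  rw [h1, Nat.factorization_mul (by norm_num) (by norm_num), Finsupp.add_apply,
    Nat.Prime.factorization_self (by norm_num), Nat.factorization_eq_zero_of_not_dvd (by norm_num)]
  norm_num

theorem cent_eq {p : ℕ} [hp : Fact p.Prime] (Q : Subgroup G) (hQ : Nat.card Q = p) {y : G} (hy : y ∈ Q) (hy1 : y ≠ 1) :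
    centralizer ({y} : Set G) = centralizer (Q : Set G) := by
  apply le_antisymm
  · intro x hx
    rw [mem_centralizer_iff]
    intro w hw
    have hx' : y * x = x * y := mem_centralizer_iff.mp hx y rfl
    have hy' : (⟨y, hy⟩ : Q) ≠ 1 := fun e0 => hy1 (congrArg Subtype.val e0)
    have hw' := mem_zpowers_of_prime_card (p := p) hQ hy' (g' := ⟨w, hw⟩)
    obtain ⟨k, hk⟩ := hw'
    have hk' : y ^ k = w := congrArg Subtype.val hk
    rw [← hk']
    exact ((Commute.zpow_left (show Commute y x from hx') k)).eq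
  · intro x hx
    rw [mem_centralizer_iff]
    intro w hw
    rw [Set.mem_singleton_iff.mp hw]
    exact mem_centralizer_iff.mp hx y hy

theorem numerics5 [IsSimpleGroup G] (hG : Nat.card G = 7920) (hperf : commutator G = ⊤) (Q : Sylow 5 G) :
    ∃ v e n : ℕ, Nat.card (centralizer ((Q : Subgroup G) : Set G)) = 5 * v ∧
      (centralizer ((Q : Subgroup G) : Set G)).relIndex (normalizer ((Q : Subgroup G) : Set G)) = e ∧
      n % 5 = 1 ∧ n * (v * e) = 1584 ∧ (e = 2 ∨ e = 4) := by
  have hP := card_sylow5 hG Q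
  have hne1 : Nat.card (Q : Subgroup G) ≠ 1 := by
    rw [hP]
    omega
  obtain ⟨e, he⟩ : ∃ e, (centralizer ((Q : Subgroup G) : Set G)).relIndex (normalizer ((Q : Subgroup G) : Set G)) = e := ⟨_, rfl⟩
  have he1 : e ≠ 1 := by
    intro h1
    rw [h1] at he
    exact Small.BD.false_of_normalizer_le hperf Q (Subgroup.relIndex_eq_one.mp he) hne1
  have hdiv : e ∣ 4 := by
    have h1 := SmallSimple.relIndex_centralizer_normalizer_dvd Q
    haveI : IsCyclic (Q : Subgroup G) := isCyclic_of_prime_card hP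
    rw [IsCyclic.card_mulAut, hP, Nat.totient_prime (by norm_num)] at h1
    rw [← he]
    exact h1
  have hN := Small.BD.card_normalizer_eq (Q : Subgroup G) he
  have hPC : (Q : Subgroup G) ≤ centralizer ((Q : Subgroup G) : Set G) := by
    intro x hx
    rw [mem_centralizer_iff]
    intro w hw
    exact Small.BD.comm_of_prime (p := 5) (Q : Subgroup G) hP w hw x hx
  obtain ⟨v, hv⟩ : 5 ∣ Nat.card (centralizer ((Q : Subgroup G) : Set G)) := by
    have h1 := Subgroup.card_dvd_of_le hPC
    rwa [hP] at h1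
  have hn : Nat.card (Sylow 5 G) = (normalizer ((Q : Subgroup G) : Set G)).index := Sylow.card_eq_index_normalizer Q
  have hmul : Nat.card (normalizer ((Q : Subgroup G) : Set G)) * (normalizer ((Q : Subgroup G) : Set G)).index = 7920 := by
    rw [Subgroup.card_mul_index, hG]
  rw [← hn, hN, hv] at hmul
  have hmod : Nat.card (Sylow 5 G) ≡ 1 [MOD 5] := card_sylow_modEq_one 5 G
  obtain ⟨n, hnn⟩ : ∃ n, Nat.card (Sylow 5 G) = n := ⟨_, rfl⟩
  rw [hnn] at hmul hmod
  have he0 : e ≤ 4 := Nat.le_of_dvd (by norm_num) hdiv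
  refine ⟨v, e, n, hv, he, hmod, by nlinarith, ?_⟩
  interval_cases e <;> first | omega | (exfalso; revert hdiv; decide)

/-- All the nontrivial elements of a self-centralizing Sylow `5`-subgroup with `e = 4` are conjugate. -/
theorem conj_of_five (Q : Subgroup G) (hQ : Nat.card Q = 5) (hC : Nat.card (centralizer (Q : Set G)) = 5)
    (he : (centralizer (Q : Set G)).relIndex (normalizer (Q : Set G)) = 4) {z x : G} (hz : z ∈ Q) (hz1 : z ≠ 1)
    (hx : x ∈ Q) (hx1 : x ≠ 1) : IsConj z x := by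
  classical
  have hPC : Q ≤ centralizer (Q : Set G) := by
    intro y hy
    rw [mem_centralizer_iff]
    intro w hw
    exact Small.BD.comm_of_prime (p := 5) Q hQ w hw y hy
  have hCQ : centralizer (Q : Set G) = Q := (Subgroup.eq_of_le_of_card_ge hPC (by rw [hC, hQ])).symm
  have hCz : centralizer ({z} : Set G) = Q := by rw [cent_eq (p := 5) Q hQ hz hz1, hCQ]
  let N := normalizer (Q : Set G)
  have hN : Nat.card N = 20 := by
    show Nat.card (normalizer (Q : Set G)) = 20
    rw [Small.BD.card_normalizer_eq _ he, hC]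
  letI : Fintype N := Fintype.ofFinite _
  let f : N → G := fun n => (n : G) * z * (n : G)⁻¹
  let Qf : Finset G := Finset.univ.filter (fun g => g ∈ Q)
  have hQf : Qf.card = 5 := by
    rw [← hQ, Nat.card_eq_fintype_card (α := Q), Fintype.card_subtype]
  let S : Finset G := Finset.univ.image f
  have hS : S ⊆ Qf.erase 1 := by
    intro a ha
    obtain ⟨n, -, rfl⟩ := Finset.mem_image.mp ha
    refine Finset.mem_erase.mpr ⟨?_, Finset.mem_filter.mpr ⟨Finset.mem_univ _, ?_⟩⟩
    · intro h0
      apply hz1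
      have h1 : (n : G) * z * (n : G)⁻¹ = 1 := h0
      have h2 : (n : G) * z = n := by
        calc (n : G) * z = ((n : G) * z * (n : G)⁻¹) * n := by group
          _ = n := by rw [h1, one_mul]
      simpa using h2
    · have h1 := mem_normalizer_iff.mp n.2 z
      exact h1.mp hz
  have hfib : ∀ a ∈ S, (Finset.univ.filter (fun n => f n = a)).card ≤ 5 := by
    intro a ha
    obtain ⟨n₀, -, rfl⟩ := Finset.mem_image.mp ha
    rw [← hQf]
    apply Finset.card_le_card_of_injOn (fun n : N => ((n₀ : G))⁻¹ * n)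
    · intro n hn
      have hn' : (n : G) * z * (n : G)⁻¹ = (n₀ : G) * z * (n₀ : G)⁻¹ := (Finset.mem_filter.mp (Finset.mem_coe.mp hn)).2
      refine Finset.mem_coe.mpr (Finset.mem_filter.mpr ⟨Finset.mem_univ _, ?_⟩)
      rw [← hCz, mem_centralizer_iff]
      intro w hw
      rw [Set.mem_singleton_iff.mp hw]
      have h3 : z * ((n₀ : G)⁻¹ * n) = (n₀ : G)⁻¹ * ((n₀ : G) * z * (n₀ : G)⁻¹) * n := by group
      rw [h3, ← hn']
      group
    · intro a _ b _ hab
      have h3 : (a : G) = b := mul_left_cancel hab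
      exact Subtype.ext h3
  have h20 := Finset.card_le_mul_card_image (s := (Finset.univ : Finset N)) 5 hfib
  rw [Finset.card_univ, ← Nat.card_eq_fintype_card, hN] at h20
  have hcard1 : (Qf.erase 1).card = 4 := by
    rw [Finset.card_erase_of_mem (Finset.mem_filter.mpr ⟨Finset.mem_univ _, Q.one_mem⟩), hQf]
  have h20' : 20 ≤ 5 * S.card := h20
  have hSeq : S = Qf.erase 1 := Finset.eq_of_subset_of_card_le hS (by rw [hcard1]; omega)
  have hxS : x ∈ S := by
    rw [hSeq]
    exact Finset.mem_erase.mpr ⟨hx1, Finset.mem_filter.mpr ⟨Finset.mem_univ _, hx⟩⟩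
  obtain ⟨n, -, hn⟩ := Finset.mem_image.mp hxS
  exact isConj_iff.mpr ⟨n, hn⟩

/-- The values at an element of order `5` of a simple group with the small centralizer. -/
theorem values5 (Q : Subgroup G) (hQ : Nat.card Q = 5) {z : G} (hCz : Nat.card (centralizer ({z} : Set G)) = 5)
    (hconj : ∀ x ∈ Q, x ≠ 1 → IsConj z x) :
    ∃ w : IrrCharacter G → ℤ, (∀ χ : IrrCharacter G, (χ : G → ℂ) z = w χ) ∧ (∀ χ : IrrCharacter G, (5 : ℤ) ∣ (charDegree (χ : G → ℂ) : ℤ) - w χ) ∧
      ∑ χ, (w χ) ^ 2 = 5 := by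
  classical
  letI : Fintype Q := Fintype.ofFinite _
  have key : ∀ χ : IrrCharacter G, ∃ w : ℤ, (χ : G → ℂ) z = w ∧ (5 : ℤ) ∣ (charDegree (χ : G → ℂ) : ℤ) - w := by
    intro χ
    have hχ := IsIrrCharacter.isCharacter χ.2
    have h1 := T_eq_of_const Q χ ((χ : G → ℂ) z) (fun y hy hy1 => by
       obtain ⟨c, hc⟩ := isConj_iff.mp (hconj y hy hy1)
       rw [← hc]
       exact IsCharacter.isClassFunction hχ z c)
    rw [hQ, apply_one_eq_charDegree hχ] at h1
    have hint : IsIntegral ℤ ((χ : G → ℂ) z) := IsCharacter.isIntegral hχ z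
    obtain ⟨t, ht⟩ : ∃ t : ℕ, T Q χ = t := ⟨_, rfl⟩
    obtain ⟨d, hd⟩ : ∃ d : ℕ, charDegree (χ : G → ℂ) = d := ⟨_, rfl⟩
    rw [ht, hd] at h1
    rw [hd]
    push_cast at h1
    have hq : (χ : G → ℂ) z = algebraMap ℚ ℂ ((5 * (t : ℚ) - d) / 4) := by
      rw [map_div₀, map_sub, map_mul]
      simp only [map_ofNat, map_natCast]
      linear_combination (-1 / 4 : ℂ) * h1
    rw [hq] at hint
    have hint2 : IsIntegral ℤ ((5 * (t : ℚ) - d) / 4) := (isIntegral_algebraMap_iff (algebraMap ℚ ℂ).injective).mp hint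
    obtain ⟨k, hk⟩ := IsIntegrallyClosed.isIntegral_iff.mp hint2
    have hk' : ((k : ℤ) : ℚ) = (5 * (t : ℚ) - d) / 4 := hk
    have hk2 : 4 * (k : ℤ) = 5 * (t : ℤ) - d := by
      have : (4 : ℚ) * (k : ℚ) = 5 * (t : ℚ) - d := by
        rw [hk']
        ring
      exact_mod_cast this
    refine ⟨k, ?_, ⟨t - k, by linarith⟩⟩
    rw [hq, ← hk']
    simp
  choose w hw1 hw2 using key
  refine ⟨w, hw1, hw2, ?_⟩
  have h := sum_irr_mul_conj_of_isConj (IsConj.refl z)
  rw [hCz] at h
  simp only [hw1, map_intCast] at h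
  have h2 : ((∑ χ, (w χ) ^ 2 : ℤ) : ℂ) = ((5 : ℤ) : ℂ) := by
    push_cast
    push_cast at h
    rw [← h]
    simp only [sq]
  exact_mod_cast h2

variable {P : Sylow 11 G}

/-- An element of order `5` does not commute with an element of order `11`. -/
theorem no_eleven (h : SC P 5 13 2) {z y : G} (hz : orderOf z = 5) (hy : orderOf y = 11) (hc : z * y = y * z) : False := by
  obtain ⟨S, hS⟩ := h.exists_sylow_of_order hy
  have hy1 : y ≠ 1 := by
    intro h0
    rw [h0, orderOf_one] at hy
    omega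
  have hz1 : z ≠ 1 := by
    intro h0
    rw [h0, orderOf_one] at hz
    omega
  have h1 := h.cent_all S y hS hy1
  have h2 : z ∈ centralizer ({y} : Set G) := by
    rw [mem_centralizer_iff]
    intro w hw
    rw [Set.mem_singleton_iff.mp hw]
    exact hc.symm
  rw [h1] at h2
  have h3 := h.orderOf_of_mem S h2 hz1
  omega

theorem fac2 (hG : Nat.card G = 7920) : (Nat.card G).factorization 2 = 4 := by
  rw [hG]
  have h1 : (7920 : ℕ) = 2 ^ 4 * 495 := by norm_num
  rw [h1, Nat.factorization_mul (by norm_num) (by norm_num), Finsupp.add_apply,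
    Nat.Prime.factorization_pow (by norm_num), Nat.factorization_eq_zero_of_not_dvd (by norm_num)]
  simp

theorem fac5 (hG : Nat.card G = 7920) : (Nat.card G).factorization 5 = 1 := by
  rw [hG]
  have h1 : (7920 : ℕ) = 5 * 1584 := by norm_num
  rw [h1, Nat.factorization_mul (by norm_num) (by norm_num), Finsupp.add_apply,
    Nat.Prime.factorization_self (by norm_num), Nat.factorization_eq_zero_of_not_dvd (by norm_num)]

/-- Characters of degree divisible by `5` vanish on `5`-singular elements. -/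
theorem vanish5 (hG : Nat.card G = 7920) (χ : IrrCharacter G) (h5 : 5 ∣ charDegree (χ : G → ℂ)) {g : G} (hg : 5 ∣ orderOf g) :
    (χ : G → ℂ) g = 0 :=
  apply_eq_zero_of_defect_zero χ.2 (by norm_num) (by rw [fac5 hG]; simpa using h5) hg

/-- Characters of degree divisible by `16` vanish on `2`-singular elements. -/
theorem vanish2 (hG : Nat.card G = 7920) (χ : IrrCharacter G) (h5 : 16 ∣ charDegree (χ : G → ℂ)) {g : G} (hg : 2 ∣ orderOf g) :
    (χ : G → ℂ) g = 0 :=
  apply_eq_zero_of_defect_zero χ.2 (by norm_num) (by rw [fac2 hG]; simpa using h5) hg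

/-- In the first branch there is no element of order `10`. -/
theorem no_ten (hG : Nat.card G = 7920) (D : Dat P 5 2) (hε : D.ε = 1)
    (hA : ∀ χ ∈ D.A, 5 ∣ charDegree (χ : G → ℂ)) (hB : ∀ χ ∈ D.B, 5 ∣ charDegree (χ : G → ℂ))
    {θ : IrrCharacter G} (hθ : θ ∈ D.Y) (h16 : 16 ∣ charDegree (θ : G → ℂ))
    {z u : G} (hz : orderOf z = 5) (hu : orderOf u = 2) (hc : z * u = u * z) : False := by
  have hcomm : Commute u z := hc.symm
  have ho : orderOf (u * z) = 2 * 5 := by
    rw [hcomm.orderOf_mul_eq_mul_orderOf_of_coprime (by rw [hu, hz]; norm_num), hu, hz]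
  have h1 := D.rel θ hθ (u * z) (by rw [ho]; norm_num)
  rw [hε, vanish2 hG θ h16 (by rw [ho]; norm_num),
    Finset.sum_eq_zero (fun χ hχ => vanish5 hG χ (hA χ hχ) (by rw [ho]; norm_num)),
    Finset.sum_eq_zero (fun χ hχ => vanish5 hG χ (hB χ hχ) (by rw [ho]; norm_num))] at h1
  simp at h1

end Cfsg.Agent.Lib.H8Group.M11
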