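import Mathlib
import Cfsg.Agent.Lib.H8Group.M11C
import Cfsg.Agent.Lib.Char.Codegree

/-! A simple group of order `7920`: a character of degree `5`. -/

set_option autoImplicit false
set_option linter.unusedSectionVars false
set_option linter.unusedVariables false

namespace Cfsg.Agent.Lib.H8Group.M11

open Cfsg Cfsg.Agent.Lib.Char Cfsg.Agent.Lib.Blocks Cfsg.Agent.Lib.BT Subgroup MulAction
open scoped ComplexConjugate

universe u

variable {G : Type u} [Group G] [Fintype G]

/-- A character of degree `5` vanishing on `5`-singular elements has the full norm on the `5`-regular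
elements centralizing an element of order `5`. -/
theorem norm_eq_five {θ : G → ℂ} (hθ : IsCharacter G θ) (h1 : θ 1 = 5) (hv : ∀ g : G, 5 ∣ orderOf g → θ g = 0)
    {z h : G} (hz : orderOf z = 5) (hc : z * h = h * z) (hh : ¬ 5 ∣ orderOf h) : ‖θ h‖ = 5 := by
  classical
  let K : Subgroup G := zpowers h
  let L : Subgroup G := zpowers z
  letI : Fintype K := Fintype.ofFinite _
  letI : Fintype L := Fintype.ofFinite _
  have hcomm : ∀ (k : K) (x : L), Commute (K.subtype k) (L.subtype x) := by
    rintro ⟨_, i, rfl⟩ ⟨_, j, rfl⟩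
    exact (Commute.zpow_zpow (show Commute h z from hc.symm) i j)
  let Φ : K × L →* G := MonoidHom.noncommCoprod K.subtype L.subtype hcomm
  have hΦ : ∀ (k : K) (x : L), Φ (k, x) = (k : G) * x := fun k x => rfl
  have hθ' := IsCharacter.comp hθ Φ
  let θK : K → ℂ := fun k => θ k
  have hθK : IsCharacter K θK := IsCharacter.comp hθ K.subtype
  obtain ⟨m, hm1, hm2⟩ := IsCharacter.exists_eq_sum hθK
  have hL : Nat.card L = 5 := by rw [Nat.card_zpowers, hz]
  have hKpos : (Nat.card K : ℂ) ≠ 0 := by exact_mod_cast Nat.card_pos.ne'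
  have hdvd : ∀ μ : IrrCharacter K, 5 ∣ m μ := by
    intro μ
    let lam : K × L → ℂ := (μ : K → ℂ) ∘ (MonoidHom.fst K L)
    have hlamc : IsCharacter (K × L) lam := IsCharacter.comp (IsIrrCharacter.isCharacter μ.2) _
    have hcardKL : (Nat.card (K × L) : ℂ) = (Nat.card K : ℂ) * 5 := by
      rw [Nat.card_prod, hL]
      push_cast
      rfl
    have hcardL : Fintype.card L = 5 := by rw [← Nat.card_eq_fintype_card, hL]
    have hself : classInner lam lam = 1 := by
      have h2 := classInner_irr_self μ.2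
      unfold classInner at h2 ⊢
      rw [hcardKL, Fintype.sum_prod_type]
      have h3 : ∀ k : K, ∑ x : L, lam (k, x) * conj (lam (k, x)) = 5 * ((μ : K → ℂ) k * conj ((μ : K → ℂ) k)) := by
        intro k
        show ∑ x : L, (μ : K → ℂ) k * conj ((μ : K → ℂ) k) = _
        rw [Finset.sum_const, Finset.card_univ, hcardL]
        simp
      simp only [h3]
      rw [← Finset.mul_sum, ← h2]
      field_simp
    have hlam : IsIrrCharacter (K × L) lam := isIrrCharacter_of_classInner_self hlamc hself
    obtain ⟨n, hn⟩ := IsCharacter.classInner_irr_eq_nat hθ' hlam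
    have hval : ∀ k : K, ∑ x : L, θ ((k : G) * x) = θ k := by
      intro k
      rw [← Finset.add_sum_erase _ _ (Finset.mem_univ (1 : L))]
      have h3 : ∀ x ∈ (Finset.univ : Finset L).erase 1, θ ((k : G) * x) = 0 := by
        intro x hx
        have hx1 : x ≠ 1 := Finset.ne_of_mem_erase hx
        apply hv
        have hox : orderOf (x : G) = 5 := by
          have h4 : orderOf x ∣ 5 := by
            have := orderOf_dvd_natCard x
            rwa [hL] at this
          rcases (Nat.dvd_prime (by norm_num)).mp h4 with h5 | h5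
          · exact absurd (orderOf_eq_one_iff.mp h5) hx1
          · rw [Subgroup.orderOf_coe]
            exact h5
        have hcop : Nat.Coprime (orderOf (k : G)) (orderOf (x : G)) := by
          rw [hox]
          apply Nat.Coprime.symm
          rw [Nat.Prime.coprime_iff_not_dvd (by norm_num)]
          intro h5
          apply hh
          have h6 : orderOf (k : G) ∣ orderOf h := by
            have h7 : orderOf k ∣ Nat.card K := orderOf_dvd_natCard k
            rw [Nat.card_zpowers] at h7
            rwa [Subgroup.orderOf_coe]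
          exact h5.trans h6
        have hcomm' : Commute (k : G) (x : G) := hcomm k x
        rw [hcomm'.orderOf_mul_eq_mul_orderOf_of_coprime hcop, hox]
        exact Dvd.intro_left _ rfl
      rw [Finset.sum_eq_zero h3, add_zero]
      simp
    have hn2 : (m μ : ℂ) = 5 * n := by
      rw [← hm1 μ, ← hn]
      unfold classInner
      rw [hcardKL, Fintype.sum_prod_type]
      have h3 : ∀ k : K, ∑ x : L, (θ ∘ Φ) (k, x) * conj (lam (k, x)) = θ k * conj ((μ : K → ℂ) k) := by
        intro k
        have h4 : ∀ x : L, (θ ∘ Φ) (k, x) * conj (lam (k, x)) = θ ((k : G) * x) * conj ((μ : K → ℂ) k) := fun x => rfl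
        simp only [h4]
        rw [← Finset.sum_mul, hval]
      simp only [h3]
      field_simp
      rfl
    have h3 : m μ = 5 * n := by exact_mod_cast hn2
    exact ⟨n, h3⟩
  -- the degrees
  have hdeg : ∑ μ : IrrCharacter K, m μ * charDegree (μ : K → ℂ) = 5 := by
    have h2 := congrFun hm2 1
    rw [Finset.sum_apply] at h2
    have h3 : θK 1 = 5 := h1
    rw [h3] at h2
    simp only [Pi.smul_apply, nsmul_eq_mul] at h2
    have h4 : ((∑ μ : IrrCharacter K, m μ * charDegree (μ : K → ℂ) : ℕ) : ℂ) = ((5 : ℕ) : ℂ) := by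
      push_cast
      rw [h2]
      refine Finset.sum_congr rfl fun μ _ => ?_
      rw [apply_one_eq_charDegree (IsIrrCharacter.isCharacter μ.2)]
    exact_mod_cast h4
  obtain ⟨μ₀, hμ₀⟩ : ∃ μ₀ : IrrCharacter K, m μ₀ ≠ 0 := by
    by_contra hall
    push Not at hall
    rw [Finset.sum_eq_zero (fun μ _ => by rw [hall μ, zero_mul])] at hdeg
    omega
  have hdpos : ∀ μ : IrrCharacter K, 0 < charDegree (μ : K → ℂ) := fun μ => charDegree_pos μ.2
  have hsplit := Finset.add_sum_erase Finset.univ (fun μ : IrrCharacter K => m μ * charDegree (μ : K → ℂ)) (Finset.mem_univ μ₀)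
  rw [hdeg] at hsplit
  have hm5 : 5 ≤ m μ₀ := by
    obtain ⟨c, hc'⟩ := hdvd μ₀
    rw [hc'] at hμ₀ ⊢
    omega
  have hd0 := hdpos μ₀
  have hle : m μ₀ * charDegree (μ₀ : K → ℂ) ≤ 5 := by omega
  have hm50 : m μ₀ = 5 := by nlinarith
  have hd1 : charDegree (μ₀ : K → ℂ) = 1 := by
    rw [hm50] at hle
    omega
  have hrest : ∑ μ ∈ Finset.univ.erase μ₀, m μ * charDegree (μ : K → ℂ) = 0 := by
    rw [hm50, hd1] at hsplit
    omega
  have hzero : ∀ μ, μ ≠ μ₀ → m μ = 0 := by
    intro μ hne
    have h2 := (Finset.sum_eq_zero_iff.mp hrest) μ (Finset.mem_erase.mpr ⟨hne, Finset.mem_univ _⟩)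
    rcases Nat.mul_eq_zero.mp h2 with h3 | h3
    · exact h3
    · exact absurd h3 (hdpos μ).ne'
  -- the value at `h`
  let hk : K := ⟨h, mem_zpowers h⟩
  have hval : θ h = 5 * (μ₀ : K → ℂ) hk := by
    have h2 := congrFun hm2 hk
    rw [Finset.sum_apply, Finset.sum_eq_single μ₀ (fun μ _ hne => by
      rw [Pi.smul_apply, hzero μ hne, zero_smul]) (fun h3 => absurd (Finset.mem_univ _) h3)] at h2
    rw [Pi.smul_apply, hm50] at h2
    have h3 : θK hk = θ h := rfl
    rw [h3] at h2
    rw [h2]
    simp
  have hμ1 : (μ₀ : K → ℂ) 1 = 1 := by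
    rw [apply_one_eq_charDegree (IsIrrCharacter.isCharacter μ₀.2), hd1]
    simp
  obtain ⟨lam, hlam⟩ := IsCharacter.exists_monoidHom (IsIrrCharacter.isCharacter μ₀.2) hμ1
  have hnorm : ‖(μ₀ : K → ℂ) hk‖ = 1 := by
    rw [hlam]
    have h2 : ((lam hk : ℂˣ) : ℂ) ^ (orderOf hk) = 1 := by
      rw [← Units.val_pow_eq_pow_val, ← map_pow, pow_orderOf_eq_one, map_one, Units.val_one]
    exact Complex.norm_eq_one_of_pow_eq_one h2 (orderOf_pos hk).ne'
  rw [hval, norm_mul, hnorm]
  simp

/-- In a simple group of order `7920` a character of degree `5` vanishing on `5`-singular elements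
leaves no `5`-regular elements in the centralizer. -/
theorem eq_one_of_vanish [IsSimpleGroup G] (hperf : commutator G = ⊤) (θ : IrrCharacter G) (hd : charDegree (θ : G → ℂ) = 5)
    (hv : ∀ g : G, 5 ∣ orderOf g → (θ : G → ℂ) g = 0)
    {z h : G} (hz : orderOf z = 5) (hc : z * h = h * z) (hh : ¬ 5 ∣ orderOf h) : h = 1 := by
  have hθc := IsIrrCharacter.isCharacter θ.2
  have h1 : (θ : G → ℂ) 1 = 5 := by
    rw [apply_one_eq_charDegree hθc, hd]
    simp
  have hn := norm_eq_five hθc h1 hv hz hc hh
  have hne : (θ : G → ℂ) ≠ fun _ => 1 := by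
    intro h0
    rw [h0] at h1
    norm_num at h1
  have hker := charKer_eq_bot_of_isSimpleGroup inferInstance θ.2 hne
  have hf : ∀ g, (θ : G → ℂ) g = (θ : G → ℂ) 1 → g = 1 := by
    intro g hg
    have h2 : g ∈ charKer (θ : G → ℂ) := (mem_charKer hθc).mpr hg
    rw [hker] at h2
    exact (Subgroup.mem_bot.mp h2)
  have hcen := Cfsg.Agent.Lib.Char.RV.mem_center_of_norm_eq θ.2 hf (a := h) (by rw [hn, h1]; simp)
  rcases IsSimpleGroup.eq_bot_or_eq_top_of_normal (Subgroup.center G) inferInstance with h0 | h0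
  · rw [h0] at hcen
    exact Subgroup.mem_bot.mp hcen
  · exfalso
    have h2 : commutator G ≤ ⊥ := by
      rw [commutator_def, Subgroup.commutator_le]
      intro a _ b _
      have h3 : a ∈ Subgroup.center G := by
        rw [h0]
        trivial
      rw [Subgroup.mem_bot, commutatorElement_eq_one_iff_mul_comm]
      exact (Subgroup.mem_center_iff.mp h3 b).symm
    rw [hperf] at h2
    exact top_ne_bot (le_bot_iff.mp h2)

end Cfsg.Agent.Lib.H8Group.M11
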