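import Mathlib

/-!
# An alternating sum over chains of `p`-subgroups normal in the largest member

Let `u ≠ 1` be a `p`-element central in the subgroup `D`. The signed count of the nonempty chains
of nontrivial `p`-subgroups, normal in the largest member of the chain and normalised by `D`, is `1`.
-/

set_option autoImplicit false

namespace Cfsg.Agent.Lib.H8Group.NChain

open scoped Classical

variable {G : Type*} [Group G] {p : ℕ}

/-- Stability under conjugation by `c`. -/
def Nz (c : G) (A : Subgroup G) : Prop := ∀ g ∈ A, c * g * c⁻¹ ∈ A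

theorem mem_nrm_of_nz {c : G} {A : Subgroup G} (h1 : Nz c A) (h2 : Nz c⁻¹ A) :
    c ∈ Subgroup.normalizer (A : Set G) := by
  rw [Subgroup.mem_normalizer_iff]
  intro g
  refine ⟨h1 g, fun h => ?_⟩
  have := h2 _ h
  simpa [mul_assoc] using this

theorem nz_of_mem {c : G} {A : Subgroup G} (h : c ∈ Subgroup.normalizer (A : Set G)) : Nz c A :=
  fun g hg => (Subgroup.mem_normalizer_iff.mp h g).mp hg

theorem nz_sup {c : G} {A B : Subgroup G} (h1 : Nz c A) (h2 : Nz c B) : Nz c (A ⊔ B) := by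
  have : A ⊔ B ≤ (A ⊔ B).comap (MulAut.conj c).toMonoidHom := by
    refine sup_le (fun g hg => ?_) (fun g hg => ?_)
    · exact Subgroup.mem_comap.mpr ((le_sup_left : A ≤ A ⊔ B) (by simpa using h1 g hg))
    · exact Subgroup.mem_comap.mpr ((le_sup_right : B ≤ A ⊔ B) (by simpa using h2 g hg))
  intro g hg
  simpa using this hg

theorem mem_nrm_sup {c : G} {A B : Subgroup G} (h1 : c ∈ Subgroup.normalizer (A : Set G))
    (h2 : c ∈ Subgroup.normalizer (B : Set G)) : c ∈ Subgroup.normalizer ((A ⊔ B : Subgroup G) : Set G) :=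
  mem_nrm_of_nz (nz_sup (nz_of_mem h1) (nz_of_mem h2))
    (nz_sup (nz_of_mem (inv_mem h1)) (nz_of_mem (inv_mem h2)))

theorem le_nrm_sup {C A B : Subgroup G} (h1 : C ≤ Subgroup.normalizer (A : Set G))
    (h2 : C ≤ Subgroup.normalizer (B : Set G)) : C ≤ Subgroup.normalizer ((A ⊔ B : Subgroup G) : Set G) :=
  fun _ hc => mem_nrm_sup (h1 hc) (h2 hc)

theorem le_nrm_bot (C : Subgroup G) : C ≤ Subgroup.normalizer ((⊥ : Subgroup G) : Set G) := by
  intro c _
  refine mem_nrm_of_nz (fun g hg => ?_) (fun g hg => ?_)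
  · rw [Subgroup.mem_bot] at hg ⊢
    simp [hg]
  · rw [Subgroup.mem_bot] at hg ⊢
    simp [hg]

/-- The normal closure of `u` in `T`. -/
def Vv (u : G) (T : Subgroup G) : Subgroup G := Subgroup.closure {g | ∃ t ∈ T, g = t * u * t⁻¹}

theorem self_mem_Vv (u : G) (T : Subgroup G) : u ∈ Vv u T :=
  Subgroup.subset_closure ⟨1, one_mem _, by simp⟩

theorem Vv_le {u : G} {T : Subgroup G} (hu : u ∈ T) : Vv u T ≤ T := by
  rw [Vv, Subgroup.closure_le]
  rintro g ⟨t, ht, rfl⟩
  exact mul_mem (mul_mem ht hu) (inv_mem ht)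

theorem nz_Vv_of {u c : G} {T : Subgroup G} (h : ∀ t ∈ T, ∃ t' ∈ T, c * (t * u * t⁻¹) * c⁻¹ = t' * u * t'⁻¹) :
    Nz c (Vv u T) := by
  have : Vv u T ≤ (Vv u T).comap (MulAut.conj c).toMonoidHom := by
    rw [Vv, Subgroup.closure_le]
    rintro g ⟨t, ht, rfl⟩
    obtain ⟨t', ht', h1⟩ := h t ht
    refine Subgroup.mem_comap.mpr (Subgroup.subset_closure ⟨t', ht', ?_⟩)
    simpa using h1
  intro g hg
  simpa using this hg

theorem T_le_nrm_Vv (u : G) (T : Subgroup G) : T ≤ Subgroup.normalizer ((Vv u T : Subgroup G) : Set G) := by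
  intro c hc
  refine mem_nrm_of_nz (nz_Vv_of fun t ht => ⟨c * t, mul_mem hc ht, by group⟩)
    (nz_Vv_of fun t ht => ⟨c⁻¹ * t, mul_mem (inv_mem hc) ht, by group⟩)

theorem D_le_nrm_Vv {u : G} {T D : Subgroup G} (hDT : D ≤ Subgroup.normalizer (T : Set G))
    (hcomm : ∀ d ∈ D, d * u = u * d) : D ≤ Subgroup.normalizer ((Vv u T : Subgroup G) : Set G) := by
  have key : ∀ d ∈ D, Nz d (Vv u T) := by
    intro d hd
    refine nz_Vv_of fun t ht => ⟨d * t * d⁻¹, nz_of_mem (hDT hd) t ht, ?_⟩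
    have h1 : u = d⁻¹ * u * d := by
      rw [mul_assoc, ← hcomm d hd, inv_mul_cancel_left]
    calc d * (t * u * t⁻¹) * d⁻¹ = d * t * u * t⁻¹ * d⁻¹ := by group
      _ = d * t * (d⁻¹ * u * d) * t⁻¹ * d⁻¹ := by rw [← h1]
      _ = d * t * d⁻¹ * u * (d * t * d⁻¹)⁻¹ := by group
  intro d hd
  exact mem_nrm_of_nz (key d hd) (key d⁻¹ (inv_mem hd))

theorem D_le_nrm_zpowers {u : G} {D : Subgroup G} (hcomm : ∀ d ∈ D, d * u = u * d) :
    D ≤ Subgroup.normalizer ((Subgroup.zpowers u : Subgroup G) : Set G) := by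
  have key : ∀ d ∈ D, Nz d (Subgroup.zpowers u) := by
    intro d hd g hg
    obtain ⟨n, rfl⟩ := Subgroup.mem_zpowers_iff.mp hg
    have h1 : Commute d (u ^ n) := (show Commute d u from hcomm d hd).zpow_right n
    rw [h1.eq, mul_inv_cancel_right]
    exact hg
  intro d hd
  exact mem_nrm_of_nz (key d hd) (key d⁻¹ (inv_mem hd))

/-- In a `p`-group every proper subgroup lies in a proper normal subgroup. -/
theorem exists_normal_above [Fact p.Prime] [Finite G] {T A : Subgroup G} (hT : IsPGroup p T) (hAT : A ≤ T)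
    (hne : A ≠ T) : ∃ B : Subgroup G, A ≤ B ∧ B ≤ T ∧ B ≠ T ∧ ∀ t ∈ T, Nz t B := by
  have hA' : A.subgroupOf T ≠ ⊤ := by
    intro h
    apply hne
    refine le_antisymm hAT fun t ht => ?_
    have : (⟨t, ht⟩ : T) ∈ A.subgroupOf T := by rw [h]; exact Subgroup.mem_top _
    exact Subgroup.mem_subgroupOf.mp this
  obtain ⟨M, hM, hle⟩ := (eq_top_or_exists_le_coatom (A.subgroupOf T)).resolve_left hA'
  have hnil : Group.IsNilpotent T := hT.isNilpotent
  have hnorm : M.Normal :=
    Subgroup.NormalizerCondition.normal_of_coatom M Group.normalizerCondition_of_isNilpotent hM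
  refine ⟨M.map T.subtype, fun a ha => ?_, ?_, ?_, ?_⟩
  · exact ⟨⟨a, hAT ha⟩, hle (Subgroup.mem_subgroupOf.mpr ha), rfl⟩
  · rintro _ ⟨m, -, rfl⟩
    exact m.2
  · intro h
    apply hM.1
    rw [eq_top_iff]
    intro t _
    have h1 : (t : G) ∈ M.map T.subtype := by rw [h]; exact t.2
    obtain ⟨m, hm, hmt⟩ := h1
    have : m = t := Subtype.ext hmt
    rwa [← this]
  · rintro t ht _ ⟨m, hm, rfl⟩
    exact ⟨⟨t, ht⟩ * m * ⟨t, ht⟩⁻¹, hnorm.conj_mem m hm _, rfl⟩

theorem sup_Vv_ne [Fact p.Prime] [Finite G] {u : G} {Q T : Subgroup G} (hT : IsPGroup p T) (hu : u ∈ T)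
    (hQ : Q ≤ T) (hne : Q ⊔ Subgroup.zpowers u ≠ T) : Q ⊔ Vv u T ≠ T := by
  have hle : Q ⊔ Subgroup.zpowers u ≤ T :=
    sup_le hQ ((Subgroup.zpowers_le).mpr hu)
  obtain ⟨B, hAB, hBT, hBne, hB⟩ := exists_normal_above hT hle hne
  have huB : u ∈ B := hAB ((le_sup_right : _ ≤ Q ⊔ Subgroup.zpowers u) (Subgroup.mem_zpowers u))
  have hV : Vv u T ≤ B := by
    rw [Vv, Subgroup.closure_le]
    rintro g ⟨t, ht, rfl⟩
    exact hB t ht u huB
  have h1 : Q ⊔ Vv u T ≤ B := sup_le ((le_sup_left : Q ≤ Q ⊔ Subgroup.zpowers u).trans hAB) hV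
  intro h
  exact hBne (le_antisymm hBT (h ▸ h1))

/-- A chain of the kind considered, normalised by `D`. -/
structure DChain (p : ℕ) (D : Subgroup G) (s : Finset (Subgroup G)) : Prop where
  ne : s.Nonempty
  chain : ∀ Q ∈ s, ∀ R ∈ s, Q ≤ R ∨ R ≤ Q
  good : ∀ Q ∈ s, Q ≠ ⊥ ∧ IsPGroup p Q
  top : ∃ T ∈ s, ∀ Q ∈ s, Q ≤ T ∧ T ≤ Subgroup.normalizer ((Q : Subgroup G) : Set G)
  nrm : ∀ Q ∈ s, D ≤ Subgroup.normalizer ((Q : Subgroup G) : Set G)

/-- The largest member of a chain. -/
def topS (s : Finset (Subgroup G)) : Subgroup G := s.sup id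

theorem topS_eq {s : Finset (Subgroup G)} {T : Subgroup G} (hT : T ∈ s) (h : ∀ Q ∈ s, Q ≤ T) : topS s = T :=
  le_antisymm (Finset.sup_le h) (Finset.le_sup (f := id) hT)

variable {D : Subgroup G} {s : Finset (Subgroup G)}

theorem DChain.topS_mem (h : DChain p D s) : topS s ∈ s := by
  obtain ⟨T, hT, h1⟩ := h.top
  rw [topS_eq hT fun Q hQ => (h1 Q hQ).1]
  exact hT

theorem DChain.le_topS (_h : DChain p D s) {Q : Subgroup G} (hQ : Q ∈ s) : Q ≤ topS s :=
  Finset.le_sup (f := id) hQ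

theorem DChain.topS_nrm (h : DChain p D s) {Q : Subgroup G} (hQ : Q ∈ s) :
    topS s ≤ Subgroup.normalizer ((Q : Subgroup G) : Set G) := by
  obtain ⟨T, hT, h1⟩ := h.top
  rw [topS_eq hT fun Q hQ => (h1 Q hQ).1]
  exact (h1 Q hQ).2

/-- A new largest member. -/
theorem DChain.insert_top (h : DChain p D s) {x : Subgroup G} (hx : x ≠ ⊥) (hxp : IsPGroup p x)
    (hle : topS s ≤ x) (hn : ∀ Q ∈ s, x ≤ Subgroup.normalizer ((Q : Subgroup G) : Set G))
    (hD : D ≤ Subgroup.normalizer ((x : Subgroup G) : Set G)) :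
    DChain p D (insert x s) ∧ topS (insert x s) = x := by
  have htop : ∀ Q ∈ insert x s, Q ≤ x := by
    intro Q hQ
    rcases Finset.mem_insert.mp hQ with rfl | hQ
    · exact le_rfl
    · exact (h.le_topS hQ).trans hle
  refine ⟨⟨Finset.insert_nonempty _ _, fun Q hQ R hR => ?_, fun Q hQ => ?_, ⟨x, Finset.mem_insert_self _ _, fun Q hQ => ⟨htop Q hQ, ?_⟩⟩, fun Q hQ => ?_⟩,
    topS_eq (Finset.mem_insert_self _ _) htop⟩
  · rcases Finset.mem_insert.mp hQ with h1 | hQ1
    · rw [h1]
      exact Or.inr (htop R hR)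
    · rcases Finset.mem_insert.mp hR with h2 | hR1
      · rw [h2]
        exact Or.inl (htop Q hQ)
      · exact h.chain Q hQ1 R hR1
  · rcases Finset.mem_insert.mp hQ with rfl | hQ
    · exact ⟨hx, hxp⟩
    · exact h.good Q hQ
  · rcases Finset.mem_insert.mp hQ with rfl | hQ
    · exact Subgroup.le_normalizer
    · exact hn Q hQ
  · rcases Finset.mem_insert.mp hQ with rfl | hQ
    · exact hD
    · exact h.nrm Q hQ

/-- A new member in the middle. -/
theorem DChain.insert_mid (h : DChain p D s) {x : Subgroup G} (hx : x ≠ ⊥)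
    (hcomp : ∀ Q ∈ s, Q ≤ x ∨ x ≤ Q) (hle : x ≤ topS s)
    (hn : topS s ≤ Subgroup.normalizer ((x : Subgroup G) : Set G))
    (hD : D ≤ Subgroup.normalizer ((x : Subgroup G) : Set G)) :
    DChain p D (insert x s) ∧ topS (insert x s) = topS s := by
  have hT := h.topS_mem
  have htop : ∀ Q ∈ insert x s, Q ≤ topS s := by
    intro Q hQ
    rcases Finset.mem_insert.mp hQ with rfl | hQ
    · exact hle
    · exact h.le_topS hQ
  refine ⟨⟨Finset.insert_nonempty _ _, fun Q hQ R hR => ?_, fun Q hQ => ?_, ⟨topS s, Finset.mem_insert_of_mem hT, fun Q hQ => ⟨htop Q hQ, ?_⟩⟩, fun Q hQ => ?_⟩,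
    topS_eq (Finset.mem_insert_of_mem hT) htop⟩
  · rcases Finset.mem_insert.mp hQ with h1 | hQ1
    · rw [h1]
      rcases Finset.mem_insert.mp hR with h2 | hR1
      · rw [h2]
        exact Or.inl le_rfl
      · exact (hcomp R hR1).symm
    · rcases Finset.mem_insert.mp hR with h2 | hR1
      · rw [h2]
        exact hcomp Q hQ1
      · exact h.chain Q hQ1 R hR1
  · rcases Finset.mem_insert.mp hQ with rfl | hQ
    · exact ⟨hx, (h.good _ hT).2.to_le hle⟩
    · exact h.good Q hQ
  · rcases Finset.mem_insert.mp hQ with rfl | hQ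
    · exact hn
    · exact h.topS_nrm hQ
  · rcases Finset.mem_insert.mp hQ with rfl | hQ
    · exact hD
    · exact h.nrm Q hQ

/-- Removing a member which is not the largest one. -/
theorem DChain.erase_mid (h : DChain p D s) {x : Subgroup G} (hne : x ≠ topS s) :
    DChain p D (s.erase x) ∧ topS (s.erase x) = topS s := by
  have hT := h.topS_mem
  have hT' : topS s ∈ s.erase x := Finset.mem_erase.mpr ⟨hne.symm, hT⟩
  refine ⟨⟨⟨_, hT'⟩, fun Q hQ R hR => h.chain Q (Finset.mem_of_mem_erase hQ) R (Finset.mem_of_mem_erase hR),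
    fun Q hQ => h.good Q (Finset.mem_of_mem_erase hQ),
    ⟨topS s, hT', fun Q hQ => ⟨h.le_topS (Finset.mem_of_mem_erase hQ), h.topS_nrm (Finset.mem_of_mem_erase hQ)⟩⟩,
    fun Q hQ => h.nrm Q (Finset.mem_of_mem_erase hQ)⟩,
    topS_eq hT' fun Q hQ => h.le_topS (Finset.mem_of_mem_erase hQ)⟩

/-- A nonempty finite chain has a largest member. -/
theorem exists_max_of_chain {t : Finset (Subgroup G)} (hne : t.Nonempty)
    (hc : ∀ Q ∈ t, ∀ R ∈ t, Q ≤ R ∨ R ≤ Q) : ∃ m ∈ t, ∀ Q ∈ t, Q ≤ m := by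
  obtain ⟨m, hm⟩ := t.exists_maximal hne
  refine ⟨m, hm.1, fun Q hQ => ?_⟩
  rcases hc Q hQ m hm.1 with h | h
  · exact h
  · exact hm.2 hQ h

/-- Removing the largest member. -/
theorem DChain.erase_top (h : DChain p D s) {R : Subgroup G} (hR : R ∈ s) (hne : R ≠ topS s) :
    DChain p D (s.erase (topS s)) ∧ topS (s.erase (topS s)) ∈ s ∧ topS (s.erase (topS s)) ≠ topS s ∧
      R ≤ topS (s.erase (topS s)) := by
  have hR' : R ∈ s.erase (topS s) := Finset.mem_erase.mpr ⟨hne, hR⟩
  obtain ⟨m, hm, hmax⟩ := exists_max_of_chain (t := s.erase (topS s)) ⟨R, hR'⟩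
    (fun Q hQ R hR => h.chain Q (Finset.mem_of_mem_erase hQ) R (Finset.mem_of_mem_erase hR))
  have hmT : m ≤ topS s := h.le_topS (Finset.mem_of_mem_erase hm)
  have htop := topS_eq hm hmax
  rw [htop]
  refine ⟨⟨⟨_, hm⟩, fun Q hQ R hR => h.chain Q (Finset.mem_of_mem_erase hQ) R (Finset.mem_of_mem_erase hR),
    fun Q hQ => h.good Q (Finset.mem_of_mem_erase hQ),
    ⟨m, hm, fun Q hQ => ⟨hmax Q hQ, hmT.trans (h.topS_nrm (Finset.mem_of_mem_erase hQ))⟩⟩,
    fun Q hQ => h.nrm Q (Finset.mem_of_mem_erase hQ)⟩, Finset.mem_of_mem_erase hm, (Finset.mem_erase.mp hm).1,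
    hmax R hR'⟩

/-- The data of the central element. -/
structure UData (p : ℕ) (D : Subgroup G) (u : G) : Prop where
  mem : u ∈ D
  comm : ∀ d ∈ D, d * u = u * d
  ne : u ≠ 1
  pg : IsPGroup p (Subgroup.zpowers u)

variable (u : G)

/-- The largest member not containing the normal closure. -/
noncomputable def yS (s : Finset (Subgroup G)) : Subgroup G :=
  (s.filter (fun Q => Q ≠ topS s ∧ ¬ Vv u (topS s) ≤ Q)).sup id

/-- The member to toggle. -/
noncomputable def xS (s : Finset (Subgroup G)) : Subgroup G := yS u s ⊔ Vv u (topS s)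

/-- The sign reversing involution. -/
noncomputable def invS (s : Finset (Subgroup G)) : Finset (Subgroup G) :=
  if u ∉ topS s then insert (topS s ⊔ Subgroup.zpowers u) s
  else if ∃ R ∈ s, R ≠ topS s ∧ R ⊔ Subgroup.zpowers u = topS s then s.erase (topS s)
  else if xS u s ∈ s then s.erase (xS u s) else insert (xS u s) s

variable {u}

theorem topS_singleton (z : Subgroup G) : topS ({z} : Finset (Subgroup G)) = z := by
  simp [topS]

/-- The singleton chain. -/
theorem dChain_singleton (hu : UData p D u) : DChain p D {Subgroup.zpowers u} := by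
  refine ⟨Finset.singleton_nonempty _, ?_, ?_, ⟨Subgroup.zpowers u, Finset.mem_singleton_self _, ?_⟩, ?_⟩
  · intro Q hQ R hR
    rw [Finset.mem_singleton] at hQ hR
    rw [hQ, hR]
    exact Or.inl le_rfl
  · intro Q hQ
    rw [Finset.mem_singleton] at hQ
    subst hQ
    refine ⟨?_, hu.pg⟩
    simpa using hu.ne
  · intro Q hQ
    rw [Finset.mem_singleton] at hQ
    subst hQ
    exact ⟨le_rfl, Subgroup.le_normalizer⟩
  · intro Q hQ
    rw [Finset.mem_singleton] at hQ
    subst hQ
    exact D_le_nrm_zpowers hu.comm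

/-- First case: the element is not in the top member. -/
theorem invS_case1 (hu : UData p D u) (hs : DChain p D s) (huT : u ∉ topS s) :
    DChain p D (invS u s) ∧ invS u s ≠ {Subgroup.zpowers u} ∧ invS u (invS u s) = s ∧
      (invS u s).card = s.card + 1 := by
  have hT := hs.topS_mem
  set T := topS s with hTdef
  set x := T ⊔ Subgroup.zpowers u with hxdef
  have hinv : invS u s = insert x s := by
    rw [invS, if_pos (by rwa [← hTdef])]
  have huD : Subgroup.zpowers u ≤ Subgroup.normalizer ((T : Subgroup G) : Set G) :=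
    (Subgroup.zpowers_le).mpr (hs.nrm T hT hu.mem)
  have hxp : IsPGroup p x := IsPGroup.to_sup_of_normal_left' (hs.good T hT).2 hu.pg huD
  have hTx : T ≤ x := le_sup_left
  have hux : u ∈ x := (le_sup_right : _ ≤ x) (Subgroup.mem_zpowers u)
  have hxne : x ≠ ⊥ := by
    intro h
    rw [h, Subgroup.mem_bot] at hux
    exact hu.ne hux
  have hxs : x ∉ s := fun h => huT ((hs.le_topS h) hux)
  have hn : ∀ Q ∈ s, x ≤ Subgroup.normalizer ((Q : Subgroup G) : Set G) := by
    intro Q hQ
    refine sup_le (hs.topS_nrm hQ) ((Subgroup.zpowers_le).mpr (hs.nrm Q hQ hu.mem))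
  have hD : D ≤ Subgroup.normalizer ((x : Subgroup G) : Set G) :=
    le_nrm_sup (hs.nrm T hT) (D_le_nrm_zpowers hu.comm)
  obtain ⟨hc, htop⟩ := hs.insert_top hxne hxp hTx hn hD
  rw [hinv]
  refine ⟨hc, ?_, ?_, Finset.card_insert_of_notMem hxs⟩
  · intro h
    have h1 : T ∈ insert x s := Finset.mem_insert_of_mem hT
    rw [h, Finset.mem_singleton] at h1
    exact huT (h1 ▸ Subgroup.mem_zpowers u)
  · have h1 : invS u (insert x s) = (insert x s).erase (topS (insert x s)) := by
      rw [invS, if_neg (by rw [htop, not_not]; exact hux), if_pos]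
      rw [htop]
      refine ⟨T, Finset.mem_insert_of_mem hT, ?_, rfl⟩
      intro h
      exact huT (by rw [h]; exact hux)
    rw [h1, htop, Finset.erase_insert hxs]

/-- Second case: a member generates the top member together with the element. -/
theorem invS_case2 (hu : UData p D u) (hs : DChain p D s) (huT : u ∈ topS s)
    (hR : ∃ R ∈ s, R ≠ topS s ∧ R ⊔ Subgroup.zpowers u = topS s) :
    DChain p D (invS u s) ∧ invS u s ≠ {Subgroup.zpowers u} ∧ invS u (invS u s) = s ∧
      s.card = (invS u s).card + 1 := by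
  have hT := hs.topS_mem
  have hinv : invS u s = s.erase (topS s) := by
    rw [invS, if_neg (by rw [not_not]; exact huT), if_pos hR]
  obtain ⟨R, hRs, hRne, hRsup⟩ := hR
  obtain ⟨hc, hm, hmne, hRm⟩ := hs.erase_top hRs hRne
  set m := topS (s.erase (topS s)) with hmdef
  have hmsup : m ⊔ Subgroup.zpowers u = topS s := by
    refine le_antisymm (sup_le (hs.le_topS hm) (Subgroup.zpowers_le.mpr huT)) ?_
    rw [← hRsup]
    exact sup_le_sup_right hRm _
  have hum : u ∉ m := by
    intro h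
    apply hmne
    rw [← hmsup]
    exact (sup_eq_left.mpr (Subgroup.zpowers_le.mpr h)).symm
  rw [hinv]
  refine ⟨hc, ?_, ?_, ?_⟩
  · intro h
    rw [h, topS_singleton] at hmdef
    exact hum (hmdef ▸ Subgroup.mem_zpowers u)
  · rw [invS, if_pos (by rw [← hmdef]; exact hum), ← hmdef, hmsup]
    exact Finset.insert_erase hT
  · rw [Finset.card_erase_of_mem hT]
    have := Finset.card_pos.mpr hs.ne
    omega

theorem yS_le (hs : DChain p D s) : yS u s ≤ topS s :=
  Finset.sup_le fun Q hQ => hs.le_topS (Finset.mem_filter.mp hQ).1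

theorem yS_cases (hs : DChain p D s) : yS u s = ⊥ ∨ (yS u s ∈ s ∧ yS u s ≠ topS s ∧ ¬ Vv u (topS s) ≤ yS u s) := by
  by_cases hne : (s.filter (fun Q => Q ≠ topS s ∧ ¬ Vv u (topS s) ≤ Q)).Nonempty
  · obtain ⟨m, hm, hmax⟩ := exists_max_of_chain hne
      (fun Q hQ R hR => hs.chain Q (Finset.mem_filter.mp hQ).1 R (Finset.mem_filter.mp hR).1)
    right
    have h1 : yS u s = m := topS_eq hm hmax
    rw [h1]
    exact ⟨(Finset.mem_filter.mp hm).1, (Finset.mem_filter.mp hm).2.1, (Finset.mem_filter.mp hm).2.2⟩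
  · left
    rw [Finset.not_nonempty_iff_eq_empty] at hne
    rw [yS, hne, Finset.sup_empty]

/-- Third case. -/
theorem invS_case3 [Fact p.Prime] [Finite G] (hu : UData p D u) (hs : DChain p D s) (huT : u ∈ topS s)
    (hR : ¬ ∃ R ∈ s, R ≠ topS s ∧ R ⊔ Subgroup.zpowers u = topS s) (hs0 : s ≠ {Subgroup.zpowers u}) :
    DChain p D (invS u s) ∧ invS u s ≠ {Subgroup.zpowers u} ∧ invS u (invS u s) = s ∧
      ((invS u s).card = s.card + 1 ∨ s.card = (invS u s).card + 1) := by
  have hT := hs.topS_mem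
  have hTp := (hs.good _ hT).2
  have hinv : invS u s = if xS u s ∈ s then s.erase (xS u s) else insert (xS u s) s := by
    rw [invS, if_neg (by rw [not_not]; exact huT), if_neg hR]
  set T := topS s with hTdef
  set V := Vv u T with hVdef
  set y := yS u s with hydef
  have hxdef : xS u s = y ⊔ V := rfl
  set x := xS u s with hxx
  have hVT : V ≤ T := Vv_le huT
  have hyT : y ≤ T := yS_le hs
  have hxT : x ≤ T := by rw [hxdef]; exact sup_le hyT hVT
  have hux : u ∈ x := by
    rw [hxdef]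
    exact (le_sup_right : V ≤ y ⊔ V) (self_mem_Vv u T)
  have hxbot : x ≠ ⊥ := by
    intro h
    rw [h, Subgroup.mem_bot] at hux
    exact hu.ne hux
  -- the top member is not the cyclic group
  have hTz : Subgroup.zpowers u ≠ T := by
    intro h
    apply hs0
    ext Q
    rw [Finset.mem_singleton]
    constructor
    · intro hQ
      by_contra hne
      apply hR
      refine ⟨Q, hQ, ?_, ?_⟩
      · rw [← h]; exact hne
      · rw [← h]
        exact sup_eq_right.mpr (by rw [h]; exact hs.le_topS hQ)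
    · rintro rfl
      rw [h]
      exact hT
  have hyz : y ⊔ Subgroup.zpowers u ≠ T := by
    rcases yS_cases (u := u) hs with h | ⟨h1, h2, -⟩
    · rw [hydef, h, bot_sup_eq]
      exact hTz
    · intro h3
      exact hR ⟨y, h1, h2, h3⟩
  have hxne : x ≠ T := by
    rw [hxdef]
    exact sup_Vv_ne hTp huT hyT hyz
  have hny : T ≤ Subgroup.normalizer ((y : Subgroup G) : Set G) := by
    rcases yS_cases (u := u) hs with h | ⟨h1, -, -⟩
    · rw [hydef, h]
      exact le_nrm_bot _
    · exact hs.topS_nrm h1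
  have hDy : D ≤ Subgroup.normalizer ((y : Subgroup G) : Set G) := by
    rcases yS_cases (u := u) hs with h | ⟨h1, -, -⟩
    · rw [hydef, h]
      exact le_nrm_bot _
    · exact hs.nrm _ h1
  have hnx : T ≤ Subgroup.normalizer ((x : Subgroup G) : Set G) := by
    rw [hxdef]
    exact le_nrm_sup hny (T_le_nrm_Vv u T)
  have hDx : D ≤ Subgroup.normalizer ((x : Subgroup G) : Set G) := by
    rw [hxdef]
    exact le_nrm_sup hDy (D_le_nrm_Vv (hs.nrm T hT) hu.comm)
  have hcomp : ∀ Q ∈ s, Q ≤ x ∨ x ≤ Q := by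
    intro Q hQ
    by_cases hVQ : V ≤ Q
    · right
      rw [hxdef]
      refine sup_le (Finset.sup_le fun Q' hQ' => ?_) hVQ
      obtain ⟨hQ's, -, hQ'V⟩ := Finset.mem_filter.mp hQ'
      rcases hs.chain Q' hQ's Q hQ with h | h
      · exact h
      · exact absurd (hVQ.trans h) hQ'V
    · left
      have hQT : Q ≠ T := fun h => hVQ (h ▸ hVT)
      have h1 : Q ∈ s.filter (fun Q => Q ≠ topS s ∧ ¬ Vv u (topS s) ≤ Q) :=
        Finset.mem_filter.mpr ⟨hQ, hQT, hVQ⟩
      have h2 : Q ≤ y := Finset.le_sup (f := id) h1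
      exact h2.trans (by rw [hxdef]; exact le_sup_left)
  -- what is unchanged after toggling
  have hfilter : ∀ s' : Finset (Subgroup G), topS s' = T → (∀ Q, Q ≠ x → (Q ∈ s' ↔ Q ∈ s)) →
      xS u s' = x := by
    intro s' htop hmem
    have h1 : s'.filter (fun Q => Q ≠ topS s' ∧ ¬ Vv u (topS s') ≤ Q) =
        s.filter (fun Q => Q ≠ topS s ∧ ¬ Vv u (topS s) ≤ Q) := by
      ext Q
      simp only [Finset.mem_filter, htop, ← hTdef, ← hVdef]
      by_cases hQ : Q = x
      · subst hQ
        have : V ≤ x := by rw [hxdef]; exact le_sup_right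
        simp [this]
      · rw [hmem Q hQ]
    show yS u s' ⊔ Vv u (topS s') = x
    rw [hxdef, htop, yS, h1]
    rfl
  by_cases hxs : x ∈ s
  · -- removing
    obtain ⟨hc, htop⟩ := hs.erase_mid hxne
    have hinv' : invS u s = s.erase x := by rw [hinv, if_pos hxs]
    rw [hinv']
    refine ⟨hc, ?_, ?_, Or.inr ?_⟩
    · intro h
      rw [h, topS_singleton] at htop
      exact hTz htop
    · rw [invS, htop, if_neg (by rw [not_not]; exact huT), if_neg, hfilter _ htop, if_neg (Finset.notMem_erase _ _)]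
      · exact Finset.insert_erase hxs
      · intro Q hQ
        simp [Finset.mem_erase, hQ]
      · rintro ⟨R', hR', h1, h2⟩
        exact hR ⟨R', Finset.mem_of_mem_erase hR', h1, h2⟩
    · rw [Finset.card_erase_of_mem hxs]
      have := Finset.card_pos.mpr hs.ne
      omega
  · obtain ⟨hc, htop⟩ := hs.insert_mid hxbot hcomp hxT hnx hDx
    have hinv' : invS u s = insert x s := by rw [hinv, if_neg hxs]
    rw [hinv']
    refine ⟨hc, ?_, ?_, Or.inl (Finset.card_insert_of_notMem hxs)⟩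
    · intro h
      rw [h, topS_singleton] at htop
      exact hTz htop
    · rw [invS, htop, if_neg (by rw [not_not]; exact huT), if_neg, hfilter _ htop, if_pos (Finset.mem_insert_self _ _)]
      · exact Finset.erase_insert hxs
      · intro Q hQ
        simp [Finset.mem_insert, hQ]
      · rintro ⟨R', hR', h1, h2⟩
        rcases Finset.mem_insert.mp hR' with rfl | hR''
        · exact hxne ((sup_eq_left.mpr (Subgroup.zpowers_le.mpr hux)).symm.trans h2)
        · exact hR ⟨R', hR'', h1, h2⟩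

/-- Summary of the involution. -/
theorem invS_spec [Fact p.Prime] [Finite G] (hu : UData p D u) (hs : DChain p D s) (hs0 : s ≠ {Subgroup.zpowers u}) :
    DChain p D (invS u s) ∧ invS u s ≠ {Subgroup.zpowers u} ∧ invS u (invS u s) = s ∧
      ((invS u s).card = s.card + 1 ∨ s.card = (invS u s).card + 1) := by
  by_cases h1 : u ∈ topS s
  · by_cases h2 : ∃ R ∈ s, R ≠ topS s ∧ R ⊔ Subgroup.zpowers u = topS s
    · obtain ⟨a, b, c, d⟩ := invS_case2 hu hs h1 h2
      exact ⟨a, b, c, Or.inr d⟩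
    · exact invS_case3 hu hs h1 h2 hs0
  · obtain ⟨a, b, c, d⟩ := invS_case1 hu hs h1
    exact ⟨a, b, c, Or.inl d⟩

/-- **The alternating sum over the chains.** -/
theorem sum_chain_eq_one [Fact p.Prime] [Finite G] (hu : UData p D u) (F : Finset (Finset (Subgroup G)))
    (hF : ∀ s, s ∈ F ↔ DChain p D s) : ∑ s ∈ F, (-1 : ℤ) ^ (s.card - 1) = 1 := by
  have h0 : ({Subgroup.zpowers u} : Finset (Subgroup G)) ∈ F := (hF _).mpr (dChain_singleton hu)
  rw [← Finset.add_sum_erase F _ h0]
  have h1 : ∑ s ∈ F.erase {Subgroup.zpowers u}, (-1 : ℤ) ^ (s.card - 1) = 0 := by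
    refine Finset.sum_involution (fun s _ => invS u s) ?_ ?_ ?_ ?_
    · intro s hs
      obtain ⟨hs0, hsF⟩ := Finset.mem_erase.mp hs
      have hd := (hF s).mp hsF
      obtain ⟨hc, -, -, hcard⟩ := invS_spec hu hd hs0
      have hp1 := Finset.card_pos.mpr hd.ne
      have hp2 := Finset.card_pos.mpr hc.ne
      rcases hcard with h | h
      · rw [h, Nat.add_sub_cancel, show s.card = (s.card - 1) + 1 by omega, pow_succ]
        simp
      · rw [h, Nat.add_sub_cancel, show (invS u s).card = ((invS u s).card - 1) + 1 by omega, pow_succ]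
        simp
    · intro s hs _ h
      obtain ⟨hs0, hsF⟩ := Finset.mem_erase.mp hs
      obtain ⟨-, -, -, hcard⟩ := invS_spec hu ((hF s).mp hsF) hs0
      rw [h] at hcard
      omega
    · intro s hs
      obtain ⟨hs0, hsF⟩ := Finset.mem_erase.mp hs
      obtain ⟨hc, hne, -, -⟩ := invS_spec hu ((hF s).mp hsF) hs0
      exact Finset.mem_erase.mpr ⟨hne, (hF _).mpr hc⟩
    · intro s hs
      obtain ⟨hs0, hsF⟩ := Finset.mem_erase.mp hs
      exact (invS_spec hu ((hF s).mp hsF) hs0).2.2.1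
  rw [h1]
  simp

/-- The intersection of the normalisers of the members of a chain. -/
noncomputable def Nrm (s : Finset (Subgroup G)) : Subgroup G :=
  ⨅ Q ∈ s, Subgroup.normalizer ((Q : Subgroup G) : Set G)

theorem le_Nrm_iff {E : Subgroup G} : E ≤ Nrm s ↔ ∀ Q ∈ s, E ≤ Subgroup.normalizer ((Q : Subgroup G) : Set G) := by
  simp [Nrm, le_iInf_iff]

theorem dChain_sup_iff {H : Subgroup G} :
    DChain p (H ⊔ Subgroup.zpowers u) s ↔ DChain p ⊥ s ∧ u ∈ Nrm s ∧ H ≤ Nrm s := by
  constructor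
  · intro h
    refine ⟨⟨h.ne, h.chain, h.good, h.top, fun Q _ => bot_le⟩, ?_, ?_⟩
    · have h1 : H ⊔ Subgroup.zpowers u ≤ Nrm s := le_Nrm_iff.mpr h.nrm
      exact h1 ((le_sup_right : _ ≤ H ⊔ Subgroup.zpowers u) (Subgroup.mem_zpowers u))
    · have h1 : H ⊔ Subgroup.zpowers u ≤ Nrm s := le_Nrm_iff.mpr h.nrm
      exact le_sup_left.trans h1
  · rintro ⟨h, h1, h2⟩
    refine ⟨h.ne, h.chain, h.good, h.top, le_Nrm_iff.mp (sup_le h2 (Subgroup.zpowers_le.mpr h1))⟩

/-- **Inversion of the chain identity.** -/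
theorem sum_inversion [Fact p.Prime] [Finite G] (hu1 : u ≠ 1) (hup : IsPGroup p (Subgroup.zpowers u))
    {C : Subgroup G} (huC : u ∈ C) (hC : ∀ c ∈ C, c * u = u * c) (F : Finset (Finset (Subgroup G)))
    (hF : ∀ s, s ∈ F ↔ DChain p ⊥ s) (W : Subgroup G → ℤ) :
    ∑ s ∈ F.filter (fun s => u ∈ Nrm s), (-1 : ℤ) ^ (s.card - 1) * W (Nrm s ⊓ C) = W C := by
  classical
  letI : Fintype (Subgroup G) := Fintype.ofFinite _
  set Fu := F.filter (fun s => u ∈ Nrm s) with hFu
  let a : Subgroup G → ℤ := fun H => ∑ s ∈ Fu.filter (fun s => Nrm s ⊓ C = H), (-1 : ℤ) ^ (s.card - 1)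
  have hsup : ∀ H, H ≤ C → ∑ H' ∈ Finset.univ.filter (fun H' => H ≤ H'), a H' = 1 := by
    intro H hH
    have h1 : ∑ H' ∈ Finset.univ.filter (fun H' => H ≤ H'), a H' =
        ∑ s ∈ Fu.filter (fun s => H ≤ Nrm s ⊓ C), (-1 : ℤ) ^ (s.card - 1) := by
      rw [← Finset.sum_fiberwise_of_maps_to (s := Fu.filter (fun s => H ≤ Nrm s ⊓ C))
        (t := Finset.univ.filter (fun H' => H ≤ H')) (g := fun s => Nrm s ⊓ C)]
      · refine Finset.sum_congr rfl fun H' hH' => ?_
        refine Finset.sum_congr ?_ fun _ _ => rfl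
        ext s
        simp only [Finset.mem_filter] at hH' ⊢
        constructor
        · rintro ⟨hs, rfl⟩
          exact ⟨⟨hs, hH'.2⟩, rfl⟩
        · rintro ⟨⟨hs, -⟩, h⟩
          exact ⟨hs, h⟩
      · intro s hs
        simp only [Finset.mem_filter, Finset.mem_univ, true_and] at hs ⊢
        exact hs.2
    rw [h1]
    refine sum_chain_eq_one (D := H ⊔ Subgroup.zpowers u) ⟨?_, ?_, hu1, hup⟩ _ ?_
    · exact (le_sup_right : _ ≤ H ⊔ Subgroup.zpowers u) (Subgroup.mem_zpowers u)
    · intro d hd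
      exact hC d ((sup_le hH (Subgroup.zpowers_le.mpr huC)) hd)
    · intro s
      rw [dChain_sup_iff, Finset.mem_filter, hFu, Finset.mem_filter, hF]
      constructor
      · rintro ⟨⟨h1, h2⟩, h3⟩
        exact ⟨h1, h2, le_inf_iff.mp h3 |>.1⟩
      · rintro ⟨h1, h2, h3⟩
        exact ⟨⟨h1, h2⟩, le_inf h3 hH⟩
  have hzero : ∀ H, ¬ H ≤ C → a H = 0 := by
    intro H hH
    refine Finset.sum_eq_zero fun s hs => ?_
    exact absurd ((Finset.mem_filter.mp hs).2 ▸ inf_le_right) hH
  have hval : ∀ H, H ≤ C → a H = if H = C then 1 else 0 := by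
    intro H
    induction H using WellFoundedGT.induction with
    | _ H ih =>
      intro hH
      have h1 := hsup H hH
      rw [show Finset.univ.filter (fun H' => H ≤ H') =
        insert H (Finset.univ.filter (fun H' => H < H')) from ?_, Finset.sum_insert (by simp)] at h1
      · have h2 : ∀ H' ∈ Finset.univ.filter (fun H' => H < H'), a H' = if H' = C then 1 else 0 := by
          intro H' hH'
          have hlt : H < H' := (Finset.mem_filter.mp hH').2
          by_cases hle : H' ≤ C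
          · exact ih H' hlt hle
          · rw [hzero H' hle, if_neg]
            rintro rfl
            exact hle le_rfl
        rw [Finset.sum_congr rfl h2, Finset.sum_ite_eq'] at h1
        by_cases hHC : H = C
        · subst hHC
          simpa using h1
        · have hlt : H < C := lt_of_le_of_ne hH hHC
          rw [if_pos (by simpa using hlt)] at h1
          rw [if_neg hHC]
          omega
      · ext H'
        simp only [Finset.mem_filter, Finset.mem_univ, true_and, Finset.mem_insert]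
        constructor
        · intro h
          rcases eq_or_lt_of_le h with h | h
          · exact Or.inl h.symm
          · exact Or.inr h
        · rintro (rfl | h)
          · exact le_rfl
          · exact h.le
  -- the final computation
  rw [← Finset.sum_fiberwise (s := Fu) (g := fun s => Nrm s ⊓ C)]
  have h3 : ∀ H : Subgroup G, ∑ s ∈ Fu.filter (fun s => Nrm s ⊓ C = H), (-1 : ℤ) ^ (s.card - 1) * W (Nrm s ⊓ C) =
      (if H = C then 1 else 0) * W H := by
    intro H
    have h4 : ∑ s ∈ Fu.filter (fun s => Nrm s ⊓ C = H), (-1 : ℤ) ^ (s.card - 1) * W (Nrm s ⊓ C) = a H * W H := by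
      rw [Finset.sum_mul]
      refine Finset.sum_congr rfl fun s hs => ?_
      rw [(Finset.mem_filter.mp hs).2]
    rw [h4]
    by_cases hH : H ≤ C
    · rw [hval H hH]
    · rw [hzero H hH, if_neg]
      rintro rfl
      exact hH le_rfl
  rw [Finset.sum_congr rfl fun H _ => h3 H]
  simp

end Cfsg.Agent.Lib.H8Group.NChain
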