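import Cfsg.Agent.Lib.H8Group.CentricBlock

/-!
# Nilpotent blocks and normal subgroups of `p`-power index
-/

set_option autoImplicit false
set_option linter.unusedSectionVars false
set_option linter.style.haveILetI false

namespace Cfsg.Agent.Lib.H8Group

open Cfsg Cfsg.Agent.Lib.Char Cfsg.Agent.Lib.Blocks

universe u

section Setup

variable {G : Type u} [Group G] (N Q : Subgroup G)

/-- `C_N(Q)` as a subgroup of `N`. -/
abbrev cenK : Subgroup N := Subgroup.centralizer ((Q.subgroupOf N : Subgroup N) : Set N)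

/-- `C_N(Q)` as a subgroup of `C_G(Q)`. -/
abbrev cenL : Subgroup (Subgroup.centralizer (Q : Set G)) := N.subgroupOf (Subgroup.centralizer (Q : Set G))

variable {N Q}

theorem mem_cenK_iff (hQN : Q ≤ N) (k : N) : k ∈ cenK N Q ↔ (k : G) ∈ Subgroup.centralizer (Q : Set G) := by
  rw [Subgroup.mem_centralizer_iff, Subgroup.mem_centralizer_iff]
  constructor
  · intro h q hq
    have h1 := h ⟨q, hQN hq⟩ (by
      show (⟨q, hQN hq⟩ : N) ∈ Q.subgroupOf N
      rw [Subgroup.mem_subgroupOf]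
      exact hq)
    exact congrArg Subtype.val h1
  · intro h q hq
    have hq' : (q : G) ∈ Q := by
      have : q ∈ Q.subgroupOf N := hq
      rwa [Subgroup.mem_subgroupOf] at this
    exact Subtype.ext (h _ hq')

/-- The two forms of `C_N(Q)`. -/
def cenKIso (hQN : Q ≤ N) : cenK N Q ≃* cenL N Q where
  toFun k := ⟨⟨k.1.1, (mem_cenK_iff hQN k.1).mp k.2⟩, k.1.2⟩
  invFun k := ⟨⟨k.1.1, k.2⟩, (mem_cenK_iff hQN ⟨k.1.1, k.2⟩).mpr k.1.2⟩
  left_inv k := rfl
  right_inv k := rfl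
  map_mul' a b := rfl

@[simp] theorem cenKIso_coe (hQN : Q ≤ N) (k : cenK N Q) : ((cenKIso hQN k : Subgroup.centralizer (Q : Set G)) : G) = ((k : N) : G) := rfl

@[simp] theorem cenKIso_symm_coe (hQN : Q ≤ N) (k : cenL N Q) : (((cenKIso hQN).symm k : N) : G) = ((k : Subgroup.centralizer (Q : Set G)) : G) := rfl

/-- Conjugation on `C_N(Q)`. -/
def conjL [hN : N.Normal] (x : G) (hx : conjS x Q = Q) : cenL N Q ≃* cenL N Q where
  toFun k := ⟨cenIso x hx k.1, hN.conj_mem _ k.2 x⟩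
  invFun k := ⟨(cenIso x hx).symm k.1, by
    have := hN.conj_mem _ k.2 x⁻¹
    rw [inv_inv] at this
    exact this⟩
  left_inv k := by
    apply Subtype.ext
    simp
  right_inv k := by
    apply Subtype.ext
    simp
  map_mul' a b := by
    apply Subtype.ext
    simp

@[simp] theorem conjL_coe [hN : N.Normal] (x : G) (hx : conjS x Q = Q) (k : cenL N Q) :
    ((conjL x hx k : Subgroup.centralizer (Q : Set G)) : G) = x * ((k : Subgroup.centralizer (Q : Set G)) : G) * x⁻¹ := rfl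

@[simp] theorem conjL_symm_coe [hN : N.Normal] (x : G) (hx : conjS x Q = Q) (k : cenL N Q) :
    (((conjL x hx).symm k : Subgroup.centralizer (Q : Set G)) : G) = x⁻¹ * ((k : Subgroup.centralizer (Q : Set G)) : G) * x := rfl

end Setup

section Omega

variable {G : Type u} [Group G] [Fintype G] {p : ℕ} [hp : Fact p.Prime] {M : Ideal AlgInt}
  {N : Subgroup G} [hN : N.Normal] {Q : Subgroup G}

theorem brauerOmega_eq_spec [Fintype (Subgroup.centralizer (Q : Set G))] (β : G → ℂ)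
    (ξ : IrrCharacter (Subgroup.centralizer (Q : Set G))) :
    brauerOmega Q β (ξ : Subgroup.centralizer (Q : Set G) → ℂ) = spec (Cfsg.Agent.Lib.Blocks.resFun (Subgroup.centralizer (Q : Set G)) β) ξ := by
  simp only [brauerOmega, spec]
  rw [finsum_eq_sum_of_fintype, Finset.sum_div]
  rfl

/-- The Brauer map over `N` and over `G`. -/
theorem brauerOmega_cen_eq (hQN : Q ≤ N) [Fintype (Subgroup.centralizer (Q : Set G))] [Fintype (cenL N Q)]
    [Fintype (cenK N Q)] {β : G → ℂ} (hcl : IsClassFunction G β) (hoff : ∀ g, g ∉ N → β g = 0) {β' : N → ℂ}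
    (hβ' : ∀ n : N, β' n = β n) (ξ : IrrCharacter (Subgroup.centralizer (Q : Set G))) (θ : IrrCharacter (cenL N Q))
    (hcon : classInner (fun n : cenL N Q => (ξ : Subgroup.centralizer (Q : Set G) → ℂ) n) (θ : cenL N Q → ℂ) ≠ 0) :
    brauerOmega Q β (ξ : Subgroup.centralizer (Q : Set G) → ℂ) = brauerOmega (Q.subgroupOf N) β' ((Cfsg.Agent.Lib.Blocks.irrComp (cenKIso hQN) θ : IrrCharacter (cenK N Q)) : cenK N Q → ℂ) := by
  classical
  have : Fintype (Subgroup.centralizer ((Q.subgroupOf N : Subgroup N) : Set N)) := inferInstance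
  rw [brauerOmega_eq_spec, brauerOmega_eq_spec]
  set r : cenL N Q → ℂ := fun k => β ((k : Subgroup.centralizer (Q : Set G)) : G) with hr
  have h1 : Cfsg.Agent.Lib.Blocks.resFun (Subgroup.centralizer (Q : Set G)) β = extendByZero (cenL N Q) r := by
    funext t
    by_cases ht : t ∈ cenL N Q
    · rw [extendByZero_of_mem _ _ ht]
      rfl
    · rw [extendByZero_of_notMem _ _ ht]
      exact hoff _ ht
  have hinv : ∀ g : Subgroup.centralizer (Q : Set G), Cfsg.Agent.Lib.Char.conjFun (cenL N Q) g r = r := by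
    intro g
    funext n
    simp only [Cfsg.Agent.Lib.Char.conjFun_apply, hr]
    have := hcl (n : Subgroup.centralizer (Q : Set G)) g⁻¹
    simpa using this
  rw [h1, spec_extendByZero (cenL N Q) hinv hcon]
  simp only [spec, Cfsg.Agent.Lib.Blocks.irrComp_coe, Function.comp_apply, map_one]
  congr 1
  rw [← Equiv.sum_comp (cenKIso hQN).toEquiv]
  refine Finset.sum_congr rfl fun k _ => ?_
  simp only [Cfsg.Agent.Lib.Blocks.resFun_apply, hβ', hr]
  rfl

/-- It suffices to check the Brauer pair condition on one character. -/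
theorem isBrauerPairOf_of_omega (hM : IsPModular p M) (hQ : IsPGroup p Q) {B : Set (IrrCharacter G)} (hB : IsPBlock M B)
    {e : Set (IrrCharacter (Subgroup.centralizer (Q : Set G)))} (he : IsPBlock M e)
    {ξ₀ : IrrCharacter (Subgroup.centralizer (Q : Set G))} (hξ₀ : ξ₀ ∈ e)
    (h : MemLocalIdeal M (brauerOmega Q (blockCoeff B) (ξ₀ : Subgroup.centralizer (Q : Set G) → ℂ) - 1)) : IsBrauerPairOf p M B Q e := by
  classical
  have := isPrime_of_modular hM
  letI : Fintype (Subgroup.centralizer (Q : Set G)) := Fintype.ofFinite _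
  refine ⟨⟨hQ, he⟩, hB, fun ξ hξ => ?_⟩
  rw [brauerOmega_eq_resPhi] at h ⊢
  have h2 := zS_apply_congr he (spec_mem_zS (resFun_isClassFunction (Subgroup.centralizer (Q : Set G))
    (coef_isClassFunction (indic B))) (fun x => indic_mem_zS hB _)) hξ hξ₀
  have h3 := MemLocalIdeal.add h2 h
  convert h3 using 1
  simp only [resPhi]
  ring

/-- The Brauer pairs of `c` give Brauer pairs of `B`. -/
theorem isBrauerPairOf_up (hM : IsPModular p M) (hQN : Q ≤ N) [Fintype (Subgroup.centralizer (Q : Set G))] [Fintype (cenL N Q)]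
    [Fintype (cenK N Q)] {B : Set (IrrCharacter G)} (hB : IsPBlock M B) {c : Set (IrrCharacter N)}
    (hcoef : ∀ g, blockCoeff B g = subgroupBlockCoeff N c g) {h : Set (IrrCharacter (cenK N Q))}
    (hp : IsBrauerPairOf p M c (Q.subgroupOf N) h) {e : Set (IrrCharacter (Subgroup.centralizer (Q : Set G)))}
    (he : IsPBlock M e) {ξ : IrrCharacter (Subgroup.centralizer (Q : Set G))} (hξ : ξ ∈ e) {θ : IrrCharacter (cenL N Q)}
    (hθ : Cfsg.Agent.Lib.Blocks.irrComp (cenKIso hQN) θ ∈ h)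
    (hcon : classInner (fun n : cenL N Q => (ξ : Subgroup.centralizer (Q : Set G) → ℂ) n) (θ : cenL N Q → ℂ) ≠ 0) :
    IsBrauerPairOf p M B Q e := by
  classical
  have hQp : IsPGroup p Q := hp.1.1.of_equiv (Subgroup.subgroupOfEquivOfLe hQN)
  refine isBrauerPairOf_of_omega hM hQp hB he hξ ?_
  rw [brauerOmega_cen_eq hQN (β' := blockCoeff c) (blockCoeff_isClassFunction B) (fun g hg => ?_) (fun n => ?_) ξ θ hcon]
  · exact hp.2.2 _ hθ
  · rw [hcoef, subgroupBlockCoeff, dif_neg hg]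
  · rw [hcoef, subgroupBlockCoeff, dif_pos n.2]

/-- The Brauer pairs of `B` on subgroups of `N` give Brauer pairs of `c`. -/
theorem isBrauerPairOf_down (hM : IsPModular p M) (hQN : Q ≤ N) [Fintype (Subgroup.centralizer (Q : Set G))] [Fintype (cenL N Q)]
    [Fintype (cenK N Q)] {B : Set (IrrCharacter G)} {c : Set (IrrCharacter N)} (hc : IsPBlock M c)
    (hcoef : ∀ g, blockCoeff B g = subgroupBlockCoeff N c g) {h : Set (IrrCharacter (cenK N Q))} (hh : IsPBlock M h)
    {e : Set (IrrCharacter (Subgroup.centralizer (Q : Set G)))} (hp : IsBrauerPairOf p M B Q e)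
    {ξ : IrrCharacter (Subgroup.centralizer (Q : Set G))} (hξ : ξ ∈ e) {θ : IrrCharacter (cenL N Q)}
    (hθ : Cfsg.Agent.Lib.Blocks.irrComp (cenKIso hQN) θ ∈ h)
    (hcon : classInner (fun n : cenL N Q => (ξ : Subgroup.centralizer (Q : Set G) → ℂ) n) (θ : cenL N Q → ℂ) ≠ 0) :
    IsBrauerPairOf p M c (Q.subgroupOf N) h := by
  classical
  refine isBrauerPairOf_of_omega hM (isPGroup_subgroupOf hp.1.1 N) hc hh hθ ?_
  rw [← brauerOmega_cen_eq hQN (β := blockCoeff B) (blockCoeff_isClassFunction B) (fun g hg => ?_) (fun n => ?_) ξ θ hcon]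
  · exact hp.2.2 _ hξ
  · rw [hcoef, subgroupBlockCoeff, dif_neg hg]
  · rw [hcoef, subgroupBlockCoeff, dif_pos n.2]

end Omega

section Stab

variable {G : Type u} [Group G] [Fintype G] {p : ℕ} [hp : Fact p.Prime] {M : Ideal AlgInt}
  {N : Subgroup G} [hN : N.Normal] {Q : Subgroup G}

/-- The action of an element of `G` on sets of characters of `C_N(Q)`. -/
def StabL (e : Set (IrrCharacter (cenL N Q))) (w : G) : Prop :=
  ∀ θ ∈ e, ∃ θ' ∈ e, ∀ k k' : cenL N Q, ((k' : Subgroup.centralizer (Q : Set G)) : G) =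
    w * ((k : Subgroup.centralizer (Q : Set G)) : G) * w⁻¹ → (θ' : cenL N Q → ℂ) k' = (θ : cenL N Q → ℂ) k

theorem StabL.mul {e : Set (IrrCharacter (cenL N Q))} {a b : G} (hb : conjS b Q = Q) (ha' : StabL e a) (hb' : StabL e b) :
    StabL e (a * b) := by
  intro θ hθ
  obtain ⟨θ₂, hθ₂, h2⟩ := hb' θ hθ
  obtain ⟨θ₃, hθ₃, h3⟩ := ha' θ₂ hθ₂
  refine ⟨θ₃, hθ₃, fun k k' hk => ?_⟩
  rw [h3 (conjL b hb k) k' (by rw [hk]; simp [mul_assoc])]
  exact h2 k _ rfl

theorem StabL.pow {e : Set (IrrCharacter (cenL N Q))} {a : G} (ha : conjS a Q = Q) (ha' : StabL e a) (n : ℕ) :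
    StabL e (a ^ n) := by
  induction n with
  | zero =>
    intro θ hθ
    refine ⟨θ, hθ, fun k k' hk => ?_⟩
    have : k' = k := by
      apply Subtype.ext
      apply Subtype.ext
      rw [hk]
      simp
    rw [this]
  | succ n ih =>
    rw [pow_succ]
    exact StabL.mul ha ih ha'

theorem stabL_of_one (hM : IsPModular p M) {e : Set (IrrCharacter (cenL N Q))} (he : IsPBlock M e) {w : G}
    (hw : conjS w Q = Q) [Fintype (cenL N Q)] {θ₀ : IrrCharacter (cenL N Q)}
    (hθ₀ : Cfsg.Agent.Lib.Blocks.irrComp (conjL w hw).symm θ₀ ∈ e) (hθ₀' : θ₀ ∈ e) : StabL e w := by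
  classical
  have := isPrime_of_modular hM
  have h1 : IsPBlock M (transBlock (conjL w hw).symm e) := isPBlock_transBlock _ he
  have h2 := irrComp_mem_transBlock (conjL w hw).symm hθ₀'
  have h3 : transBlock (conjL w hw).symm e = e := by
    rw [blockOf_eq_of_mem h1 h2, ← blockOf_eq_of_mem he hθ₀]
  intro θ hθ
  refine ⟨Cfsg.Agent.Lib.Blocks.irrComp (conjL w hw).symm θ, ?_, fun k k' hk => ?_⟩
  · rw [← h3]
    exact irrComp_mem_transBlock _ hθ
  · simp only [Cfsg.Agent.Lib.Blocks.irrComp_coe, Function.comp_apply]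
    have h4 : (conjL w hw).symm k' = k := by
      apply Subtype.ext
      apply Subtype.ext
      rw [conjL_symm_coe, hk]
      group
    rw [h4]

theorem StabL.irrComp_mem {e : Set (IrrCharacter (cenL N Q))} {w : G} (hS : StabL e w) (hw : conjS w Q = Q)
    [Fintype (cenL N Q)] {θ : IrrCharacter (cenL N Q)} (hθ : θ ∈ e) :
    Cfsg.Agent.Lib.Blocks.irrComp (conjL w hw).symm θ ∈ e := by
  obtain ⟨θ', hθ', h⟩ := hS θ hθ
  have h1 : Cfsg.Agent.Lib.Blocks.irrComp (conjL w hw).symm θ = θ' := by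
    apply Subtype.ext
    funext k
    simp only [Cfsg.Agent.Lib.Blocks.irrComp_coe, Function.comp_apply]
    exact (h _ k (by rw [conjL_symm_coe]; group)).symm
  rwa [h1]

theorem classInner_conjL [Fintype (Subgroup.centralizer (Q : Set G))] [Fintype (cenL N Q)] {x : G} (hx : conjS x Q = Q)
    (ξ : IrrCharacter (Subgroup.centralizer (Q : Set G))) (θ : IrrCharacter (cenL N Q)) :
    classInner (fun n : cenL N Q => ((Cfsg.Agent.Lib.Blocks.irrComp (cenIso x hx).symm ξ : IrrCharacter _) :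
        Subgroup.centralizer (Q : Set G) → ℂ) n)
      ((Cfsg.Agent.Lib.Blocks.irrComp (conjL x hx).symm θ : IrrCharacter (cenL N Q)) : cenL N Q → ℂ) =
    classInner (fun n : cenL N Q => (ξ : Subgroup.centralizer (Q : Set G) → ℂ) n) (θ : cenL N Q → ℂ) :=
  classInner_comp_mulEquiv (conjL x hx).symm (fun n : cenL N Q => (ξ : Subgroup.centralizer (Q : Set G) → ℂ) n)
    (θ : cenL N Q → ℂ)

theorem exists_index_cenL {k : ℕ} (hidx : N.index = p ^ k) : ∃ j : ℕ, (cenL N Q).index = p ^ j := by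
  have hpp : p.Prime := hp.out
  have h1 : (cenL N Q).index ∣ N.index := Subgroup.relIndex_dvd_index_of_normal _ _
  rw [hidx] at h1
  obtain ⟨j, -, hj⟩ := (Nat.dvd_prime_pow hpp).mp h1
  exact ⟨j, hj⟩

theorem stabL_of_stabilizes (hQN : Q ≤ N) [Fintype (cenL N Q)] [Fintype (cenK N Q)] {ht : Set (IrrCharacter (cenL N Q))}
    {h : Set (IrrCharacter (cenK N Q))}
    (hrel : ∀ θ, θ ∈ ht ↔ Cfsg.Agent.Lib.Blocks.irrComp (cenKIso hQN) θ ∈ h) {x : N}
    (hS : StabilizesBlock (cenK N Q) h x) : StabL ht (x : G) := by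
  intro θ hθ
  obtain ⟨χ', hχ', hc⟩ := hS.2 _ ((hrel θ).mp hθ)
  refine ⟨Cfsg.Agent.Lib.Blocks.irrComp (cenKIso hQN).symm χ', ?_, fun k k' hk => ?_⟩
  · rw [hrel, Cfsg.Agent.Lib.Blocks.irrComp_irrComp_symm]
    exact hχ'
  · simp only [Cfsg.Agent.Lib.Blocks.irrComp_coe, Function.comp_apply]
    have h1 := hc ((cenKIso hQN).symm k) ((cenKIso hQN).symm k') (by
      apply Subtype.ext
      simp only [cenKIso_symm_coe, Subgroup.coe_mul, Subgroup.coe_inv]
      exact hk)
    rw [h1]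
    simp

theorem stabilizes_of_stabL (hQN : Q ≤ N) [Fintype (cenL N Q)] [Fintype (cenK N Q)] {ht : Set (IrrCharacter (cenL N Q))}
    {h : Set (IrrCharacter (cenK N Q))}
    (hrel : ∀ θ, θ ∈ ht ↔ Cfsg.Agent.Lib.Blocks.irrComp (cenKIso hQN) θ ∈ h) {x : N}
    (hxN : x ∈ Subgroup.normalizer ((Q.subgroupOf N : Subgroup N) : Set N)) (hS : StabL ht (x : G)) :
    StabilizesBlock (cenK N Q) h x := by
  refine ⟨normalizer_le_normalizer_centralizer hxN, fun χ hχ => ?_⟩
  have h1 : Cfsg.Agent.Lib.Blocks.irrComp (cenKIso hQN).symm χ ∈ ht := by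
    rw [hrel, Cfsg.Agent.Lib.Blocks.irrComp_irrComp_symm]
    exact hχ
  obtain ⟨θ', hθ', hc⟩ := hS _ h1
  refine ⟨Cfsg.Agent.Lib.Blocks.irrComp (cenKIso hQN) θ', (hrel θ').mp hθ', fun k k' hk => ?_⟩
  simp only [Cfsg.Agent.Lib.Blocks.irrComp_coe, Function.comp_apply]
  have h2 := hc (cenKIso hQN k) (cenKIso hQN k') (by
    simp only [cenKIso_coe]
    rw [hk]
    rfl)
  rw [h2]
  simp

theorem mem_normalizer_subgroupOf_iff (hQN : Q ≤ N) (x : N) :
    x ∈ Subgroup.normalizer ((Q.subgroupOf N : Subgroup N) : Set N) ↔ (x : G) ∈ Subgroup.normalizer (Q : Set G) := by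
  rw [Subgroup.mem_normalizer_iff, Subgroup.mem_normalizer_iff]
  constructor
  · intro h q
    constructor
    · intro hq
      have h1 := (h ⟨q, hQN hq⟩).mp (by
        show (⟨q, hQN hq⟩ : N) ∈ Q.subgroupOf N
        rw [Subgroup.mem_subgroupOf]
        exact hq)
      rw [Subgroup.mem_subgroupOf] at h1
      exact h1
    · intro hq
      have hqN : q ∈ N := by
        have h2 := N.mul_mem (N.mul_mem (N.inv_mem x.2) (hQN hq)) x.2
        have h3 : (x : G)⁻¹ * ((x : G) * q * (x : G)⁻¹) * x = q := by group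
        rwa [h3] at h2
      have h1 := (h ⟨q, hqN⟩).mpr (by
        show _ ∈ Q.subgroupOf N
        rw [Subgroup.mem_subgroupOf]
        exact hq)
      rw [Subgroup.mem_subgroupOf] at h1
      exact h1
  · intro h q
    rw [Subgroup.mem_subgroupOf, Subgroup.mem_subgroupOf]
    exact h q

end Stab

section Main

variable {G : Type u} [Group G] [Fintype G] {p : ℕ} [hp : Fact p.Prime] {M : Ideal AlgInt}
  {N : Subgroup G} [hN : N.Normal]

theorem blockCoeff_isClassFunction' (B : Set (IrrCharacter G)) : IsClassFunction G (blockCoeff B) :=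
  blockCoeff_isClassFunction B

/-- **A block of `N` is nilpotent if the block above it is.** -/
theorem isNilpotentBlock_down (hM : IsPModular p M) {k : ℕ} (hidx : N.index = p ^ k) {c : Set (IrrCharacter N)}
    (hc : IsPBlock M c) {B : Set (IrrCharacter G)} (hB : IsPBlock M B)
    (hcoef : ∀ g, blockCoeff B g = subgroupBlockCoeff N c g) (hnil : IsNilpotentBlock p M B) :
    IsNilpotentBlock p M c := by
  classical
  have := isPrime_of_modular hM
  refine ⟨hc, fun Q' h hpair x hxN hxS hreg => ?_⟩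
  obtain ⟨Q, hQN, rfl⟩ : ∃ Q : Subgroup G, Q ≤ N ∧ Q' = Q.subgroupOf N :=
    ⟨Q'.map N.subtype, Subgroup.map_subtype_le _, (Subgroup.comap_map_eq_self_of_injective N.subtype_injective Q').symm⟩
  letI : Fintype (Subgroup.centralizer (Q : Set G)) := Fintype.ofFinite _
  letI : Fintype (cenL N Q) := Fintype.ofFinite _
  letI : Fintype (cenK N Q) := Fintype.ofFinite _
  haveI : (cenL N Q).Normal := Subgroup.normal_subgroupOf
  set ht : Set (IrrCharacter (cenL N Q)) := transBlock (cenKIso hQN).symm h with hht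
  have hhb : IsPBlock M h := hpair.1.2
  have htb : IsPBlock M ht := isPBlock_transBlock _ hhb
  have hrel : ∀ θ, θ ∈ ht ↔ Cfsg.Agent.Lib.Blocks.irrComp (cenKIso hQN) θ ∈ h := fun θ => Iff.rfl
  obtain ⟨θ₁, hθ₁⟩ := IsPBlock.nonempty htb
  obtain ⟨ξ, hξ⟩ := exists_over_irr (cenL N Q) θ₁
  have hebl := isPBlock_blockOf (M := M) ξ
  have hpB : IsBrauerPairOf p M B Q (blockOf M (ξ : Subgroup.centralizer (Q : Set G) → ℂ)) :=
    isBrauerPairOf_up hM hQN hB hcoef hpair hebl (self_mem_blockOf ξ) ((hrel θ₁).mp hθ₁) hξ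
  have hxT := (mem_normalizer_subgroupOf_iff hQN x).mp hxN
  have hxQ : conjS (x : G) Q = Q := conjS_eq_of_mem_normalizer hxT
  have hS : StabL ht (x : G) := stabL_of_stabilizes hQN hrel hxS
  obtain ⟨j, hj⟩ := exists_index_cenL (Q := Q) hidx
  have he' : conjB (x : G) hxQ (blockOf M (ξ : Subgroup.centralizer (Q : Set G) → ℂ)) =
      blockOf M (ξ : Subgroup.centralizer (Q : Set G) → ℂ) := by
    obtain ⟨e₀, -, hu⟩ := existsUnique_covering (cenL N Q) hM hj htb
    have h1 := hu _ ⟨hebl, ξ, self_mem_blockOf ξ, θ₁, hθ₁, hξ⟩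
    have h2 := hu _ ⟨isPBlock_conjB (x : G) hxQ hebl, Cfsg.Agent.Lib.Blocks.irrComp (cenIso (x : G) hxQ).symm ξ,
      irrComp_symm_mem_conjB (x : G) hxQ (self_mem_blockOf ξ), Cfsg.Agent.Lib.Blocks.irrComp (conjL (x : G) hxQ).symm θ₁,
      hS.irrComp_mem hxQ hθ₁, by rw [classInner_conjL]; exact hξ⟩
    exact h2.trans h1.symm
  have hx' := hnil.2 Q _ hpB (x : G) hxT (stabilizes_of_conjB_eq hxQ he') (by
    show ¬ p ∣ orderOf (x : G)
    rw [Subgroup.orderOf_coe]
    exact hreg)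
  exact (mem_cenK_iff hQN x).mpr hx'

/-- An element of order prime to `p` acting trivially on `Q` and on `R / Q` centralizes `R`. -/
theorem commute_of_commutator_mem {Q R : Subgroup G} (hQ : IsPGroup p Q) {x : G} (hreg : ¬ p ∣ orderOf x)
    (hxQ : ∀ q ∈ Q, x * q = q * x) {r : G} (hr : x * r * x⁻¹ * r⁻¹ ∈ Q) : x * r = r * x := by
  have hpp : p.Prime := hp.out
  set q := x * r * x⁻¹ * r⁻¹ with hq
  have h1 : ∀ n : ℕ, x ^ n * r * (x ^ n)⁻¹ = q ^ n * r := by
    intro n
    induction n with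
    | zero => simp
    | succ n ih =>
      have h2 : x * q ^ n = q ^ n * x := by
        have : Commute x q := hxQ q hr
        exact (this.pow_right n).eq
      calc x ^ (n + 1) * r * (x ^ (n + 1))⁻¹ = x * (x ^ n * r * (x ^ n)⁻¹) * x⁻¹ := by
            rw [pow_succ', mul_inv_rev]
            group
        _ = x * (q ^ n * r) * x⁻¹ := by rw [ih]
        _ = q ^ n * (x * r * x⁻¹) := by
            rw [← mul_assoc x, h2]
            group
        _ = q ^ n * (q * r) := by
            have h3 : q * r = x * r * x⁻¹ := by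
              rw [hq]
              group
            rw [h3]
        _ = q ^ (n + 1) * r := by
            rw [pow_succ]
            exact (mul_assoc _ _ _).symm
  have h2 := h1 (orderOf x)
  rw [pow_orderOf_eq_one] at h2
  simp only [one_mul, inv_one, mul_one] at h2
  have h3 : q ^ orderOf x = 1 := by
    have : q ^ orderOf x * r = 1 * r := by rw [one_mul, ← h2]
    exact mul_right_cancel this
  obtain ⟨n, hn⟩ := hQ ⟨q, hr⟩
  have hn' : q ^ p ^ n = 1 := congrArg Subtype.val hn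
  have hcop : Nat.Coprime (orderOf x) (p ^ n) :=
    Nat.Coprime.pow_right _ ((Nat.Prime.coprime_iff_not_dvd hpp).mpr hreg).symm
  have h4 : orderOf q ∣ Nat.gcd (orderOf x) (p ^ n) :=
    Nat.dvd_gcd (orderOf_dvd_of_pow_eq_one h3) (orderOf_dvd_of_pow_eq_one hn')
  rw [hcop] at h4
  have h5 : q = 1 := orderOf_eq_one_iff.mp (Nat.dvd_one.mp h4)
  have h6 : x * r * x⁻¹ * r⁻¹ * r * x = 1 * r * x := by rw [← hq, h5]
  have h7 : x * r * x⁻¹ * r⁻¹ * r * x = x * r := by group
  rw [h7] at h6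
  simpa using h6

/-- **A block of `G` is nilpotent if the block below it is.** -/
theorem isNilpotentBlock_up (hM : IsPModular p M) {k : ℕ} (hidx : N.index = p ^ k) {c : Set (IrrCharacter N)}
    (hc : IsPBlock M c) {B : Set (IrrCharacter G)} (hB : IsPBlock M B)
    (hcoef : ∀ g, blockCoeff B g = subgroupBlockCoeff N c g) (hnil : IsNilpotentBlock p M c) :
    IsNilpotentBlock p M B := by
  classical
  have := isPrime_of_modular hM
  have hpp : p.Prime := hp.out
  refine ⟨hB, fun R f hRf x hxN hxS hreg => ?_⟩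
  have hreg' : ¬ p ∣ orderOf x := hreg
  have hxNN : x ∈ N := mem_of_regular_of_index hidx hreg
  set Q : Subgroup G := R ⊓ N with hQdef
  have hQN : Q ≤ N := inf_le_right
  have hQR : Q ≤ R := inf_le_left
  have hcn : ∀ (g t : G), t ∈ N ↔ g * t * g⁻¹ ∈ N := by
    intro g t
    constructor
    · intro ht
      exact hN.conj_mem t ht g
    · intro ht
      have h1 := hN.conj_mem _ ht g⁻¹
      have h2 : g⁻¹ * (g * t * g⁻¹) * g⁻¹⁻¹ = t := by group
      rwa [h2] at h1
  have hRN : R ≤ Subgroup.normalizer (Q : Set G) := by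
    intro r hr
    rw [Subgroup.mem_normalizer_iff]
    intro t
    constructor
    · rintro ⟨ht, ht'⟩
      exact ⟨R.mul_mem (R.mul_mem hr ht) (R.inv_mem hr), (hcn r t).mp ht'⟩
    · rintro ⟨ht, ht'⟩
      refine ⟨?_, (hcn r t).mpr ht'⟩
      have h1 := R.mul_mem (R.mul_mem (R.inv_mem hr) ht) hr
      have h2 : r⁻¹ * (r * t * r⁻¹) * r = t := by group
      rwa [h2] at h1
  have hxT : x ∈ Subgroup.normalizer (Q : Set G) := by
    rw [Subgroup.mem_normalizer_iff]
    intro t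
    constructor
    · rintro ⟨ht, ht'⟩
      exact ⟨(Subgroup.mem_normalizer_iff.mp hxN t).mp ht, (hcn x t).mp ht'⟩
    · rintro ⟨ht, ht'⟩
      exact ⟨(Subgroup.mem_normalizer_iff.mp hxN t).mpr ht, (hcn x t).mpr ht'⟩
  have hxQ : conjS x Q = Q := conjS_eq_of_mem_normalizer hxT
  have hxR : conjS x R = R := conjS_eq_of_mem_normalizer hxN
  letI : Fintype (Subgroup.centralizer (Q : Set G)) := Fintype.ofFinite _
  letI : Fintype (cenL N Q) := Fintype.ofFinite _
  letI : Fintype (cenK N Q) := Fintype.ofFinite _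
  haveI : (cenL N Q).Normal := Subgroup.normal_subgroupOf
  obtain ⟨h₀, hh₀, hu⟩ := existsUnique_isNormalSubpair hM hRf.1 hQR hRN
  have hpair₀ : IsBrauerPairOf p M B Q h₀ := (isBrauerPairOf_iff_normal hM hh₀ hB).mp hRf
  have hconj : conjB x hxQ h₀ = h₀ := by
    have h1 := isNormalSubpair_conjB x hxQ hxR hh₀
    rw [conjB_eq_of_stabilizes hM hxR hRf.1.2 hxS] at h1
    exact hu _ h1
  have hh₀b : IsPBlock M h₀ := hpair₀.1.2
  obtain ⟨ξ₀, hξ₀⟩ := IsPBlock.nonempty hh₀b
  obtain ⟨θ₁, hθ₁⟩ := exists_constituent (cenL N Q) ξ₀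
  set ht : Set (IrrCharacter (cenL N Q)) := blockOf M (θ₁ : cenL N Q → ℂ) with hht
  have htb : IsPBlock M ht := isPBlock_blockOf θ₁
  set h : Set (IrrCharacter (cenK N Q)) := transBlock (cenKIso hQN) ht with hh
  have hb : IsPBlock M h := isPBlock_transBlock _ htb
  have hrel : ∀ θ, θ ∈ ht ↔ Cfsg.Agent.Lib.Blocks.irrComp (cenKIso hQN) θ ∈ h := by
    intro θ
    constructor
    · exact fun hθ => irrComp_mem_transBlock _ hθ
    · intro hθ
      have h1 : Cfsg.Agent.Lib.Blocks.irrComp (cenKIso hQN).symm (Cfsg.Agent.Lib.Blocks.irrComp (cenKIso hQN) θ) ∈ ht := hθ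
      rwa [Cfsg.Agent.Lib.Blocks.irrComp_symm_irrComp] at h1
  have hpair : IsBrauerPairOf p M c (Q.subgroupOf N) h :=
    isBrauerPairOf_down hM hQN hc hcoef hb hpair₀ hξ₀ ((hrel θ₁).mp (self_mem_blockOf θ₁)) hθ₁
  have hξx : Cfsg.Agent.Lib.Blocks.irrComp (cenIso x hxQ).symm ξ₀ ∈ h₀ := by
    have h1 := irrComp_symm_mem_conjB x hxQ hξ₀
    rwa [hconj] at h1
  obtain ⟨z, hz⟩ := covering_constituents (cenL N Q) hh₀b htb hξ₀ hξx (self_mem_blockOf θ₁) hθ₁
    (ψ := Cfsg.Agent.Lib.Blocks.irrComp (conjL x hxQ).symm θ₁) (by rw [classInner_conjL]; exact hθ₁)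
  have hzT : (z : G) ∈ Subgroup.normalizer (Q : Set G) := Subgroup.centralizer_le_normalizer _ z.2
  set w : G := z * x with hw
  have hwT : w ∈ Subgroup.normalizer (Q : Set G) := Subgroup.mul_mem _ hzT hxT
  have hwQ : conjS w Q = Q := conjS_eq_of_mem_normalizer hwT
  have hwS : StabL ht w := by
    refine stabL_of_one hM htb hwQ ?_ (self_mem_blockOf θ₁)
    have h1 : Cfsg.Agent.Lib.Blocks.irrComp (conjL w hwQ).symm θ₁ =
        conjIrr (cenL N Q) z (Cfsg.Agent.Lib.Blocks.irrComp (conjL x hxQ).symm θ₁) := by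
      apply Subtype.ext
      funext t
      simp only [Cfsg.Agent.Lib.Blocks.irrComp_coe, Function.comp_apply, conjIrr_coe, Cfsg.Agent.Lib.Char.conjFun_apply]
      refine congrArg (θ₁ : cenL N Q → ℂ) (Subtype.ext (Subtype.ext ?_))
      simp [hw, mul_assoc]
    rw [h1]
    exact hz
  obtain ⟨a, m, hm, hordw⟩ := Nat.exists_eq_pow_mul_and_not_dvd (orderOf_pos w).ne' p hpp.ne_one
  set y : G := w ^ (p ^ a) with hy
  have hordy : orderOf y = m := by
    have h1 : orderOf w / m = p ^ a := by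
      rw [hordw]
      exact Nat.mul_div_cancel _ (Nat.pos_of_ne_zero (fun h0 => hm (h0 ▸ dvd_zero p)))
    have h2 := orderOf_pow_orderOf_div (x := w) (orderOf_pos w).ne' (n := m) (by rw [hordw]; exact dvd_mul_left _ _)
    rwa [h1] at h2
  have hyreg : ¬ p ∣ orderOf y := by rwa [hordy]
  have hyN : y ∈ N := mem_of_regular_of_index hidx hyreg
  have hyT : y ∈ Subgroup.normalizer (Q : Set G) := Subgroup.pow_mem _ hwT _
  have hyS : StabL ht y := hwS.pow hwQ _
  have hyNT := (mem_normalizer_subgroupOf_iff hQN ⟨y, hyN⟩).mpr hyT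
  have hyC := hnil.2 (Q.subgroupOf N) h hpair ⟨y, hyN⟩ hyNT (stabilizes_of_stabL hQN hrel hyNT hyS) (by
    show ¬ p ∣ orderOf (⟨y, hyN⟩ : N)
    rw [← Subgroup.orderOf_coe]
    exact hyreg)
  have hyC' : y ∈ Subgroup.centralizer (Q : Set G) := (mem_cenK_iff hQN _).mp hyC
  -- the action on `Q`
  set T := Subgroup.normalizer (Q : Set G) with hT
  let σ := actOn Q (T := T) le_rfl
  have hσw : σ ⟨w, hwT⟩ = σ ⟨x, hxT⟩ := by
    have h1 : (⟨w, hwT⟩ : T) = ⟨z, hzT⟩ * ⟨x, hxT⟩ := rfl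
    have h2 : σ ⟨z, hzT⟩ = 1 := (mem_ker_actOn (T := T) le_rfl ⟨z, hzT⟩).mpr z.2
    rw [h1, map_mul, h2, one_mul]
  have hσ1 : (σ ⟨x, hxT⟩) ^ (p ^ a) = 1 := by
    rw [← hσw, ← map_pow]
    exact (mem_ker_actOn (T := T) le_rfl (⟨w, hwT⟩ ^ (p ^ a))).mpr hyC'
  have hσ2 : (σ ⟨x, hxT⟩) ^ (orderOf x) = 1 := by
    rw [← map_pow]
    have : (⟨x, hxT⟩ : T) ^ orderOf x = 1 := by
      apply Subtype.ext
      simp [pow_orderOf_eq_one]
    rw [this, map_one]
  have hcop : Nat.Coprime (orderOf x) (p ^ a) :=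
    Nat.Coprime.pow_right _ ((Nat.Prime.coprime_iff_not_dvd hpp).mpr hreg').symm
  have h5 : orderOf (σ ⟨x, hxT⟩) ∣ Nat.gcd (orderOf x) (p ^ a) :=
    Nat.dvd_gcd (orderOf_dvd_of_pow_eq_one hσ2) (orderOf_dvd_of_pow_eq_one hσ1)
  rw [hcop] at h5
  have hσx : σ ⟨x, hxT⟩ = 1 := orderOf_eq_one_iff.mp (Nat.dvd_one.mp h5)
  have hxC : x ∈ Subgroup.centralizer (Q : Set G) := (mem_ker_actOn (T := T) le_rfl ⟨x, hxT⟩).mp hσx
  -- the last step
  rw [Subgroup.mem_centralizer_iff]
  intro r hr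
  have hQp : IsPGroup p Q := hRf.1.1.to_le hQR
  have h6 : x * r * x⁻¹ * r⁻¹ ∈ Q := by
    refine ⟨R.mul_mem ((Subgroup.mem_normalizer_iff.mp hxN r).mp hr) (R.inv_mem hr), ?_⟩
    have h7 := hN.conj_mem _ (N.inv_mem hxNN) r
    have h8 := N.mul_mem hxNN h7
    have h9 : x * (r * x⁻¹ * r⁻¹) = x * r * x⁻¹ * r⁻¹ := by group
    rwa [h9] at h8
  have h7 := commute_of_commutator_mem (R := R) hQp hreg' (fun q hq => (Subgroup.mem_centralizer_iff.mp hxC q hq).symm) h6
  exact h7.symm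

end Main

end Cfsg.Agent.Lib.H8Group
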