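import Cfsg.Agent.Lib.H8Group.FusionBlocks
import Cfsg.Agent.Lib.H8Group.BlockBasics

/-!
# The fusion system of the principal block
-/

set_option autoImplicit false
set_option linter.unusedSectionVars false

namespace Cfsg.Agent.Lib.H8Group

open Cfsg Cfsg.Agent.Lib.Char Cfsg.Agent.Lib.Blocks

universe u v

section Abstract

variable {C D : Type u} [Group C] [Fintype C] [Group D] [Fintype D] {Γ : Type v} [Group Γ]
  {M : Ideal AlgInt} {p : ℕ} [hp : Fact p.Prime] {ρ : Γ →* MulAut C} {ι : D →* C}

theorem sum_brauer (hM : IsPModular p M) (hΓ : IsPGroup p Γ) (h : BrData ρ ι) {a : C → ℂ}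
    (ha : InvF ρ a) (haL : ∀ x, MemLocalRing M (a x)) :
    MemLocalIdeal M (∑ x, a x - ∑ y, a (ι y)) := by
  have := isPrime_of_modular hM
  have h1 := conv_brauer hM hΓ h (b := fun _ => 1) ha (fun _ _ => rfl) haL (fun _ => memLocalRing_one) 1
  simpa [conv] using h1

end Abstract

section Principal

variable {G : Type u} [Group G] [Fintype G] {M : Ideal AlgInt} {p : ℕ} [hp : Fact p.Prime] {Q Q' R : Subgroup G}

theorem eq_principal_of_isNormalSubpair (hM : IsPModular p M)
    {f : Set (IrrCharacter (Subgroup.centralizer (Q : Set G)))}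
    (h : IsNormalSubpair p M Q f R (principalBlock M (Subgroup.centralizer (R : Set G)))) :
    f = principalBlock M (Subgroup.centralizer (Q : Set G)) := by
  classical
  have := isPrime_of_modular hM
  letI : Fintype (Subgroup.centralizer (Q : Set G)) := Fintype.ofFinite _
  letI : Fintype (Subgroup.centralizer (R : Set G)) := Fintype.ofFinite _
  obtain ⟨⟨hQp, hf⟩, ⟨hRp, -⟩, hQR, hRN, hst, hv⟩ := h
  have hs := (isStable_iff_stabilizes hRN f).mpr hst
  have h1 := sum_brauer hM hRp (brData_c hQR hRN) (invF_of_isStable hs) (indic_mem_zS hf)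
  have hone : oneIrr (Subgroup.centralizer (R : Set G)) ∈ principalBlock M (Subgroup.centralizer (R : Set G)) :=
    one_mem_principalBlock
  have h2 := hv _ hone
  rw [brauerOmega_eq_brV_c hQR] at h2
  have h3 : spec (coef (indic f)) (oneIrr (Subgroup.centralizer (Q : Set G))) = ∑ x, coef (indic f) x := by
    simp [spec, oneIrr]
  have h4 : brV (cenIncl hQR) (indic f) (oneIrr (Subgroup.centralizer (R : Set G))) =
      ∑ y, coef (indic f) (cenIncl hQR y) := by
    simp [brV, spec, oneIrr]
  rw [spec_coef] at h3
  rw [← h3, ← h4] at h1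
  have h5 := MemLocalIdeal.add h1 h2
  have h6 : indic f (oneIrr (Subgroup.centralizer (Q : Set G))) -
      brV (cenIncl hQR) (indic f) (oneIrr (Subgroup.centralizer (R : Set G))) +
      (brV (cenIncl hQR) (indic f) (oneIrr (Subgroup.centralizer (R : Set G))) - 1) =
      indic f (oneIrr (Subgroup.centralizer (Q : Set G))) - 1 := by ring
  rw [h6] at h5
  have hmem : oneIrr (Subgroup.centralizer (Q : Set G)) ∈ f := by
    by_contra hn
    rw [indic_apply_of_notMem hn, zero_sub] at h5
    have h7 := MemLocalIdeal.neg h5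
    rw [neg_neg] at h7
    exact not_memLocalIdeal_one h7
  have h8 := blockOf_eq_of_mem hf hmem
  rw [h8]
  rfl

theorem principal_of_chain (hM : IsPModular p M) {a b : BrauerPairIdx G}
    (h : Relation.ReflTransGen (NormalSubpairRel p M) a b)
    (hb : b.2 = principalBlock M (Subgroup.centralizer (b.1 : Set G))) :
    a.2 = principalBlock M (Subgroup.centralizer (a.1 : Set G)) := by
  induction h using Relation.ReflTransGen.head_induction_on with
  | refl => exact hb
  | head hstep hrest ih =>
    rename_i a c
    have h1 : IsNormalSubpair p M a.1 a.2 c.1 c.2 := hstep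
    rw [ih] at h1
    exact eq_principal_of_isNormalSubpair hM h1

theorem subpairLE_principal (hM : IsPModular p M) (hR : IsPGroup p R) (hQR : Q ≤ R) :
    SubpairLE p M Q (principalBlock M (Subgroup.centralizer (Q : Set G))) R
      (principalBlock M (Subgroup.centralizer (R : Set G))) := by
  obtain ⟨f, hf, hle⟩ := exists_subpairLE hM ⟨hR, isPBlock_principalBlock M _⟩ Q hQR
  have h1 : f = principalBlock M (Subgroup.centralizer (Q : Set G)) :=
    principal_of_chain hM hle rfl
  rwa [h1] at hle

theorem conjB_principal (x : G) (h : conjS x Q = Q') (hM : IsPModular p M) :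
    conjB x h (principalBlock M (Subgroup.centralizer (Q : Set G))) =
      principalBlock M (Subgroup.centralizer (Q' : Set G)) := by
  classical
  have := isPrime_of_modular hM
  letI : Fintype (Subgroup.centralizer (Q : Set G)) := Fintype.ofFinite _
  letI : Fintype (Subgroup.centralizer (Q' : Set G)) := Fintype.ofFinite _
  have h1 : oneIrr (Subgroup.centralizer (Q' : Set G)) ∈
      conjB x h (principalBlock M (Subgroup.centralizer (Q : Set G))) := by
    rw [mem_conjB]
    exact one_mem_principalBlock
  have h8 := blockOf_eq_of_mem (isPBlock_conjB x h (isPBlock_principalBlock M _)) h1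
  rw [h8]
  rfl

/-- **S4681.** -/
theorem principal_fusion (hM : IsPModular p M) (S : Sylow p G) :
    IsMaximalBrauerPair p M (principalBlock M G) (S : Subgroup G)
      (principalBlock M (Subgroup.centralizer ((S : Subgroup G) : Set G))) ∧
    ∀ F : FusionSystem (S : Subgroup G), IsBlockFusionSystemOn p M (principalBlock M G) (S : Subgroup G)
      (principalBlock M (Subgroup.centralizer ((S : Subgroup G) : Set G))) F →
      ∀ Q : Subgroup G, F.Hom Q = (groupFusionSystem (S : Subgroup G)).Hom Q := by
  classical
  refine ⟨⟨isBrauerPairOf_principal hM S.isPGroup', fun R g hRg hle => ?_⟩, fun F hF Q => ?_⟩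
  · exact S.3 hRg.1.1 (le_of_subpairLE hle)
  · ext φ
    constructor
    · intro hφ
      obtain ⟨hQ, g, hg, hgQ, -, -, -⟩ := (hF.2 Q φ).mp hφ
      refine ⟨hQ, fun x => ?_, g, hg⟩
      rw [hg]
      exact hgQ ⟨x, x.2, rfl⟩
    · rintro ⟨hQ, hφS, g, hg⟩
      have hgQ : conjS g Q ≤ (S : Subgroup G) := by
        rintro _ ⟨u, hu, rfl⟩
        have h1 := hφS ⟨u, hu⟩
        rw [hg] at h1
        exact h1
      refine (hF.2 Q φ).mpr ⟨hQ, g, hg, hgQ, principalBlock M _, subpairLE_principal hM S.isPGroup' hQ, ?_⟩
      have h2 := subpairLE_principal (M := M) hM S.isPGroup' hgQ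
      rw [← conjB_principal g rfl hM] at h2
      exact h2

end Principal

end Cfsg.Agent.Lib.H8Group
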