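import Cfsg.Agent.Lib.H8Group.RegBlock

/-!
# Congruences on `p`-sections
-/

set_option autoImplicit false
set_option linter.unusedSectionVars false
set_option linter.style.haveILetI false

namespace Cfsg.Agent.Lib.H8Group

open Cfsg Cfsg.Agent.Lib.Char Cfsg.Agent.Lib.Blocks
open scoped ComplexConjugate

universe u

section

variable {G : Type u} [Group G] [Fintype G] {M : Ideal AlgInt} {p : ℕ} [hp : Fact p.Prime]

/-- A character value is unchanged modulo the local ideal by multiplying with a commuting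
`p`-element. -/
theorem character_mul_congr' (hM : IsPModular p M) {χ : G → ℂ} (hχ : IsCharacter G χ) {x w : G}
    (hc : Commute x w) {k : ℕ} (hx : orderOf x = p ^ k) :
    MemLocalIdeal M (χ (x * w) - χ w) := by
  classical
  haveI := isPrime_of_modular hM
  have hpp : p.Prime := hp.out
  obtain ⟨α, hα⟩ := exists_isPExp G p
  obtain ⟨y, hy, hcy, ⟨j, hj⟩, hyr⟩ := hα.isPPart w
  have hcu : Commute x (w ^ α) := hc.pow_right α
  have hcyx : Commute x y := by
    have h1 : y = (w ^ α)⁻¹ * w := by rw [eq_inv_mul_iff_mul_eq]; exact hy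
    rw [h1]
    exact hcu.inv_right.mul_right hc
  -- the product of the two `p`-elements
  have hord : ∃ e : ℕ, orderOf (x * w ^ α) = p ^ e := by
    have h1 : (x * w ^ α) ^ (p ^ (k + j)) = 1 := by
      rw [hcu.mul_pow]
      have h2 : x ^ (p ^ (k + j)) = 1 := by
        rw [pow_add, pow_mul, ← hx, pow_orderOf_eq_one, one_pow]
      have h3 : (w ^ α) ^ (p ^ (k + j)) = 1 := by
        rw [add_comm, pow_add, pow_mul, ← hj, pow_orderOf_eq_one, one_pow]
      rw [h2, h3, one_mul]
    obtain ⟨e, -, he⟩ := (Nat.dvd_prime_pow hpp).mp (orderOf_dvd_of_pow_eq_one h1)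
    exact ⟨e, he⟩
  obtain ⟨e, he⟩ := hord
  have h1 := character_mul_congr hM hχ (x := x * w ^ α) (y := y) (Commute.mul_left hcyx hcy) he hyr
  have h2 := character_mul_congr hM hχ (x := w ^ α) (y := y) hcy hj hyr
  have h3 : x * w ^ α * y = x * w := by rw [mul_assoc, hy]
  rw [h3] at h1
  rw [hy] at h2
  exact MemLocalIdeal.trans h1 (MemLocalIdeal.symm h2)

end

end Cfsg.Agent.Lib.H8Group
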