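import Mathlib
import Cfsg.Agent.Lib.Basic.Core

set_option autoImplicit false

/-!
Finite groups with a self-centralizing element `x` of prime order `p` (Brauer's setting).
-/

namespace Cfsg.Agent.Lib.H8Group

open Subgroup Cfsg Cfsg.Agent.Lib.Basic
open scoped commutatorElement

section SelfCent

set_option linter.unusedSectionVars false

variable {G : Type*} [Group G] {p : ℕ} [hp : Fact p.Prime] {x : G}

theorem sc_card_zpowers [Finite G] (hx : orderOf x = p) : Nat.card (zpowers x) = p := by
  rw [Nat.card_zpowers, hx]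

theorem sc_zpowers_eq [Finite G] (hx : orderOf x = p) {y : G} (hy : y ∈ zpowers x) (hy1 : y ≠ 1) :
    zpowers y = zpowers x := by
  have hle : zpowers y ≤ zpowers x := by rwa [zpowers_le]
  have hdvd : Nat.card (zpowers y) ∣ p := by
    rw [← sc_card_zpowers hx]; exact card_dvd_of_le hle
  rcases (Nat.dvd_prime hp.out).mp hdvd with h | h
  · exfalso
    have : y ∈ zpowers y := mem_zpowers y
    rw [eq_bot_of_card_eq _ h] at this
    exact hy1 (by simpa using this)
  · exact eq_of_le_of_card_ge hle (by rw [h, sc_card_zpowers hx])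

theorem sc_orderOf_eq [Finite G] (hx : orderOf x = p) {y : G} (hy : y ∈ zpowers x) (hy1 : y ≠ 1) :
    orderOf y = p := by
  rw [← Nat.card_zpowers, sc_zpowers_eq hx hy hy1, sc_card_zpowers hx]

theorem sc_le_zpowers [Finite G] (hx : orderOf x = p) (hC : centralizer ({x} : Set G) = zpowers x)
    {S : Subgroup G} (hS : IsPGroup p S) (hxS : x ∈ S) : S ≤ zpowers x := by
  have hx1 : x ≠ 1 := by
    rintro rfl
    rw [orderOf_one] at hx
    exact hp.out.one_lt.ne hx
  have hnt : Nontrivial S := ⟨⟨⟨x, hxS⟩, 1, fun h => hx1 (congrArg Subtype.val h)⟩⟩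
  have hcen := hS.center_nontrivial
  obtain ⟨z, hz⟩ := exists_ne (1 : center S)
  have hz1 : ((z : S) : G) ≠ 1 := by
    intro h
    apply hz
    exact Subtype.ext (Subtype.ext h)
  have hzcomm : ∀ s : S, (s : G) * ((z : S) : G) = ((z : S) : G) * s := by
    intro s
    have := (mem_center_iff.mp z.2) s
    exact congrArg Subtype.val this
  have hzC : ((z : S) : G) ∈ zpowers x := by
    rw [← hC, mem_centralizer_singleton_iff]
    exact (hzcomm ⟨x, hxS⟩).symm
  have hxz : x ∈ zpowers ((z : S) : G) := by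
    rw [sc_zpowers_eq hx hzC hz1]
    exact mem_zpowers x
  intro s hs
  rw [← hC, mem_centralizer_singleton_iff]
  obtain ⟨k, hk⟩ := mem_zpowers_iff.mp hxz
  rw [← hk]
  exact ((show Commute s ((z : S) : G) from hzcomm ⟨s, hs⟩).zpow_right k).eq

theorem sc_isPGroup [Finite G] (hx : orderOf x = p) : IsPGroup p (zpowers x) :=
  IsPGroup.of_card (n := 1) (by rw [sc_card_zpowers hx, pow_one])

/-- The Sylow subgroup generated by a self-centralizing element. -/
def scSylow [Finite G] (hx : orderOf x = p) (hC : centralizer ({x} : Set G) = zpowers x) : Sylow p G where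
  toSubgroup := zpowers x
  isPGroup' := sc_isPGroup hx
  is_maximal' := fun hQ hle => le_antisymm (sc_le_zpowers hx hC hQ (hle (mem_zpowers x))) hle

@[simp] theorem coe_scSylow [Finite G] (hx : orderOf x = p) (hC : centralizer ({x} : Set G) = zpowers x) :
    ((scSylow hx hC : Sylow p G) : Subgroup G) = zpowers x := rfl

theorem sc_centralizer_eq [Finite G] (hx : orderOf x = p) (hC : centralizer ({x} : Set G) = zpowers x)
    {y : G} (hy : y ∈ zpowers x) (hy1 : y ≠ 1) : centralizer ({y} : Set G) = zpowers x := by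
  apply le_antisymm
  · intro g hg
    rw [← hC, mem_centralizer_singleton_iff]
    have hxy : x ∈ zpowers y := by rw [sc_zpowers_eq hx hy hy1]; exact mem_zpowers x
    obtain ⟨k, hk⟩ := mem_zpowers_iff.mp hxy
    rw [← hk]
    exact ((show Commute g y from mem_centralizer_singleton_iff.mp hg).zpow_right k).eq
  · intro g hg
    rw [mem_centralizer_singleton_iff]
    obtain ⟨k, rfl⟩ := mem_zpowers_iff.mp hg
    obtain ⟨l, rfl⟩ := mem_zpowers_iff.mp hy
    exact zpow_mul_comm x k l

theorem sc_exists_conj [Finite G] (hx : orderOf x = p) (hC : centralizer ({x} : Set G) = zpowers x)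
    {y : G} (hy : orderOf y = p) : ∃ g : G, g * y * g⁻¹ ∈ zpowers x := by
  obtain ⟨Q, hQ⟩ := (sc_isPGroup (x := y) hy).exists_le_sylow
  obtain ⟨g, hg⟩ := MulAction.exists_smul_eq G Q (scSylow hx hC)
  refine ⟨g, ?_⟩
  have h1 : y ∈ (Q : Subgroup G) := hQ (mem_zpowers y)
  have h2 : g * y * g⁻¹ ∈ ((g • Q : Sylow p G) : Subgroup G) := by
    rw [Sylow.coe_subgroup_smul, mem_smul_pointwise_iff_exists]
    exact ⟨y, h1, rfl⟩
  rwa [hg] at h2

theorem sc_mem_normalizer [Finite G] (hx : orderOf x = p) {y : G} (hy : y ∈ zpowers x) (hy1 : y ≠ 1) {g : G}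
    (hg : g * y * g⁻¹ ∈ zpowers x) : g ∈ normalizer (zpowers x : Set G) := by
  rw [mem_normalizer_iff_map_conj_eq]
  have h1 : g * y * g⁻¹ ≠ 1 := by
    intro h
    apply hy1
    have : g * y = g := mul_inv_eq_one.mp h
    simpa using this
  have h2 := sc_zpowers_eq hx hg h1
  have h3 : (zpowers y).map (MulAut.conj g).toMonoidHom = zpowers (g * y * g⁻¹) := by
    rw [MonoidHom.map_zpowers]
    rfl
  rw [← sc_zpowers_eq hx hy hy1]
  exact h3.trans (h2.trans (sc_zpowers_eq hx hy hy1).symm)

/-- The number of classes of elements of order `p` times `[N(P) : P]` is `p - 1`. -/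
theorem sc_card_classes_mul [Finite G] (hx : orderOf x = p) (hC : centralizer ({x} : Set G) = zpowers x) :
    Nat.card {C : ConjClasses G // ∃ g ∈ C.carrier, orderOf g = p} *
      (zpowers x).relIndex (normalizer (zpowers x : Set G)) = p - 1 := by
  classical
  have := Fintype.ofFinite G
  set P := zpowers x with hPdef
  set N := normalizer (P : Set G) with hNdef
  let T := {C : ConjClasses G // ∃ g ∈ C.carrier, orderOf g = p}
  let X := {y : G // y ∈ P ∧ y ≠ 1}
  have hXcard : Nat.card X = p - 1 := by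
    have h1 : Nat.card {y : P // y ≠ 1} = Nat.card X := by
      refine Nat.card_congr ?_
      exact { toFun := fun y => ⟨y.1.1, y.1.2, fun h => y.2 (Subtype.ext h)⟩
              invFun := fun y => ⟨⟨y.1, y.2.1⟩, fun h => y.2.2 (congrArg Subtype.val h)⟩
              left_inv := fun y => rfl
              right_inv := fun y => rfl }
    rw [← h1, Nat.card_eq_fintype_card, Fintype.card_subtype_compl]
    simp only [Fintype.card_unique]
    rw [← Nat.card_eq_fintype_card, sc_card_zpowers hx]
  let f : X → T := fun y =>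
    ⟨ConjClasses.mk y.1, y.1, ConjClasses.mem_carrier_mk, sc_orderOf_eq hx y.2.1 y.2.2⟩
  have hsurj : Function.Surjective f := by
    rintro ⟨C, g, hgC, hg⟩
    obtain ⟨h, hh⟩ := sc_exists_conj hx hC hg
    have h1 : h * g * h⁻¹ ≠ 1 := by
      intro h2
      have h3 : h * g = h := mul_inv_eq_one.mp h2
      have h4 : g = 1 := by simpa using h3
      rw [h4, orderOf_one] at hg
      exact hp.out.one_lt.ne hg
    refine ⟨⟨h * g * h⁻¹, hh, h1⟩, ?_⟩
    apply Subtype.ext
    change ConjClasses.mk (h * g * h⁻¹) = C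
    rw [← ConjClasses.mem_carrier_iff_mk_eq.mp hgC, ConjClasses.mk_eq_mk_iff_isConj]
    exact (isConj_iff.mpr ⟨h, rfl⟩).symm
  have hfib : ∀ c : T, Nat.card {y : X // f y = c} = P.relIndex N := by
    intro c
    obtain ⟨y₀, rfl⟩ := hsurj c
    have hy₀P := y₀.2.1
    have hy₀1 := y₀.2.2
    have hconjmem : ∀ n : N, (n : G) * y₀.1 * (n : G)⁻¹ ∈ P := fun n =>
      (mem_normalizer_iff.mp n.2 y₀.1).mp hy₀P
    have hconjne : ∀ n : N, (n : G) * y₀.1 * (n : G)⁻¹ ≠ 1 := by
      intro n h
      have h3 : (n : G) * y₀.1 = n := mul_inv_eq_one.mp h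
      exact hy₀1 (by simpa using h3)
    have hfn : ∀ n : N, f ⟨(n : G) * y₀.1 * (n : G)⁻¹, hconjmem n, hconjne n⟩ = f y₀ := by
      intro n
      apply Subtype.ext
      change ConjClasses.mk ((n : G) * y₀.1 * (n : G)⁻¹) = ConjClasses.mk y₀.1
      rw [ConjClasses.mk_eq_mk_iff_isConj]
      exact (isConj_iff.mpr ⟨(n : G), rfl⟩).symm
    let ψ : N ⧸ P.subgroupOf N → {y : X // f y = f y₀} := Quotient.lift
      (fun n => (⟨⟨(n : G) * y₀.1 * (n : G)⁻¹, hconjmem n, hconjne n⟩, hfn n⟩ : {y : X // f y = f y₀}))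
      (by
        intro a b hab
        have h : a⁻¹ * b ∈ P.subgroupOf N := QuotientGroup.leftRel_apply.mp hab
        have h' : ((a : G))⁻¹ * (b : G) ∈ P := by simpa [mem_subgroupOf] using h
        have hc : (((a : G))⁻¹ * (b : G)) * y₀.1 = y₀.1 * (((a : G))⁻¹ * (b : G)) := by
          have hh : ((a : G))⁻¹ * (b : G) ∈ centralizer ({y₀.1} : Set G) := by
            rw [sc_centralizer_eq hx hC hy₀P hy₀1]; exact h'
          exact mem_centralizer_singleton_iff.mp hh
        apply Subtype.ext
        apply Subtype.ext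
        change (a : G) * y₀.1 * (a : G)⁻¹ = (b : G) * y₀.1 * (b : G)⁻¹
        calc (a : G) * y₀.1 * (a : G)⁻¹
            = (a : G) * (y₀.1 * (((a : G))⁻¹ * (b : G))) * (((a : G))⁻¹ * (b : G))⁻¹ * (a : G)⁻¹ := by group
          _ = (a : G) * ((((a : G))⁻¹ * (b : G)) * y₀.1) * (((a : G))⁻¹ * (b : G))⁻¹ * (a : G)⁻¹ := by rw [hc]
          _ = (b : G) * y₀.1 * (b : G)⁻¹ := by group)
    have hψ : Function.Bijective ψ := by
      constructor
      · intro q1 q2
        induction q1 using QuotientGroup.induction_on with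
        | H a =>
          induction q2 using QuotientGroup.induction_on with
          | H b =>
            intro hab
            have h1 : (a : G) * y₀.1 * (a : G)⁻¹ = (b : G) * y₀.1 * (b : G)⁻¹ :=
              congrArg (fun w : {y : X // f y = f y₀} => w.1.1) hab
            apply QuotientGroup.eq.mpr
            rw [mem_subgroupOf]
            have h3 : ((a : G))⁻¹ * (b : G) ∈ centralizer ({y₀.1} : Set G) := by
              rw [mem_centralizer_singleton_iff]
              calc ((a : G))⁻¹ * (b : G) * y₀.1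
                  = ((a : G))⁻¹ * ((b : G) * y₀.1 * (b : G)⁻¹) * (b : G) := by group
                _ = ((a : G))⁻¹ * ((a : G) * y₀.1 * (a : G)⁻¹) * (b : G) := by rw [h1]
                _ = y₀.1 * (((a : G))⁻¹ * (b : G)) := by group
            rw [sc_centralizer_eq hx hC hy₀P hy₀1] at h3
            simpa using h3
      · rintro ⟨y, hy⟩
        have hconj : IsConj y₀.1 y.1 := by
          have h1 : ConjClasses.mk y.1 = ConjClasses.mk y₀.1 := congrArg Subtype.val hy
          exact (ConjClasses.mk_eq_mk_iff_isConj.mp h1).symm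
        obtain ⟨g, hg⟩ := isConj_iff.mp hconj
        have hgN : g ∈ N := sc_mem_normalizer hx hy₀P hy₀1 (hg ▸ y.2.1)
        refine ⟨QuotientGroup.mk ⟨g, hgN⟩, ?_⟩
        apply Subtype.ext
        apply Subtype.ext
        exact hg
    rw [← Nat.card_congr (Equiv.ofBijective ψ hψ)]
    rfl
  have hsum : Nat.card X = Nat.card T * P.relIndex N := by
    have := Fintype.ofFinite T
    have h1 : Nat.card X = Nat.card (Σ c : T, {y : X // f y = c}) :=
      Nat.card_congr (Equiv.sigmaFiberEquiv f).symm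
    rw [h1, Nat.card_sigma]
    simp only [hfib]
    rw [Finset.sum_const, smul_eq_mul, Finset.card_univ, Nat.card_eq_fintype_card]
  rw [← hXcard, hsum]

/-! ### Normal subgroups of order prime to `p` -/

theorem sc_inf_eq_bot [Finite G] (hx : orderOf x = p) {S : Subgroup G} (hS : ¬ p ∣ Nat.card S) :
    S ⊓ zpowers x = ⊥ := by
  rw [eq_bot_iff]
  intro y hy
  by_contra hy1
  have hy1' : y ≠ 1 := by simpa using hy1
  have h1 : orderOf y = p := sc_orderOf_eq hx hy.2 hy1'
  apply hS
  rw [← h1]
  exact Subgroup.orderOf_dvd_natCard S hy.1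

theorem sc_ne_one [Finite G] (hx : orderOf x = p) : x ≠ 1 := by
  rintro rfl
  rw [orderOf_one] at hx
  exact hp.out.one_lt.ne hx

theorem sc_not_mem [Finite G] (hx : orderOf x = p) {S : Subgroup G} (hS : ¬ p ∣ Nat.card S) :
    x ∉ S := by
  intro h
  have h2 : x ∈ S ⊓ zpowers x := ⟨h, mem_zpowers x⟩
  rw [sc_inf_eq_bot hx hS, mem_bot] at h2
  exact sc_ne_one hx h2

theorem sc_conj_inj [Finite G] (hx : orderOf x = p)
    (hC : centralizer ({x} : Set G) = zpowers x) {S : Subgroup G} (hS : ¬ p ∣ Nat.card S)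
    {s t : G} (hs : s ∈ S) (ht : t ∈ S) (h : s * x * s⁻¹ = t * x * t⁻¹) : s = t := by
  have h1 : t⁻¹ * s ∈ centralizer ({x} : Set G) := by
    rw [mem_centralizer_singleton_iff]
    calc t⁻¹ * s * x = t⁻¹ * (s * x * s⁻¹) * s := by group
      _ = t⁻¹ * (t * x * t⁻¹) * s := by rw [h]
      _ = x * (t⁻¹ * s) := by group
  rw [hC] at h1
  have h2 : t⁻¹ * s ∈ S ⊓ zpowers x := ⟨S.mul_mem (S.inv_mem ht) hs, h1⟩
  rw [sc_inf_eq_bot hx hS, mem_bot] at h2
  exact (inv_mul_eq_one.mp h2).symm

/-- Every element of a normal `p'`-subgroup `S` is a commutator `⁅s, x⁆` with `s ∈ S`. -/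
theorem sc_exists_comm [Finite G] (hx : orderOf x = p)
    (hC : centralizer ({x} : Set G) = zpowers x) {S : Subgroup G} [hSn : S.Normal]
    (hS : ¬ p ∣ Nat.card S) {u : G} (hu : u ∈ S) : ∃ s ∈ S, ⁅s, x⁆ = u := by
  have hmem : ∀ s : S, ⁅(s : G), x⁆ ∈ S := by
    intro s
    rw [commutatorElement_def]
    have : (s : G) * x * (s : G)⁻¹ * x⁻¹ = (s : G) * (x * (s : G)⁻¹ * x⁻¹) := by group
    rw [this]
    exact S.mul_mem s.2 (hSn.conj_mem _ (S.inv_mem s.2) x)
  let f : S → S := fun s => ⟨⁅(s : G), x⁆, hmem s⟩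
  have hinj : Function.Injective f := by
    intro a b hab
    have h1 : ⁅(a : G), x⁆ = ⁅(b : G), x⁆ := congrArg Subtype.val hab
    rw [commutatorElement_def, commutatorElement_def] at h1
    exact Subtype.ext (sc_conj_inj hx hC hS a.2 b.2 (mul_right_cancel h1))
  obtain ⟨s, hs⟩ := Finite.surjective_of_injective hinj ⟨u, hu⟩
  exact ⟨s, s.2, congrArg Subtype.val hs⟩

theorem sc_le_commutator [Finite G] (hx : orderOf x = p)
    (hC : centralizer ({x} : Set G) = zpowers x) {S : Subgroup G} [S.Normal]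
    (hS : ¬ p ∣ Nat.card S) : S ≤ commutator G := by
  intro u hu
  obtain ⟨s, -, rfl⟩ := sc_exists_comm hx hC hS hu
  rw [commutator_def]
  exact commutator_mem_commutator (mem_top _) (mem_top _)

theorem sc_inf_normalizer [Finite G] (hx : orderOf x = p)
    (hC : centralizer ({x} : Set G) = zpowers x) {S : Subgroup G} [hSn : S.Normal]
    (hS : ¬ p ∣ Nat.card S) : S ⊓ normalizer (zpowers x : Set G) = ⊥ := by
  rw [eq_bot_iff]
  rintro s ⟨hsS, hsN⟩
  have h1 : ⁅s, x⁆ ∈ S := by
    rw [commutatorElement_def]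
    have : s * x * s⁻¹ * x⁻¹ = s * (x * s⁻¹ * x⁻¹) := by group
    rw [this]
    exact S.mul_mem hsS (hSn.conj_mem _ (S.inv_mem hsS) x)
  have h2 : ⁅s, x⁆ ∈ zpowers x := by
    rw [commutatorElement_def]
    exact mul_mem ((mem_normalizer_iff.mp hsN x).mp (mem_zpowers x)) (inv_mem (mem_zpowers x))
  have h3 : ⁅s, x⁆ ∈ S ⊓ zpowers x := ⟨h1, h2⟩
  rw [sc_inf_eq_bot hx hS, mem_bot, commutatorElement_eq_one_iff_commute] at h3
  have h4 : s ∈ centralizer ({x} : Set G) := by
    rw [mem_centralizer_singleton_iff]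
    exact h3.eq
  rw [hC] at h4
  have h5 : s ∈ S ⊓ zpowers x := ⟨hsS, h4⟩
  rwa [sc_inf_eq_bot hx hS] at h5

/-! ### The normalizer -/

theorem sc_zpowers_le_normalizer : zpowers x ≤ normalizer (zpowers x : Set G) :=
  le_normalizer

theorem sc_commutator_mem [Finite G]
    (hC : centralizer ({x} : Set G) = zpowers x) {n m : G}
    (hn : n ∈ normalizer (zpowers x : Set G)) (hm : m ∈ normalizer (zpowers x : Set G)) :
    ⁅n, m⁆ ∈ zpowers x := by
  have key : ∀ {n m : G}, n ∈ normalizer (zpowers x : Set G) →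
      m ∈ normalizer (zpowers x : Set G) → n⁻¹ * m⁻¹ * n * m ∈ zpowers x := by
    intro n m hn hm
    obtain ⟨a, ha⟩ := mem_zpowers_iff.mp ((mem_normalizer_iff.mp hn x).mp (mem_zpowers x))
    obtain ⟨b, hb⟩ := mem_zpowers_iff.mp ((mem_normalizer_iff.mp hm x).mp (mem_zpowers x))
    have h1 : (n * m) * x * (n * m)⁻¹ = (x ^ a) ^ b := by
      calc (n * m) * x * (n * m)⁻¹ = n * (m * x * m⁻¹) * n⁻¹ := by group
        _ = n * x ^ b * n⁻¹ := by rw [hb]
        _ = (n * x * n⁻¹) ^ b := (conj_zpow).symm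
        _ = (x ^ a) ^ b := by rw [ha]
    have h2 : (m * n) * x * (m * n)⁻¹ = (x ^ b) ^ a := by
      calc (m * n) * x * (m * n)⁻¹ = m * (n * x * n⁻¹) * m⁻¹ := by group
        _ = m * x ^ a * m⁻¹ := by rw [ha]
        _ = (m * x * m⁻¹) ^ a := (conj_zpow).symm
        _ = (x ^ b) ^ a := by rw [hb]
    have h3 : (m * n) * x * (m * n)⁻¹ = (n * m) * x * (n * m)⁻¹ := by
      rw [h1, h2, ← zpow_mul, ← zpow_mul, mul_comm]
    rw [← hC, mem_centralizer_singleton_iff]
    calc n⁻¹ * m⁻¹ * n * m * x
        = (m * n)⁻¹ * ((n * m) * x * (n * m)⁻¹) * (n * m) := by group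
      _ = (m * n)⁻¹ * ((m * n) * x * (m * n)⁻¹) * (n * m) := by rw [h3]
      _ = x * (n⁻¹ * m⁻¹ * n * m) := by group
  have := key (inv_mem hn) (inv_mem hm)
  simpa [commutatorElement_def] using this

theorem sc_normalizer_sup [Finite G] (hx : orderOf x = p)
    (hC : centralizer ({x} : Set G) = zpowers x) {S : Subgroup G} [S.Normal]
    (hS : zpowers x ≤ S) : normalizer (zpowers x : Set G) ⊔ S = ⊤ :=
  Sylow.normalizer_sup_eq_top' (scSylow hx hC) hS

/-- If a normal subgroup contains `x`, it contains the commutator subgroup. -/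
theorem sc_commutator_le_of_mem [Finite G] (hx : orderOf x = p)
    (hC : centralizer ({x} : Set G) = zpowers x) {S : Subgroup G} [hSn : S.Normal]
    (hS : x ∈ S) : commutator G ≤ S := by
  have hle : zpowers x ≤ S := by rwa [zpowers_le]
  have htop := sc_normalizer_sup hx hC hle
  have hdecomp : ∀ g : G, ∃ n ∈ normalizer (zpowers x : Set G), ∃ s ∈ S, g = n * s := by
    intro g
    have hg : g ∈ normalizer (zpowers x : Set G) ⊔ S := by rw [htop]; exact mem_top g
    obtain ⟨n, hn, s, hs, rfl⟩ := mem_sup_of_normal_right.mp hg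
    exact ⟨n, hn, s, hs, rfl⟩
  rw [commutator_def, commutator_le]
  rintro a - b -
  obtain ⟨n, hn, s, hs, rfl⟩ := hdecomp a
  obtain ⟨m, hm, u, hu, rfl⟩ := hdecomp b
  have h1 : ((⁅n * s, m * u⁆ : G) : G ⧸ S) = ((⁅n, m⁆ : G) : G ⧸ S) := by
    have h2 : QuotientGroup.mk' S (n * s) = QuotientGroup.mk' S n := by
      rw [map_mul, show QuotientGroup.mk' S s = 1 from (QuotientGroup.eq_one_iff s).mpr hs, mul_one]
    have h3 : QuotientGroup.mk' S (m * u) = QuotientGroup.mk' S m := by
      rw [map_mul, show QuotientGroup.mk' S u = 1 from (QuotientGroup.eq_one_iff u).mpr hu, mul_one]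
    change QuotientGroup.mk' S ⁅n * s, m * u⁆ = QuotientGroup.mk' S ⁅n, m⁆
    rw [map_commutatorElement, map_commutatorElement, h2, h3]
  rw [← QuotientGroup.eq_one_iff, h1, QuotientGroup.eq_one_iff]
  exact hle (sc_commutator_mem hC hn hm)

/-- Part (a): a normal subgroup of order divisible by `p` contains the commutator subgroup. -/
theorem sc_commutator_le_of_dvd [Finite G] (hx : orderOf x = p)
    (hC : centralizer ({x} : Set G) = zpowers x) {S : Subgroup G} [hSn : S.Normal]
    (hS : p ∣ Nat.card S) : commutator G ≤ S := by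
  obtain ⟨y, hy⟩ := exists_prime_orderOf_dvd_card' p hS
  have hy' : orderOf (y : G) = p := by rw [Subgroup.orderOf_coe]; exact hy
  obtain ⟨g, hg⟩ := sc_exists_conj hx hC hy'
  have hyS : g * y * g⁻¹ ∈ S := hSn.conj_mem _ y.2 g
  have hne : g * y * g⁻¹ ≠ 1 := by
    intro h
    have h3 : g * y = g := mul_inv_eq_one.mp h
    have h4 : (y : G) = 1 := by simpa using h3
    rw [h4, orderOf_one] at hy'
    exact hp.out.one_lt.ne hy'
  have hxS : x ∈ S := by
    have h1 : x ∈ zpowers (g * y * g⁻¹) := by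
      rw [sc_zpowers_eq hx hg hne]; exact mem_zpowers x
    obtain ⟨k, hk⟩ := mem_zpowers_iff.mp h1
    rw [← hk]
    exact S.zpow_mem hyS k
  exact sc_commutator_le_of_mem hx hC hxS

/-- `|S| ≡ 1 (mod p)` for a normal `p'`-subgroup. -/
theorem sc_card_mod [Finite G] (hx : orderOf x = p)
    (hC : centralizer ({x} : Set G) = zpowers x) {S : Subgroup G} [hSn : S.Normal]
    (hS : ¬ p ∣ Nat.card S) : Nat.card S % p = 1 := by
  classical
  let _ : MulAction (zpowers x) S :=
    MulAction.compHom S ((MulAut.conjNormal : G →* MulAut S).comp (zpowers x).subtype)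
  have h := (sc_isPGroup hx).card_modEq_card_fixedPoints S
  have hfix : MulAction.fixedPoints (zpowers x) S = {1} := by
    ext s
    simp only [MulAction.mem_fixedPoints, Set.mem_singleton_iff]
    constructor
    · intro hs
      have h1 := hs ⟨x, mem_zpowers x⟩
      have h2 : x * (s : G) * x⁻¹ = s := congrArg Subtype.val h1
      have h3 : (s : G) ∈ centralizer ({x} : Set G) := by
        rw [mem_centralizer_singleton_iff]
        exact (mul_inv_eq_iff_eq_mul.mp h2).symm
      rw [hC] at h3
      have h4 : (s : G) ∈ S ⊓ zpowers x := ⟨s.2, h3⟩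
      rw [sc_inf_eq_bot hx hS, mem_bot] at h4
      exact Subtype.ext h4
    · rintro rfl g
      apply Subtype.ext
      change (g : G) * 1 * (g : G)⁻¹ = 1
      simp
  have hcard : Nat.card (MulAction.fixedPoints (zpowers x) S) = 1 := by
    rw [hfix]; simp
  rw [hcard] at h
  have h2 : Nat.card S % p = 1 % p := h
  rwa [Nat.mod_eq_of_lt hp.out.one_lt] at h2

/-- All Sylow `p`-subgroups have order `p`. -/
theorem sc_card_sylow [Finite G] (hx : orderOf x = p)
    (hC : centralizer ({x} : Set G) = zpowers x) (Q : Sylow p G) :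
    Nat.card (Q : Subgroup G) = p := by
  exact (Nat.card_congr (Sylow.equiv Q (scSylow hx hC)).toEquiv).trans (sc_card_zpowers hx)

/-- The subgroups of order `p` are exactly the Sylow `p`-subgroups. -/
noncomputable def scSubgroupsEquiv [Finite G] (hx : orderOf x = p)
    (hC : centralizer ({x} : Set G) = zpowers x) :
    Sylow p G ≃ {H : Subgroup G // Nat.card H = p} :=
  Equiv.ofBijective (fun Q => ⟨(Q : Subgroup G), sc_card_sylow hx hC Q⟩) (by
    constructor
    · intro Q R h
      exact Sylow.ext (congrArg Subtype.val h)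
    · rintro ⟨H, hH⟩
      have hpg : IsPGroup p H := IsPGroup.of_card (n := 1) (by rw [hH, pow_one])
      obtain ⟨Q, hQ⟩ := hpg.exists_le_sylow
      refine ⟨Q, Subtype.ext ?_⟩
      exact (eq_of_le_of_card_ge hQ (by rw [hH, sc_card_sylow hx hC Q])).symm)

theorem sc_card_subgroups [Finite G] (hx : orderOf x = p)
    (hC : centralizer ({x} : Set G) = zpowers x) :
    Nat.card {H : Subgroup G // Nat.card H = p} = (normalizer (zpowers x : Set G)).index := by
  rw [← Nat.card_congr (scSubgroupsEquiv hx hC)]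
  exact Sylow.card_eq_index_normalizer (scSylow hx hC)

theorem sc_card_mul_card_normalizer_dvd [Finite G] (hx : orderOf x = p)
    (hC : centralizer ({x} : Set G) = zpowers x) {S : Subgroup G} [hSn : S.Normal]
    (hS : ¬ p ∣ Nat.card S) :
    Nat.card S * Nat.card (normalizer (zpowers x : Set G)) =
      Nat.card (normalizer (zpowers x : Set G) ⊔ S : Subgroup G) := by
  rw [card_sup_eq_of_normal]
  congr 1
  have h := sc_inf_normalizer hx hC hS
  change _ = (S.subgroupOf (normalizer (zpowers x : Set G))).index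
  have h2 : S.subgroupOf (normalizer (zpowers x : Set G)) = ⊥ := by
    rw [eq_bot_iff]
    intro y hy
    have h3 : (y : G) ∈ S ⊓ normalizer (zpowers x : Set G) := ⟨mem_subgroupOf.mp hy, y.2⟩
    rw [h, mem_bot] at h3
    exact mem_bot.mpr (Subtype.ext h3)
  rw [h2, index_bot]

theorem sc_card_dvd_index [Finite G] (hx : orderOf x = p)
    (hC : centralizer ({x} : Set G) = zpowers x) {S : Subgroup G} [hSn : S.Normal]
    (hS : ¬ p ∣ Nat.card S) : Nat.card S ∣ (normalizer (zpowers x : Set G)).index := by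
  have h1 := sc_card_mul_card_normalizer_dvd hx hC hS
  have h2 : Nat.card (normalizer (zpowers x : Set G) ⊔ S : Subgroup G) ∣ Nat.card G :=
    Subgroup.card_subgroup_dvd_card _
  rw [← h1, ← (normalizer (zpowers x : Set G)).index_mul_card] at h2
  exact Nat.dvd_of_mul_dvd_mul_right Nat.card_pos h2

theorem sc_orderOf_mk [Finite G] (hx : orderOf x = p) {S : Subgroup G} [hSn : S.Normal]
    (hS : ¬ p ∣ Nat.card S) : orderOf (QuotientGroup.mk x : G ⧸ S) = p := by
  apply orderOf_eq_prime
  · rw [← QuotientGroup.mk_pow, ← hx, pow_orderOf_eq_one]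
    rfl
  · intro h
    exact sc_not_mem hx hS ((QuotientGroup.eq_one_iff x).mp h)

theorem sc_centralizer_mk [Finite G] (hx : orderOf x = p)
    (hC : centralizer ({x} : Set G) = zpowers x) {S : Subgroup G} [hSn : S.Normal]
    (hS : ¬ p ∣ Nat.card S) :
    centralizer ({(QuotientGroup.mk x : G ⧸ S)} : Set (G ⧸ S)) =
      zpowers (QuotientGroup.mk x : G ⧸ S) := by
  apply le_antisymm
  · intro q hq
    induction q using QuotientGroup.induction_on with
    | H g =>
      have h1 : ((⁅g, x⁆ : G) : G ⧸ S) = 1 := by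
        rw [mem_centralizer_singleton_iff] at hq
        have hq' : Commute (g : G ⧸ S) (x : G ⧸ S) := hq
        have := commutatorElement_eq_one_iff_commute.mpr hq'
        simpa [commutatorElement_def] using this
      have h2 : ⁅g, x⁆ ∈ S := (QuotientGroup.eq_one_iff _).mp h1
      obtain ⟨s, hs, hsc⟩ := sc_exists_comm hx hC hS h2
      rw [commutatorElement_def, commutatorElement_def] at hsc
      have h3 : s * x * s⁻¹ = g * x * g⁻¹ := mul_right_cancel hsc
      have h4 : s⁻¹ * g ∈ centralizer ({x} : Set G) := by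
        rw [mem_centralizer_singleton_iff]
        calc s⁻¹ * g * x = s⁻¹ * (g * x * g⁻¹) * g := by group
          _ = s⁻¹ * (s * x * s⁻¹) * g := by rw [h3]
          _ = x * (s⁻¹ * g) := by group
      rw [hC] at h4
      obtain ⟨k, hk⟩ := mem_zpowers_iff.mp h4
      refine mem_zpowers_iff.mpr ⟨k, ?_⟩
      have h5 : g = s * x ^ k := by rw [hk]; group
      rw [h5, QuotientGroup.mk_mul, (QuotientGroup.eq_one_iff s).mpr hs, one_mul]
      rfl
  · intro q hq
    rw [mem_centralizer_singleton_iff]
    obtain ⟨k, rfl⟩ := mem_zpowers_iff.mp hq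
    exact ((Commute.refl (QuotientGroup.mk x : G ⧸ S)).zpow_left k).eq

/-! ### Index of the commutator subgroup -/

theorem sc_le_normalizer_of_relIndex_eq_one [Finite G]
    (h : (zpowers x).relIndex (normalizer (zpowers x : Set G)) = 1) :
    normalizer (zpowers x : Set G) ≤ zpowers x :=
  relIndex_eq_one.mp h

theorem sc_zpowers_le_commutator [Finite G] (hx : orderOf x = p)
    (hC : centralizer ({x} : Set G) = zpowers x)
    (h : (zpowers x).relIndex (normalizer (zpowers x : Set G)) ≠ 1) :
    zpowers x ≤ commutator G := by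
  have h1 : ¬ normalizer (zpowers x : Set G) ≤ zpowers x := fun hh => h (relIndex_eq_one.mpr hh)
  obtain ⟨g, hg, hgP⟩ := SetLike.not_le_iff_exists.mp h1
  have h2 : ⁅g, x⁆ ∈ zpowers x := by
    rw [commutatorElement_def]
    exact mul_mem ((mem_normalizer_iff.mp hg x).mp (mem_zpowers x)) (inv_mem (mem_zpowers x))
  have h3 : ⁅g, x⁆ ≠ 1 := by
    intro h4
    rw [commutatorElement_eq_one_iff_commute] at h4
    apply hgP
    rw [← hC, mem_centralizer_singleton_iff]
    exact h4.eq
  have h5 : ⁅g, x⁆ ∈ commutator G := by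
    rw [commutator_def]
    exact commutator_mem_commutator (mem_top _) (mem_top _)
  rw [← sc_zpowers_eq hx h2 h3, zpowers_le]
  exact h5

theorem sc_index_dvd [Finite G] (hx : orderOf x = p)
    (hC : centralizer ({x} : Set G) = zpowers x)
    (h : (zpowers x).relIndex (normalizer (zpowers x : Set G)) ≠ 1) :
    (commutator G).index ∣ (zpowers x).relIndex (normalizer (zpowers x : Set G)) := by
  have h1 := sc_zpowers_le_commutator hx hC h
  have h2 := sc_normalizer_sup hx hC h1
  have h3 : (commutator G).index = (commutator G).relIndex (normalizer (zpowers x : Set G)) := by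
    rw [← relIndex_sup_right, h2, relIndex_top_right]
  rw [h3]
  exact relIndex_dvd_of_le_left _ h1

/-- Burnside: if `N(P) = P` then there is a normal complement. -/
theorem sc_exists_complement [Finite G] (hx : orderOf x = p)
    (hC : centralizer ({x} : Set G) = zpowers x)
    (h : (zpowers x).relIndex (normalizer (zpowers x : Set G)) = 1) :
    ∃ K : Subgroup G, K.Normal ∧ IsComplement' K (zpowers x) := by
  have hN : normalizer (zpowers x : Set G) ≤ zpowers x := relIndex_eq_one.mp h
  have hP : normalizer (((scSylow hx hC : Sylow p G) : Subgroup G) : Set G) ≤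
      centralizer (((scSylow hx hC : Sylow p G) : Subgroup G) : Set G) := by
    intro g hg
    have hg' : g ∈ zpowers x := hN hg
    rw [mem_centralizer_iff]
    intro y hy
    obtain ⟨k, rfl⟩ := mem_zpowers_iff.mp hg'
    obtain ⟨l, rfl⟩ := mem_zpowers_iff.mp hy
    exact zpow_mul_comm x l k
  exact ⟨_, inferInstance, MonoidHom.ker_transferSylow_isComplement' (scSylow hx hC) hP⟩

/-- The complement structure: if `N(P) = P` then `G' ` is a normal complement of `P`. -/
theorem sc_commutator_complement [Finite G] (hx : orderOf x = p)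
    (hC : centralizer ({x} : Set G) = zpowers x)
    (h : (zpowers x).relIndex (normalizer (zpowers x : Set G)) = 1) :
    IsComplement' (commutator G) (zpowers x) ∧ (commutator G).index = p ∧
      ¬ p ∣ Nat.card (commutator G) := by
  obtain ⟨K, hK, hcomp⟩ := sc_exists_complement hx hC h
  have hindex : K.index = p := by
    rw [hcomp.symm.index_eq_card, sc_card_zpowers hx]
  have hK' : ¬ p ∣ Nat.card K := by
    intro hdvd
    obtain ⟨y, hy⟩ := exists_prime_orderOf_dvd_card' p hdvd
    have hy' : orderOf (y : G) = p := by rw [Subgroup.orderOf_coe]; exact hy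
    obtain ⟨g, hg⟩ := sc_exists_conj hx hC hy'
    have hyS : g * y * g⁻¹ ∈ K := hK.conj_mem _ y.2 g
    have hne : g * y * g⁻¹ ≠ 1 := by
      intro h
      have h3 : g * y = g := mul_inv_eq_one.mp h
      have h4 : (y : G) = 1 := by simpa using h3
      rw [h4, orderOf_one] at hy'
      exact hp.out.one_lt.ne hy'
    have h2 : g * y * g⁻¹ ∈ K ⊓ zpowers x := ⟨hyS, hg⟩
    rw [hcomp.disjoint.eq_bot, mem_bot] at h2
    exact hne h2
  have h1 : K ≤ commutator G := sc_le_commutator hx hC hK'
  have h2 : commutator G ≤ K := by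
    have : IsMulCommutative (G ⧸ K) := by
      have hfact : Nat.card (G ⧸ K) = p := by rw [← index_eq_card]; exact hindex
      have : IsCyclic (G ⧸ K) := isCyclic_of_prime_card hfact
      exact ⟨⟨fun a b => IsCyclic.commGroup.mul_comm a b⟩⟩
    exact Subgroup.Normal.quotient_commutative_iff_commutator_le.mp this
  have h3 : K = commutator G := le_antisymm h1 h2
  subst h3
  exact ⟨hcomp, hindex, hK'⟩

/-! ### Structure of `G'` -/

theorem sc_exists_conj_commutator [Finite G] (hx : orderOf x = p)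
    (hC : centralizer ({x} : Set G) = zpowers x) (hP : zpowers x ≤ commutator G)
    {y : G} (hy : orderOf y = p) : ∃ g ∈ commutator G, g * y * g⁻¹ ∈ zpowers x := by
  obtain ⟨g, hg⟩ := sc_exists_conj hx hC hy
  have htop := sc_normalizer_sup hx hC hP
  have hgm : g ∈ normalizer (zpowers x : Set G) ⊔ commutator G := by rw [htop]; exact mem_top g
  obtain ⟨n, hn, c, hc, rfl⟩ := mem_sup_of_normal_right.mp hgm
  refine ⟨c, hc, ?_⟩
  have h1 : n⁻¹ * ((n * c) * y * (n * c)⁻¹) * n⁻¹⁻¹ ∈ zpowers x :=
    (mem_normalizer_iff.mp (inv_mem hn) _).mp hg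
  have h2 : n⁻¹ * ((n * c) * y * (n * c)⁻¹) * n⁻¹⁻¹ = c * y * c⁻¹ := by group
  rwa [h2] at h1

/-- A subgroup of `G'`, normal in `G'`, of order divisible by `p` is `G'`. -/
theorem sc_commutator_le_of_dvd_of_le [Finite G] (hx : orderOf x = p)
    (hC : centralizer ({x} : Set G) = zpowers x) (hP : zpowers x ≤ commutator G)
    {L : Subgroup G} (hL : ∀ g ∈ commutator G, ∀ l ∈ L, g * l * g⁻¹ ∈ L)
    (hdvd : p ∣ Nat.card L) : commutator G ≤ L := by
  obtain ⟨y, hy⟩ := exists_prime_orderOf_dvd_card' p hdvd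
  have hy' : orderOf (y : G) = p := by rw [Subgroup.orderOf_coe]; exact hy
  obtain ⟨g, hgc, hg⟩ := sc_exists_conj_commutator hx hC hP hy'
  have hyS : g * y * g⁻¹ ∈ L := hL g hgc _ y.2
  have hne : g * y * g⁻¹ ≠ 1 := by
    intro h
    have h3 : g * y = g := mul_inv_eq_one.mp h
    have h4 : (y : G) = 1 := by simpa using h3
    rw [h4, orderOf_one] at hy'
    exact hp.out.one_lt.ne hy'
  have hxL : zpowers x ≤ L := by
    rw [← sc_zpowers_eq hx hg hne, zpowers_le]
    exact hyS
  have htop := sc_normalizer_sup hx hC hP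
  have hR : normalClosure ({x} : Set G) ≤ L := by
    refine (closure_le _).mpr ?_
    intro z hz
    obtain ⟨b, hb, hbz⟩ := Group.mem_conjugatesOfSet_iff.mp hz
    rw [Set.mem_singleton_iff] at hb
    subst hb
    obtain ⟨g, rfl⟩ := isConj_iff.mp hbz
    have hgm : g ∈ commutator G ⊔ normalizer (zpowers b : Set G) := by
      rw [sup_comm, htop]; exact mem_top g
    obtain ⟨c, hc, n, hn, rfl⟩ := mem_sup_of_normal_left.mp hgm
    have h1 : n * b * n⁻¹ ∈ L := hxL ((mem_normalizer_iff.mp hn _).mp (mem_zpowers b))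
    have h2 := hL c hc _ h1
    have h3 : c * (n * b * n⁻¹) * c⁻¹ = c * n * b * (c * n)⁻¹ := by group
    rw [h3] at h2
    exact h2
  have hn : (normalClosure ({x} : Set G)).Normal := normalClosure_normal
  have hxR : x ∈ normalClosure ({x} : Set G) := subset_normalClosure (Set.mem_singleton x)
  exact (sc_commutator_le_of_mem hx hC hxR).trans hR

/-- A subgroup of `G'`, normal in `G'`, of order prime to `p` lies in `O_{p'}(G)`. -/
theorem sc_le_pPrimeCore_of_le [Finite G]
    {L : Subgroup G} (hLle : L ≤ commutator G) (hL : ∀ g ∈ commutator G, ∀ l ∈ L, g * l * g⁻¹ ∈ L)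
    (hdvd : ¬ p ∣ Nat.card L) : L ≤ pPrimeCore p G := by
  have h1 : (L.subgroupOf (commutator G)).Normal := by
    refine ⟨fun a ha g => ?_⟩
    rw [mem_subgroupOf] at ha ⊢
    exact hL g.1 g.2 a.1 ha
  have hcop : (Nat.card L).Coprime p :=
    ((Nat.Prime.coprime_iff_not_dvd hp.out).mpr hdvd).symm
  have h2 : (Nat.card (L.subgroupOf (commutator G))).Coprime p := by
    rwa [Nat.card_congr (subgroupOfEquivOfLe hLle).toEquiv]
  have h3 : L.subgroupOf (commutator G) ≤ pPrimeCore p (commutator G) := le_pPrimeCore h1 h2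
  have h4 : (pPrimeCore p (commutator G)).Characteristic := pPrimeCore_characteristic p
  have h5 : ((pPrimeCore p (commutator G)).map (commutator G).subtype).Normal := inferInstance
  have h6 : (Nat.card ((pPrimeCore p (commutator G)).map (commutator G).subtype)).Coprime p := by
    have : Nat.card ((pPrimeCore p (commutator G)).map (commutator G).subtype) =
        Nat.card (pPrimeCore p (commutator G)) :=
      Nat.card_congr ((pPrimeCore p (commutator G)).equivMapOfInjective _
        (commutator G).subtype_injective).toEquiv.symm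
    rw [this]
    exact pPrimeCore_coprime p
  have h7 := le_pPrimeCore h5 h6
  intro l hl
  apply h7
  exact ⟨⟨l, hLle hl⟩, h3 (mem_subgroupOf.mpr hl), rfl⟩

theorem sc_not_dvd_pPrimeCore [Finite G] : ¬ p ∣ Nat.card (pPrimeCore p G) := by
  intro h
  have h1 := pPrimeCore_coprime (G := G) p
  exact (Nat.Prime.coprime_iff_not_dvd hp.out).mp h1.symm h

/-- Simplicity of `G' / O_{p'}(G)`. -/
theorem sc_isSimpleGroup_quotient [Finite G] (hx : orderOf x = p)
    (hC : centralizer ({x} : Set G) = zpowers x) (hP : zpowers x ≤ commutator G)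
    [hn : ((pPrimeCore p G).subgroupOf (commutator G)).Normal] :
    IsSimpleGroup (↥(commutator G) ⧸ (pPrimeCore p G).subgroupOf (commutator G)) := by
  have hxG : x ∈ commutator G := hP (mem_zpowers x)
  have hne : (QuotientGroup.mk (⟨x, hxG⟩ : commutator G) :
      ↥(commutator G) ⧸ (pPrimeCore p G).subgroupOf (commutator G)) ≠ 1 := by
    intro h
    have h1 := (QuotientGroup.eq_one_iff _).mp h
    rw [mem_subgroupOf] at h1
    exact sc_not_mem hx sc_not_dvd_pPrimeCore h1
  have hnt : Nontrivial (↥(commutator G) ⧸ (pPrimeCore p G).subgroupOf (commutator G)) :=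
    ⟨⟨_, _, hne⟩⟩
  refine { hnt with eq_bot_or_eq_top_of_normal := ?_ }
  intro B hB
  let C : Subgroup (commutator G) :=
    B.comap (QuotientGroup.mk' ((pPrimeCore p G).subgroupOf (commutator G)))
  have hCn : C.Normal := hB.comap _
  let L : Subgroup G := C.map (commutator G).subtype
  have hLle : L ≤ commutator G := map_subtype_le C
  have hLn : ∀ g ∈ commutator G, ∀ l ∈ L, g * l * g⁻¹ ∈ L := by
    rintro g hg _ ⟨c, hc, rfl⟩
    exact ⟨⟨g, hg⟩ * c * ⟨g, hg⟩⁻¹, hCn.conj_mem c hc ⟨g, hg⟩, rfl⟩
  by_cases hdvd : p ∣ Nat.card L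
  · right
    have hle := sc_commutator_le_of_dvd_of_le hx hC hP hLn hdvd
    rw [eq_top_iff]
    intro q _
    induction q using QuotientGroup.induction_on with
    | H g =>
      obtain ⟨c, hc, hcg⟩ := hle g.2
      have : c = g := Subtype.ext hcg
      subst this
      exact hc
  · left
    have hle := sc_le_pPrimeCore_of_le (p := p) hLle hLn hdvd
    rw [eq_bot_iff]
    intro q hq
    induction q using QuotientGroup.induction_on with
    | H g =>
      have h1 : g ∈ C := hq
      have h2 : (g : G) ∈ L := ⟨g, h1, rfl⟩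
      have h3 := hle h2
      exact mem_bot.mpr ((QuotientGroup.eq_one_iff _).mpr (mem_subgroupOf.mpr h3))

end SelfCent

end Cfsg.Agent.Lib.H8Group
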