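import Cfsg.Agent.Lib.H8Group.CenterHeight

/-!
# Blocks of `D C_G(D)` and of `C_G(D)`
-/

set_option autoImplicit false
set_option linter.unusedSectionVars false
set_option linter.style.haveILetI false

namespace Cfsg.Agent.Lib.H8Group

open Cfsg Cfsg.Agent.Lib.Char Cfsg.Agent.Lib.Blocks

universe u

section Trans

variable {G : Type u} [Group G] [Fintype G] {M : Ideal AlgInt} {K H : Subgroup G} [Fintype K] [Fintype H]

/-- The induced central character through an intermediate subgroup. -/
theorem inducedCentralChar_eq_sum_classes (hKH : K ≤ H) (ξ : K → ℂ) (g : G) :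
    inducedCentralChar K ξ g = ∑ L : ConjClasses H, cls g ((clsRep L : H) : G) * inducedCentralCharIn H K ξ ((clsRep L : H) : G) := by
  classical
  have h1 : ∀ h₀ : G, inducedCentralCharIn H K ξ h₀ = ∑ k : K, if ∃ x : H, (x : G) * (k : G) * (x : G)⁻¹ = h₀ then ξ k / ξ 1 else 0 := by
    intro h₀
    rw [inducedCentralCharIn, finsum_mem_def, finsum_eq_sum_of_fintype]
    refine Finset.sum_congr rfl fun k _ => ?_
    by_cases hk : ∃ x : H, (x : G) * (k : G) * (x : G)⁻¹ = h₀
    · rw [Set.indicator_of_mem (by exact hk), if_pos hk]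
    · rw [Set.indicator_of_notMem (by exact hk), if_neg hk]
  simp only [h1, Finset.mul_sum]
  rw [Finset.sum_comm, inducedCentralChar_eq_sum, Finset.sum_div]
  refine Finset.sum_congr rfl fun k _ => ?_
  set k' : H := ⟨k, hKH k.2⟩ with hk'
  rw [Finset.sum_eq_single (ConjClasses.mk k')]
  · have hcon : IsConj (clsRep (ConjClasses.mk k')) k' := (mk_eq_iff_isConj_clsRep _ k').mp rfl
    have h2 : ∃ x : H, (x : G) * (k : G) * (x : G)⁻¹ = ((clsRep (ConjClasses.mk k') : H) : G) := by
      obtain ⟨c, hc⟩ := isConj_iff.mp hcon.symm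
      exact ⟨c, congrArg Subtype.val hc⟩
    rw [if_pos h2]
    have h3 : cls g ((clsRep (ConjClasses.mk k') : H) : G) = cls g (k : G) := by
      have h4 : IsConj ((clsRep (ConjClasses.mk k') : H) : G) (k : G) := by
        obtain ⟨c, hc⟩ := isConj_iff.mp hcon
        exact isConj_iff.mpr ⟨c, congrArg Subtype.val hc⟩
      exact IsClassFunction.congr_isConj (cls_isClassFunction g) h4
    rw [h3]
    ring
  · intro L _ hL
    rw [if_neg, mul_zero]
    rintro ⟨x, hx⟩
    apply hL
    symm
    rw [mk_eq_iff_isConj_clsRep]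
    refine isConj_iff.mpr ⟨x⁻¹, Subtype.ext ?_⟩
    show (x : G)⁻¹ * ((clsRep L : H) : G) * ((x : G)⁻¹)⁻¹ = (k : G)
    rw [← hx]
    group
  · intro h
    exact absurd (Finset.mem_univ _) h

/-- **Transitivity of the induction of blocks.** -/
theorem isInducedBlock_trans_in (hKH : K ≤ H) {c : Set (IrrCharacter K)} {b : Set (IrrCharacter H)}
    {B : Set (IrrCharacter G)} (h1 : IsInducedBlockIn M H K c b) (h2 : IsInducedBlock M H b B) [M.IsPrime] :
    IsInducedBlock M K c B := by
  classical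
  refine ⟨h1.1, h2.2.1, fun ξ hξ χ hχ g => ?_⟩
  obtain ⟨θ, hθ⟩ := IsPBlock.nonempty h2.1
  have h3 := h2.2.2 θ hθ χ hχ g
  have h4 : MemLocalIdeal M (inducedCentralChar K (ξ : K → ℂ) g - inducedCentralChar H (θ : H → ℂ) g) := by
    have ha : IsClassFunction H (fun h : H => cls g (h : G)) := by
      intro s t
      refine IsClassFunction.congr_isConj (cls_isClassFunction g) (isConj_iff.mpr ⟨(t : G)⁻¹, ?_⟩)
      push_cast
      group
    have h5 : inducedCentralChar H (θ : H → ℂ) g = spec (fun h : H => cls g (h : G)) θ := by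
      rw [inducedCentralChar_eq_sum, spec]
    rw [h5, spec_eq_sum_classes _ ha, inducedCentralChar_eq_sum_classes hKH, ← Finset.sum_sub_distrib]
    refine MemLocalIdeal.sum _ fun L _ => ?_
    rw [← mul_sub]
    refine MemLocalIdeal.mul_left ?_ (h1.2.2 ξ hξ θ hθ (clsRep L))
    exact cls_memLocalRing g _
  have h6 := MemLocalIdeal.add h4 h3
  simpa using h6

end Trans

section Sup

variable {G : Type u} [Group G] [Fintype G] {M : Ideal AlgInt} {p : ℕ} [hp : Fact p.Prime]
  {D H : Subgroup G}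

theorem le_sup_self_cen (hH : H = D ⊔ Subgroup.centralizer (D : Set G)) : D ≤ H := by
  rw [hH]
  exact le_sup_left

theorem cen_le_sup (hH : H = D ⊔ Subgroup.centralizer (D : Set G)) : Subgroup.centralizer (D : Set G) ≤ H := by
  rw [hH]
  exact le_sup_right

/-- A block of `D C_G(D)` lies over a block of `C_G(D)`. -/
theorem exists_cen_block_of_sup [Fintype H] [Fintype (Subgroup.centralizer (D : Set G))] (hM : IsPModular p M) (hDp : IsPGroup p D)
    (hH : H = D ⊔ Subgroup.centralizer (D : Set G)) {b : Set (IrrCharacter H)} (hb : IsPBlock M b) :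
    ∃ c : Set (IrrCharacter (Subgroup.centralizer (D : Set G))), IsInducedBlockIn M H (Subgroup.centralizer (D : Set G)) c b := by
  classical
  have := isPrime_of_modular hM
  have hDH := le_sup_self_cen hH
  have hCH := cen_le_sup hH
  have hcd : CenData (D.subgroupOf H) D := cenData_of_le hCH hDH le_rfl
  letI : Fintype (Subgroup.centralizer ((D.subgroupOf H : Subgroup H) : Set H)) := Fintype.ofFinite _
  obtain ⟨P', e', hmax'⟩ := exists_isMaximalBrauerPair (p := p) hM hb
  have hDb := isDefectGroup_of_isMaximalBrauerPair hM hmax'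
  have hHN : H ≤ Subgroup.normalizer (D : Set G) := by
    rw [hH]
    exact sup_centralizer_le_normalizer
  have hnorm : (D.subgroupOf H).Normal := (Subgroup.normal_subgroupOf_iff_le_normalizer hDH).mpr hHN
  have hR'p : IsPGroup p (D.subgroupOf H) := isPGroup_subgroupOf hDp _
  have hR'P' : D.subgroupOf H ≤ P' :=
    (Cfsg.Agent.Lib.Basic.le_pCore hnorm hR'p).trans (IsDefectGroup.pCore_le hM hb hDb)
  obtain ⟨f', hf', hle⟩ := exists_subpairLE hM hmax'.1.1 _ hR'P'
  have hpair := (isBrauerPairOf_iff_of_chain hM hle hb).mp hmax'.1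
  have hind := (isBrauerPairOf_iff hM hR'p hf').mp hpair
  refine ⟨transBlock (cenTrans hcd).symm f', ?_⟩
  refine in_of_isInducedBlock hcd (isPBlock_transBlock _ hf') ?_
  rw [transBlock_transBlock_symm]
  exact hind

/-- Conjugation invariance of the relative induced central character. -/
theorem inducedCharIn_conj_cen {t : G} (hD : conjS t D = D) (hH : conjS t H = H)
    {ξ ξ' : Subgroup.centralizer (D : Set G) → ℂ}
    (hξ : IsConjCharOf (Subgroup.centralizer (D : Set G)) t ξ ξ') (h₁ : G) :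
    inducedCentralCharIn H (Subgroup.centralizer (D : Set G)) ξ h₁ =
      inducedCentralCharIn H (Subgroup.centralizer (D : Set G)) ξ' (t * h₁ * t⁻¹) := by
  classical
  rw [inducedCentralCharIn, inducedCentralCharIn, finsum_mem_def, finsum_mem_def]
  symm
  rw [← finsum_comp_equiv (cenIso t hD).toEquiv]
  refine finsum_congr fun k => ?_
  have hval : ∀ k₀ : Subgroup.centralizer (D : Set G), ξ' (cenIso t hD k₀) = ξ k₀ := fun k₀ => hξ k₀ _ rfl
  have hone : ξ' 1 = ξ 1 := by
    have := hval 1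
    rwa [map_one] at this
  have hiff : k ∈ {k : Subgroup.centralizer (D : Set G) | ∃ x : H, (x : G) * (k : G) * (x : G)⁻¹ = h₁} ↔
      (cenIso t hD).toEquiv k ∈ {k : Subgroup.centralizer (D : Set G) | ∃ x : H, (x : G) * (k : G) * (x : G)⁻¹ = t * h₁ * t⁻¹} := by
    simp only [Set.mem_ofPred_eq]
    constructor
    · rintro ⟨x, hx⟩
      refine ⟨subConjIso t hH x, ?_⟩
      show (t * (x : G) * t⁻¹) * (t * (k : G) * t⁻¹) * (t * (x : G) * t⁻¹)⁻¹ = t * h₁ * t⁻¹
      rw [← hx]
      group
    · rintro ⟨x, hx⟩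
      refine ⟨(subConjIso t hH).symm x, ?_⟩
      have h2 : (x : G) * (t * (k : G) * t⁻¹) * (x : G)⁻¹ = t * h₁ * t⁻¹ := hx
      show (t⁻¹ * (x : G) * t) * (k : G) * (t⁻¹ * (x : G) * t)⁻¹ = h₁
      have h3 : t⁻¹ * ((x : G) * (t * (k : G) * t⁻¹) * (x : G)⁻¹) * t = h₁ := by
        rw [h2]
        group
      rw [← h3]
      group
  by_cases hk : k ∈ {k : Subgroup.centralizer (D : Set G) | ∃ x : H, (x : G) * (k : G) * (x : G)⁻¹ = h₁}
  · rw [Set.indicator_of_mem hk, Set.indicator_of_mem (hiff.mp hk)]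
    show ξ' (cenIso t hD k) / ξ' 1 = ξ k / ξ 1
    rw [hval, hone]
  · rw [Set.indicator_of_notMem hk, Set.indicator_of_notMem (fun h => hk (hiff.mpr h))]

/-- An element stabilizing a block of `C_G(D)` stabilizes the block of `D C_G(D)` above it. -/
theorem stabilizes_sup_of_stabilizes [Fintype H] [Fintype (Subgroup.centralizer (D : Set G))] (hM : IsPModular p M)
    (hH : H = D ⊔ Subgroup.centralizer (D : Set G))
    {c : Set (IrrCharacter (Subgroup.centralizer (D : Set G)))} {b : Set (IrrCharacter H)}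
    (hcb : IsInducedBlockIn M H (Subgroup.centralizer (D : Set G)) c b) {t : G} (htN : t ∈ Subgroup.normalizer (D : Set G))
    (hts : StabilizesBlock (Subgroup.centralizer (D : Set G)) c t) {θ θ' : IrrCharacter H} (hθ : θ ∈ b)
    (hθ' : ∀ h h' : H, (h' : G) = t * h * t⁻¹ → (θ' : H → ℂ) h' = (θ : H → ℂ) h) : θ' ∈ b := by
  classical
  have := isPrime_of_modular hM
  have hD : conjS t D = D := conjS_eq_of_mem_normalizer htN
  have hC : conjS t (Subgroup.centralizer (D : Set G)) = Subgroup.centralizer (D : Set G) :=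
    conjS_eq_of_mem_normalizer (normalizer_le_normalizer_centralizer htN)
  have hHt : conjS t H = H := by
    rw [hH, conjS, Subgroup.map_sup]
    exact congrArg₂ (· ⊔ ·) hD hC
  set ε : H ≃* H := subConjIso t hHt with hε
  have hcomp : (θ' : H → ℂ) ∘ ε = (θ : H → ℂ) := by
    funext h
    exact hθ' h (ε h) rfl
  rw [blockOf_eq_of_mem hcb.2.1 hθ]
  intro h
  obtain ⟨ξ, hξ⟩ := IsPBlock.nonempty hcb.1
  obtain ⟨ξ', hξ', hconj⟩ := hts.2 ξ hξ
  set h₁ : H := ε.symm h with hh₁
  have h2 : centralChar (θ' : H → ℂ) h = centralChar (θ : H → ℂ) h₁ := by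
    rw [← hcomp, centralChar_comp_equiv, hh₁, MulEquiv.apply_symm_apply]
  have h3 := hcb.2.2 ξ hξ θ hθ h₁
  have h4 := hcb.2.2 ξ' hξ' θ hθ h
  have h5 : inducedCentralCharIn H (Subgroup.centralizer (D : Set G)) (ξ : _ → ℂ) (h₁ : G) =
      inducedCentralCharIn H (Subgroup.centralizer (D : Set G)) (ξ' : _ → ℂ) (h : G) := by
    rw [inducedCharIn_conj_cen hD hHt hconj (h₁ : G)]
    have h6 : t * (h₁ : G) * t⁻¹ = (h : G) := by
      have : ε h₁ = h := MulEquiv.apply_symm_apply _ _
      exact congrArg Subtype.val this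
    rw [h6]
  rw [h2]
  rw [h5] at h3
  have h7 := MemLocalIdeal.add (MemLocalIdeal.neg h4) h3
  have h8 : -(inducedCentralCharIn H (Subgroup.centralizer (D : Set G)) (ξ' : _ → ℂ) (h : G) - centralChar (θ : H → ℂ) h) +
      (inducedCentralCharIn H (Subgroup.centralizer (D : Set G)) (ξ' : _ → ℂ) (h : G) - centralChar (θ : H → ℂ) h₁) =
      centralChar (θ : H → ℂ) h - centralChar (θ : H → ℂ) h₁ := by ring
  rwa [h8] at h7

end Sup

end Cfsg.Agent.Lib.H8Group
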