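import Cfsg.Agent.Lib.H8Group.MajorRows
import Cfsg.Agent.Lib.H8Group.AbelianCount

/-!
# The contribution of a block to the scalar product of a section

For a class function `F` of a finite group `A` and a block `b` of `A`, the real number
`wPart p F b = ∑_{ψ ∈ b} |⟨F°, ψ⟩|²` is the contribution of `b` to `⟨F°, F⟩`.  It is compatible with isomorphisms
and is read on the matrix of the block.
-/

set_option autoImplicit false
set_option linter.unusedSectionVars false
set_option linter.style.haveILetI false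

namespace Cfsg.Agent.Lib.H8Group

open Cfsg Cfsg.Agent.Lib.Char Cfsg.Agent.Lib.Blocks
open scoped ComplexConjugate

universe u

section WPart

variable {A A' : Type u} [Group A] [Fintype A] [Group A'] [Fintype A'] {M : Ideal AlgInt} {p : ℕ} [hp : Fact p.Prime]

open scoped Classical

/-- The contribution of the block `b` to the scalar product `⟨F°, F⟩`. -/
noncomputable def wPart (p : ℕ) (F : A → ℂ) (b : Set (IrrCharacter A)) : ℝ :=
  ∑ ψ ∈ Finset.univ.filter (· ∈ b), ‖classInner (pRegularPart p F) (ψ : A → ℂ)‖ ^ 2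

theorem wPart_nonneg (F : A → ℂ) (b : Set (IrrCharacter A)) : 0 ≤ wPart p F b :=
  Finset.sum_nonneg fun _ _ => by positivity

/-- The blocks partition the irreducible characters. -/
theorem sum_wPart_blocks (hM : IsPModular p M) (F : A → ℂ) :
    ∑ b ∈ blocksFinset M A, wPart p F b =
      ∑ ψ : IrrCharacter A, ‖classInner (pRegularPart p F) (ψ : A → ℂ)‖ ^ 2 := by
  have := isPrime_of_modular hM
  simp only [wPart, Finset.sum_filter]
  rw [Finset.sum_comm]
  refine Finset.sum_congr rfl fun ψ _ => ?_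
  rw [Finset.sum_eq_single (blockOf M (ψ : A → ℂ))]
  · rw [if_pos (self_mem_blockOf ψ)]
  · intro b hb hne
    rw [if_neg]
    intro hψ
    exact hne (blockOf_eq_of_mem (mem_blocksFinset.mp hb) hψ)
  · intro h
    exact absurd (mem_blocksFinset.mpr (isPBlock_blockOf ψ)) h

/-- The scalar product as a sum of squares. -/
theorem classInner_reg_eq_sum_sq {F : A → ℂ} (hF : IsClassFunction A F) :
    classInner (pRegularPart p F) F =
      ((∑ ψ : IrrCharacter A, ‖classInner (pRegularPart p F) (ψ : A → ℂ)‖ ^ 2 : ℝ) : ℂ) := by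
  have hϑ := pRegularPart_isClassFunction (p := p) hF
  rw [← classInner_reg_self, classInner_eq_sum_coeffs _ _ hϑ hϑ]
  push_cast
  refine Finset.sum_congr rfl fun ψ _ => ?_
  rw [Complex.mul_conj, Complex.normSq_eq_norm_sq]
  push_cast
  rfl

theorem pRegularPart_comp_equiv (ε : A ≃* A') (f : A' → ℂ) : pRegularPart p (f ∘ ε) = pRegularPart p f ∘ ε := by
  funext h
  simp only [pRegularPart, Function.comp_apply, IsPRegular, MulEquiv.orderOf_eq]
  congr

theorem classInner_comp_equiv (ε : A ≃* A') (f g : A' → ℂ) : classInner (f ∘ ε) (g ∘ ε) = classInner f g := by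
  rw [classInner, classInner, Nat.card_congr ε.toEquiv]
  congr 1
  exact Equiv.sum_comp ε.toEquiv (fun k => f k * conj (g k))

/-- Transport along an isomorphism. -/
theorem wPart_transBlock (ε : A ≃* A') (F : A' → ℂ) (b : Set (IrrCharacter A')) :
    wPart p (F ∘ ε) (transBlock ε b) = wPart p F b := by
  rw [wPart, wPart, Finset.sum_filter, Finset.sum_filter]
  let E : IrrCharacter A' ≃ IrrCharacter A :=
    { toFun := Cfsg.Agent.Lib.Blocks.irrComp ε
      invFun := Cfsg.Agent.Lib.Blocks.irrComp ε.symm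
      left_inv := Cfsg.Agent.Lib.Blocks.irrComp_symm_irrComp ε
      right_inv := Cfsg.Agent.Lib.Blocks.irrComp_irrComp_symm ε }
  rw [← Equiv.sum_comp E]
  refine Finset.sum_congr rfl fun ψ _ => ?_
  have h1 : E ψ ∈ transBlock ε b ↔ ψ ∈ b := by
    show Cfsg.Agent.Lib.Blocks.irrComp ε.symm (Cfsg.Agent.Lib.Blocks.irrComp ε ψ) ∈ b ↔ ψ ∈ b
    rw [Cfsg.Agent.Lib.Blocks.irrComp_symm_irrComp]
  by_cases hψ : ψ ∈ b
  · rw [if_pos hψ, if_pos (h1.mpr hψ), pRegularPart_comp_equiv]
    have h2 : ((E ψ : IrrCharacter A) : A → ℂ) = (ψ : A' → ℂ) ∘ ε := rfl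
    rw [h2, classInner_comp_equiv]
  · rw [if_neg hψ, if_neg (fun h => hψ (h1.mp h))]

end WPart

section Rows

variable {G : Type u} [Group G] [Fintype G] {M : Ideal AlgInt} {p : ℕ} [hp : Fact p.Prime]
variable {H : Subgroup G} [Fintype H] {x : H}

open scoped Classical

/-- The form at a row is the contribution of the block. -/
theorem hq_rowD_eq_wPart (hM : IsPModular p M) (hH : ∀ w : G, w ∈ H ↔ Commute w (x : G))
    (hxp : ∃ k, orderOf (x : G) = p ^ k) {b : Set (IrrCharacter H)} (hb : IsPBlock M b) (χ : IrrCharacter G) {j : ℕ}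
    (hj : ¬ p ∣ j) :
    hq (tMat p b) (rowD b χ x j) = ((p ^ blockDefect p b : ℕ) : ℂ) * (wPart p (subF H (x ^ j) (χ : G → ℂ)) b : ℝ) := by
  have := isPrime_of_modular hM
  have hH' := hH_pow hH hxp hj
  have hf := subF_isClassFunction hH' (irr_isClassFunction χ)
  rw [hq_tMat hM hb, ← projOp_subF_eq_vecFun hH hf, ← classInner_reg_self, pRegularPart_projOp hM hb hf,
    classInner_projOp_projOp b (pRegularPart_isClassFunction hf) (pRegularPart_isClassFunction hf)]
  congr 1
  rw [wPart, Finset.sum_filter]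
  push_cast
  refine Finset.sum_congr rfl fun ψ _ => ?_
  by_cases hψ : ψ ∈ b
  · rw [if_pos hψ, indic_apply_of_mem hψ, one_mul, Complex.mul_conj, Complex.normSq_eq_norm_sq]
  · rw [if_neg hψ, indic_apply_of_notMem hψ, zero_mul]
    simp

/-- **The lower bound for the contributions.** -/
theorem major_wPart_lb (hM : IsPModular p M) (hH : ∀ w : G, w ∈ H ↔ Commute w (x : G)) {α : ℕ} (hα : IsPExp p G α)
    (hxp : ∃ k, orderOf (x : G) = p ^ k) {b : Set (IrrCharacter H)} {B : Set (IrrCharacter G)}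
    (hind : IsInducedBlock M H b B) (hdef : blockDefect p b = blockDefect p B)
    {χ : IrrCharacter G} (hχ : χ ∈ B) {N : ℕ} (hN : 1 ≤ N) (hxN : x ^ p ^ N = 1) :
    ((unitsJ p N).card : ℝ) * (p : ℝ) ^ blockHeight p B (χ : G → ℂ) ≤
      (p : ℝ) ^ blockDefect p B * ∑ j ∈ unitsJ p N, wPart p (subF H (x ^ j) (χ : G → ℂ)) b := by
  have h1 := major_S1_lb hM hH hα hxp hind hdef hχ hN hxN
  refine le_trans h1 (le_of_eq ?_)
  rw [Finset.mul_sum]
  refine Finset.sum_congr rfl fun j hj => ?_
  rw [hq_rowD_eq_wPart hM hH hxp hind.1 χ (Finset.mem_filter.mp hj).2, norm_mul, Complex.norm_natCast,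
    Complex.norm_real, Real.norm_of_nonneg (wPart_nonneg _ _), hdef]
  push_cast
  rfl

end Rows

end Cfsg.Agent.Lib.H8Group
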